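import Cfsg.Agent.J2Type.Order
import Cfsg.Agent.InvolConjTwo.MinusFour

/-!
From the statement-level hypotheses of Hall–Janko type to a configuration.
-/

set_option autoImplicit false

namespace Cfsg.Agent.J2Type

open Cfsg Cfsg.Agent.LargeExtra

theorem card_omega_minus_four :
    Nat.card ↥(Cfsg.Omega (ZMod 2) (Cfsg.quadFormMinus 1 (ZMod 2) 1 1)) = 60 := by
  haveI : Fact (Nat.Prime 2) := ⟨Nat.prime_two⟩
  obtain ⟨e⟩ := S0824.result (F := ZMod 2) (by simp)
  let eA : ↥(Cfsg.Omega (ZMod 2) (Cfsg.quadFormMinus 1 (ZMod 2) 1 1)) ≃* ↥(alternatingGroup (Fin 5)) :=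
    ((commutator _).equivMapOfInjective e.toMonoidHom e.injective).trans (MulEquiv.subgroupCongr (by
      rw [Classical.map_commutator_top_of_equiv, alternatingGroup.commutator_perm_eq (by simp)]))
  rw [Nat.card_congr eA.toEquiv, nat_card_alternatingGroup, Nat.card_fin]
  rfl

variable {G : Type*} [Group G] [Finite G]

theorem exists_setup (z : G) (hz : orderOf z = 2)
    (Q : Subgroup (Subgroup.centralizer ({z} : Set G))) [Q.Normal]
    (hF : Cfsg.generalizedFittingSubgroup (Subgroup.centralizer ({z} : Set G)) = Q)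
    (hQ : Cfsg.IsExtraspecial 2 Q) (hcard : Nat.card Q = 2 ^ 5)
    (e : (Subgroup.centralizer ({z} : Set G)) ⧸ Q ≃* Cfsg.Omega (ZMod 2) (Cfsg.quadFormMinus 1 (ZMod 2) 1 1))
    (hnwc : ∃ g : G, (∃ hq : g * z * g⁻¹ ∈ Subgroup.centralizer ({z} : Set G),
      (⟨g * z * g⁻¹, hq⟩ : Subgroup.centralizer ({z} : Set G)) ∈ Q) ∧ g * z * g⁻¹ ≠ z)
    (hcl : ∃ x y : G, orderOf x = 2 ∧ orderOf y = 2 ∧ ¬ IsConj x y) :
    ∃ (p : Fin 5 → G) (x : G), Cfg z (Q.map (Subgroup.centralizer ({z} : Set G)).subtype) p x := by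
  have hinj := Subgroup.subtype_injective (Subgroup.centralizer ({z} : Set G))
  have hQ' : Cfsg.IsExtraspecial 2 ↥(Q.map (Subgroup.centralizer ({z} : Set G)).subtype) :=
    isExtraspecial_map_equiv hQ (Q.equivMapOfInjective (Subgroup.centralizer ({z} : Set G)).subtype hinj)
  obtain ⟨ci, hcent, hnorm⟩ := centralInvolution_of_genFitting hz (Q := Q.map (Subgroup.centralizer ({z} : Set G)).subtype) (by rw [hF]) hQ'
  have hcardC : Nat.card (Subgroup.centralizer ({z} : Set G)) = 1920 := by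
    rw [Subgroup.card_eq_card_quotient_mul_card_subgroup Q, Nat.card_congr e.toEquiv,
      card_omega_minus_four, hcard]
    rfl
  obtain ⟨g, ⟨hq, hgQ⟩, hne⟩ := hnwc
  have h : Hyp z (Q.map (Subgroup.centralizer ({z} : Set G)).subtype) := ⟨ci, hcent, hnorm,
    by rw [Subgroup.card_map_of_injective hinj, hcard]; rfl, hcardC, g, ⟨_, hgQ, rfl⟩, hne⟩
  obtain ⟨p, d⟩ := exists_data h
  exact ⟨p, d.exists_cfg hcl⟩

end Cfsg.Agent.J2Type
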