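import Cfsg.Agent.J2Type.FiveCent
import Cfsg.Agent.J2Type.Enum.Iso

/-!
Six elements of a group of Hall–Janko type satisfying the relators, and the resulting isomorphism.
-/

set_option autoImplicit false

namespace Cfsg.Agent.J2Type

open Cfsg Cfsg.Agent.LargeExtra
open scoped symmDiff
open Enum (lett ev ev_append ev_invW map_ev_lett relC relB kW qW zW pW aW dW tW uW invW run32 linkW stepB)

/-- the permutations of the complement -/
def eA : Fin 6 → Equiv.Perm (Fin 5) := ![zp5, rp5, yp5, 1, 1, 1]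

/-- the permutations of the component, first case -/
def eK1 : Fin 6 → Equiv.Perm (Fin 5) := ![1, 1, 1, sp5, zp5, fp5]

/-- the permutations of the component, second case -/
def eK2 : Fin 6 → Equiv.Perm (Fin 5) := ![1, 1, 1, sp5 * zp5, zp5, fp5 * fp5]

/-- relators inside the component -/
def relK : List (List ℕ) := [[7, 7], [9, 9], [9, 7, 9, 7], [11, 11, 11, 11, 11], [9, 11, 9, 11],
  [7, 11, 7, 11, 7, 11, 7, 11, 7, 11], [7, 11, 11, 7, 11, 11, 7, 11, 11]]

/-- commutation relators -/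
def relM : List (List ℕ) := [[1, 7, 1, 7], [3, 7, 4, 7], [1, 9, 1, 9], [3, 9, 4, 9], [1, 11, 1, 12],
  [3, 11, 4, 12], [5, 9, 5, 9], [5, 11, 5, 12]]

/-- conjugating words -/
def gW : List (List ℕ × List ℕ) :=
  [([3, 1, 5], [5, 1, 4]), ([3, 3, 1, 5], [5, 1, 4, 4]), ([1, 5], [5, 1]), ([5], [5]), ([], [])]

/-- the indices of the eight representatives -/
def tIdx : List (List (Fin 5)) := [[], [4], [0, 1], [0, 2], [0, 3], [1, 2], [1, 3], [2, 3]]

theorem gW_table : ∀ i : Fin 5, (∀ l ∈ (gW.getD i.val ([], [])).1 ++ (gW.getD i.val ([], [])).2, 1 ≤ l ∧ l ≤ 6) ∧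
    pW.getD i.val [] = (gW.getD i.val ([], [])).1 ++ [7] ++ (gW.getD i.val ([], [])).2 ∧
    ev (lett eA) (gW.getD i.val ([], [])).1 4 = i ∧
    ev (lett eA) ((gW.getD i.val ([], [])).1 ++ (gW.getD i.val ([], [])).2) = 1 := by
  decide +kernel

theorem tW_table : tW = tIdx.map fun l => l.flatMap fun i => pW.getD i.val [] := by decide +kernel

theorem tIdx_table : ∀ A : Finset (Fin 5), Even A.card → 4 ∉ A →
    ∃ l ∈ tIdx, A = l.foldr (fun i B => (Finset.univ.erase i) ∆ B) ∅ := by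
  decide +kernel

theorem relC_table : ∀ w ∈ relC, ((∀ l ∈ w, 1 ≤ l ∧ l ≤ 6) ∧ ev (lett eA) w = 1) ∨ w ∈ relK ∨ w ∈ relM ∨
    w = pW.getD 3 [] ++ [7] ++ pW.getD 3 [] ++ [7] ++ [9] ∨
    w = ([0, 1, 2, 3, 4] : List (Fin 5)).flatMap (fun i => pW.getD i.val []) := by
  decide +kernel

theorem relK_table : ∀ w ∈ relK, (∀ l ∈ w, 7 ≤ l ∧ l ≤ 12) ∧ ev (lett eK1) w = 1 ∧ ev (lett eK2) w = 1 := by
  decide +kernel

theorem kW_table : (∀ l ∈ kW, 7 ≤ l ∧ l ≤ 12) ∧
    ev (lett eK1) (kW ++ [9] ++ invW kW) = eK1 3 ∧ ev (lett eK2) (kW ++ [9] ++ invW kW) = eK2 3 ∧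
    (ev (lett eK1) (kW ++ [7] ++ invW kW) = eK1 4 ∨ ev (lett eK1) (kW ++ [7] ++ invW kW) = eK1 4 * eK1 3) ∧
    (ev (lett eK2) (kW ++ [7] ++ invW kW) = eK2 4 ∨ ev (lett eK2) (kW ++ [7] ++ invW kW) = eK2 4 * eK2 3) := by
  decide +kernel

theorem aW_table : ∀ π : Equiv.Perm (Fin 5), Equiv.Perm.sign π = 1 →
    ∃ a ∈ aW, (∀ l ∈ a, 1 ≤ l ∧ l ≤ 6) ∧ ev (lett eA) a = π := by
  decide +kernel

theorem dW_table : ∀ π : Equiv.Perm (Fin 5), Equiv.Perm.sign π = 1 → π 4 = 4 →
    ∃ a ∈ dW, (∀ l ∈ a, 1 ≤ l ∧ l ≤ 6) ∧ ev (lett eA) a = π := by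
  decide +kernel

theorem qW_eq : qW = pW.getD 0 [] ++ pW.getD 1 [] := by decide

theorem letters_table : (∀ a ∈ dW, ∀ t ∈ tW, ∀ v ∈ [[], zW], ∀ l ∈ a ++ t ++ v, l ∈ stepB.letters) ∧
    (∀ l ∈ zW, l ∈ stepB.letters) ∧ zW = pW.getD 3 [] ++ [7] ++ pW.getD 3 [] ++ [7] := by
  decide +kernel

theorem cand_table : ∀ a ∈ dW, ∀ t ∈ tW, ∀ v ∈ [[], zW],
    (∀ i, run32 (a ++ t ++ v ++ (a ++ t ++ v)) i = run32 [7] i) →
    (∀ i, run32 ([1] ++ (a ++ t ++ v) ++ [1]) i = run32 (invW (a ++ t ++ v)) i) →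
    (∀ i, run32 (a ++ t ++ v ++ [3] ++ (a ++ t ++ v) ++ [4] ++ [3, 3] ++ (a ++ t ++ v) ++ [4, 4]) i = run32 [] i) →
    (∀ i, run32 (a ++ t ++ v ++ zW) i = run32 (zW ++ (a ++ t ++ v)) i) →
    a ++ t ++ v = uW := by
  decide +kernel

theorem invW_letters : ∀ a ∈ dW, ∀ t ∈ tW, ∀ v ∈ [[], zW], ∀ l ∈ invW (a ++ t ++ v), l ∈ stepB.letters := by
  decide +kernel

variable {G : Type*} [Group G]

/-- A word in the first six letters depends only on the first three elements. -/
theorem ev_low {H : Type*} [Group H] (φ : H →* G) {e : Fin 6 → G} {e' : Fin 6 → H}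
    (h0 : φ (e' 0) = e 0) (h1 : φ (e' 1) = e 1) (h2 : φ (e' 2) = e 2) {a : List ℕ}
    (ha : ∀ l ∈ a, 1 ≤ l ∧ l ≤ 6) : φ (ev (lett e') a) = ev (lett e) a := by
  rw [map_ev_lett]
  refine Enum.ev_congr fun l hl => ?_
  obtain ⟨a1, a2⟩ := ha l hl
  interval_cases l <;> simp [lett, h0, h1, h2]

/-- A word in the last six letters depends only on the last three elements. -/
theorem ev_high {H : Type*} [Group H] (φ : H →* G) {e : Fin 6 → G} {e' : Fin 6 → H}
    (h0 : φ (e' 3) = e 3) (h1 : φ (e' 4) = e 4) (h2 : φ (e' 5) = e 5) {a : List ℕ}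
    (ha : ∀ l ∈ a, 7 ≤ l ∧ l ≤ 12) : φ (ev (lett e') a) = ev (lett e) a := by
  rw [map_ev_lett]
  refine Enum.ev_congr fun l hl => ?_
  obtain ⟨a1, a2⟩ := ha l hl
  interval_cases l <;> simp [lett, h0, h1, h2]

theorem ev_four (e : Fin 6 → G) (a b c d : ℕ) :
    ev (lett e) [a, b, c, d] = lett e a * lett e b * lett e c * lett e d := by
  simp [ev, mul_assoc]

theorem supp_prod {z : G} {Q : Subgroup G} {P : Fin 5 → G} (d : Data z Q P) (l : List (Fin 5)) :
    (l.map P).prod ∈ Q ∧ supp P (l.map P).prod = l.foldr (fun i B => (Finset.univ.erase i) ∆ B) ∅ := by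
  induction l with
  | nil => exact ⟨one_mem Q, d.supp_one⟩
  | cons i l ih =>
    refine ⟨by rw [List.map_cons, List.prod_cons]; exact mul_mem (d.mem i) ih.1, ?_⟩
    rw [List.map_cons, List.prod_cons, d.supp_mul (d.mem i) ih.1, ih.2, d.supp_p]
    rfl

variable [Finite G]

namespace Cfg

variable {z : G} {Q : Subgroup G} {p : Fin 5 → G} {x : G} (c : Cfg z Q p x)
include c

theorem exists_rels : ∃ e : Fin 6 → G, Enum.Rels e ∧ e 3 ≠ 1 := by
  obtain ⟨K, hK⟩ := c.exists_comp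
  obtain ⟨W, hW⟩ := c.exists_W hK
  obtain ⟨k, hpK, F, hFinj, hFrange, hFz, hFp⟩ := c.exists_std hK
  have hzK : z ∈ K := c.V_le hK c.z_mem_V
  obtain ⟨f, hff⟩ : fp5 ∈ F.range := hFrange ▸ Equiv.Perm.mem_alternatingGroup.2 (by decide)
  have hsignF : ∀ g : K, Equiv.Perm.sign (F g) = 1 := fun g =>
    Equiv.Perm.mem_alternatingGroup.1 (hFrange ▸ ⟨g, rfl⟩)
  have hf : Five (z := z) K (f : G) := by
    refine ⟨f.2, ?_, ?_, ?_⟩
    · rw [Subgroup.orderOf_coe]
      haveI : Fact (Nat.Prime 5) := ⟨by norm_num⟩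
      refine orderOf_eq_prime (hFinj ?_) fun e => ?_
      · rw [map_pow, map_one, hff]; decide
      · rw [e, map_one] at hff
        exact absurd hff (by decide)
    · have h : (⟨z, hzK⟩ : K) * f * ⟨z, hzK⟩ = f⁻¹ := hFinj (by
        rw [map_mul, map_mul, map_inv, hff, hFz]; decide)
      exact congrArg Subtype.val h
    · intro g hg hgf
      obtain ⟨j, hj⟩ := five_centralizer (F ⟨g, hg⟩) (hsignF _) (by
        rw [← hff, ← map_mul, ← map_mul]
        exact congrArg F (Subtype.ext hgf))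
      have h : (⟨g, hg⟩ : K) = f ^ (j : ℕ) := hFinj (by rw [hj, map_pow, hff])
      rw [show g = (f : G) ^ (j : ℕ) from congrArg Subtype.val h]
      exact pow_mem (Subgroup.mem_zpowers _) _
  obtain ⟨D, hD, hDK, σ, hσinj, hσrange, hDL, hstab, hinv⟩ := c.exists_L hK hW hf
  have hLz : ∀ g : (CL (f : G) z), (g : G) * z = z * g := fun g => Subgroup.mem_centralizer_singleton_iff.1 g.2.2
  have hLf : ∀ g : (CL (f : G) z), (g : G) * f = f * g := fun g => Subgroup.mem_centralizer_singleton_iff.1 g.2.1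
  have hsignσ : ∀ g : (CL (f : G) z), Equiv.Perm.sign (σ g) = 1 := fun g =>
    Equiv.Perm.mem_alternatingGroup.1 (by rw [← hσrange]; exact ⟨g, rfl⟩)
  have hpre : ∀ π, Equiv.Perm.sign π = 1 → ∃ g : (CL (f : G) z), σ g = π := fun π hπ =>
    (by rw [hσrange]; exact Equiv.Perm.mem_alternatingGroup.2 hπ : π ∈ σ.range)
  -- `(CL (f : G) z)` meets `Q` trivially
  have hLQ : ∀ g : (CL (f : G) z), (g : G) ∈ Q → g = 1 := by
    intro g hg
    by_contra hg1
    have hg1' : (g : G) ≠ 1 := fun e => hg1 (Subtype.ext e)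
    rcases c.d.hyp.ci.sq_mem hg with h | h
    · exact c.not_conj ((c.d.isConj_z_of_mem hg h hg1').trans (hinv g (Subtype.ext h) hg1).symm)
    · have h1 : Commute z (f : G) := h ▸ (show Commute (g : G) f from hLf g).mul_left (hLf g)
      have h2 : (f : G) * f = 1 := by
        have h3 := hf.inverts
        rw [h1.eq, mul_assoc, c.d.hyp.ci.sq, mul_one] at h3
        nth_rewrite 1 [h3]
        rw [inv_mul_cancel]
      have h5 := orderOf_dvd_of_pow_eq_one (show (f : G) ^ 2 = 1 by rw [pow_two, h2])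
      rw [hf.order] at h5
      norm_num at h5
  -- five exact conjugates
  have hrep : ∀ i : Fin 5, ∃ g : (CL (f : G) z), σ g 4 = i := fun i => by
    obtain ⟨v, hv, hvi⟩ := Fin5.transitive 4 i
    obtain ⟨g, rfl⟩ := hpre v hv
    exact ⟨g, hvi⟩
  choose g hg using hrep
  have hDp : ∀ d ∈ D, d * p k = p k * d := fun d hd => hDK d hd _ hpK
  let P0 : Fin 5 → G := fun i => (g i : G) * p k * ((g i : (CL (f : G) z)) : G)⁻¹
  have hP0 : ∀ (h : (CL (f : G) z)) (i : Fin 5), σ h 4 = i → (h : G) * p k * (h : G)⁻¹ = P0 i := by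
    intro h i hi
    have hd : (((g i)⁻¹ * h : (CL (f : G) z)) : G) ∈ D := (hstab _).1 (by
      rw [map_mul, map_inv, Equiv.Perm.mul_apply, hi, Equiv.Perm.inv_eq_iff_eq]
      exact (hg i).symm)
    have h2 := hDp _ hd
    rw [Subgroup.coe_mul, Subgroup.coe_inv] at h2
    show _ = (g i : G) * p k * ((g i : (CL (f : G) z)) : G)⁻¹
    calc (h : G) * p k * (h : G)⁻¹ = (g i : G) * ((((g i : (CL (f : G) z)) : G)⁻¹ * h) * p k) * (h : G)⁻¹ := by group
      _ = _ := by rw [h2]; group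
  have hP0act : ∀ (h : (CL (f : G) z)) (i : Fin 5), (h : G) * P0 i * (h : G)⁻¹ = P0 (σ h i) := by
    intro h i
    rw [← hP0 (h * g i) (σ h i) (by rw [map_mul, Equiv.Perm.mul_apply, hg])]
    show (h : G) * ((g i : G) * p k * ((g i : (CL (f : G) z)) : G)⁻¹) * (h : G)⁻¹ = _
    rw [Subgroup.coe_mul]; group
  have hP04 : P0 4 = p k := by
    rw [← hP0 1 4 (by rw [map_one]; rfl), Subgroup.coe_one, inv_one, one_mul, mul_one]
  have hP0mem : ∀ i, P0 i ∈ Q := fun i => c.d.hyp.conj_mem (g i).2.2 (c.d.mem k)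
  let A : (CL (f : G) z) →* Equiv.Perm (Fin 5) := c.d.act.comp (Subgroup.inclusion inf_le_right)
  have hAinj : Function.Injective A := by
    rw [injective_iff_map_eq_one]
    exact fun a ha => hLQ a ((c.d.mem_ker_iff _).1 ha)
  have hAspec : ∀ i, P0 i = p (A (g i) k) ∨ P0 i = p (A (g i) k) * z := fun i =>
    c.d.act_spec (Subgroup.inclusion inf_le_right (g i)) k
  have hAinjk : ∀ i j, A (g i) k = A (g j) k → i = j := by
    intro i j hij
    classical
    haveI : Fintype (CL (f : G) z) := Fintype.ofFinite _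
    have hfix : A ((g j)⁻¹ * g i) k = k := by
      rw [map_mul, map_inv, Equiv.Perm.mul_apply, hij, Equiv.Perm.inv_eq_iff_eq]
    have hDfix : ∀ d : (CL (f : G) z), (d : G) ∈ D → A d k = k := by
      intro d hd
      refine c.d.cases_unique (x := p k) ?_ (Or.inl rfl)
      have h1 := c.d.act_spec (Subgroup.inclusion inf_le_right d) k
      have h2 : (d : G) * p k * (d : G)⁻¹ = p k := by rw [hDp _ hd, mul_inv_cancel_right]
      change (d : G) * p k * (d : G)⁻¹ = p (A d k) ∨ (d : G) * p k * (d : G)⁻¹ = p (A d k) * z at h1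
      rw [h2] at h1
      exact h1
    let S : Finset (CL (f : G) z) := Finset.univ.filter fun d => A d k = k
    let T : Finset (CL (f : G) z) := Finset.univ.filter fun d => (d : G) ∈ D
    have hsub : T ⊆ S := fun d hd => by
      simp only [T, S, Finset.mem_filter, Finset.mem_univ, true_and] at hd ⊢
      exact hDfix d hd
    have hT : T.card = 12 := by
      rw [← hD, ← Nat.card_eq_finsetCard]
      exact Nat.card_congr
        { toFun := fun d => ⟨((d : (CL (f : G) z)) : G), (Finset.mem_filter.1 d.2).2⟩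
          invFun := fun d => ⟨⟨d, hDL d.2⟩, Finset.mem_filter.2 ⟨Finset.mem_univ _, d.2⟩⟩
          left_inv := fun _ => rfl
          right_inv := fun _ => rfl }
    have hS : S.card ≤ 12 := by
      rw [← Fin5.stabilizer_card k]
      refine Finset.card_le_card_of_injOn A (fun d hd => ?_) hAinj.injOn
      have hd' : A d k = k := by simpa [S] using hd
      exact Finset.mem_filter.2 ⟨Finset.mem_univ _, c.d.sign_act _, hd'⟩
    have heq := Finset.eq_of_subset_of_card_le hsub (by omega)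
    have hm : (g j)⁻¹ * g i ∈ T := by
      rw [heq]
      exact Finset.mem_filter.2 ⟨Finset.mem_univ _, hfix⟩
    have := (hstab _).2 (Finset.mem_filter.1 hm).2
    rw [map_mul, map_inv, Equiv.Perm.mul_apply, hg, Equiv.Perm.inv_eq_iff_eq, hg] at this
    exact this
  have hzQ : ∀ {q : G}, q ∈ Q → Commute z q := fun hq => (c.d.hyp.ci.comm _ hq).symm
  have d0 : Data z Q P0 := by
    refine ⟨c.d.hyp, hP0mem, fun i => ?_, fun i j hij hc => ?_⟩
    · show (g i : G) * p k * ((g i : (CL (f : G) z)) : G)⁻¹ * ((g i : G) * p k * ((g i : (CL (f : G) z)) : G)⁻¹) = 1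
      calc (g i : G) * p k * ((g i : (CL (f : G) z)) : G)⁻¹ * ((g i : G) * p k * ((g i : (CL (f : G) z)) : G)⁻¹)
          = (g i : G) * (p k * p k) * ((g i : (CL (f : G) z)) : G)⁻¹ := by group
        _ = 1 := by rw [c.d.sq, mul_one, mul_inv_cancel]
    · have key : ∀ {a : Fin 5} {y v : G}, (y = p a ∨ y = p a * z) → v ∈ Q → Commute y v → Commute (p a) v := by
        intro a y v hy hv hyv
        rcases hy with rfl | rfl
        · exact hyv
        · have := hyv.mul_left (hzQ hv)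
          rwa [mul_assoc, c.d.hyp.ci.sq, mul_one] at this
      have h1 := key (hAspec i) (hP0mem j) hc
      have h2 := key (hAspec j) (c.d.mem _) h1.symm
      exact c.d.nc _ _ (fun e => hij (hAinjk i j e)) h2.symm
  -- normalise the product
  obtain ⟨hR, hRs⟩ := supp_prod d0 [0, 1, 2, 3, 4]
  have hRcases := d0.supp_eq_empty hR (hRs.trans (by decide))
  obtain ⟨P, f', d', hact, hprod, eKF, heK, hPK, hf'K, hf'L, hFeK⟩ : ∃ (P : Fin 5 → G) (f' : G),
      Data z Q P ∧ (∀ (h : (CL (f : G) z)) (i : Fin 5), (h : G) * P i * (h : G)⁻¹ = P (σ h i)) ∧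
      (([0, 1, 2, 3, 4] : List (Fin 5)).map P).prod = 1 ∧
      ∃ eKF : Fin 6 → Equiv.Perm (Fin 5), (eKF = eK1 ∨ eKF = eK2) ∧
      ∃ (hPK : P 4 ∈ K) (hf'K : f' ∈ K), (∀ h : (CL (f : G) z), (h : G) * f' = f' * h) ∧
        ∀ i, F ((![1, 1, 1, ⟨P 4, hPK⟩, ⟨z, hzK⟩, ⟨f', hf'K⟩] : Fin 6 → K) i) = eKF i := by
    have hsplit : P0 4 ∈ K := hP04 ▸ hpK
    rcases hRcases with hR1 | hRz
    · refine ⟨P0, f, d0, hP0act, hR1, eK1, Or.inl rfl, hsplit, f.2, hLf, fun i => ?_⟩
      have e1 : (⟨P0 4, hsplit⟩ : K) = ⟨p k, hpK⟩ := Subtype.ext hP04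
      fin_cases i <;> simp [eK1, e1, hFp, hFz, hff]
    · have hz5 : ∀ i, Commute z (P0 i) := fun i => hzQ (hP0mem i)
      refine ⟨fun i => P0 i * z, f * f, ?_, ?_, ?_, eK2, Or.inr rfl, mul_mem hsplit hzK, mul_mem f.2 f.2,
        fun h => ((show Commute (h : G) f from hLf h).mul_right (hLf h)).eq, fun i => ?_⟩
      · refine ⟨c.d.hyp, fun i => mul_mem (hP0mem i) c.d.hyp.ci.mem, fun i => ?_, fun i j hij hc => d0.nc i j hij ?_⟩
        · show P0 i * z * (P0 i * z) = 1
          rw [← mul_assoc, mul_assoc (P0 i), (hz5 i).eq, ← mul_assoc, d0.sq, one_mul, c.d.hyp.ci.sq]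
        · have h1 := hc.mul_left (hzQ (mul_mem (hP0mem j) c.d.hyp.ci.mem))
          rw [mul_assoc, c.d.hyp.ci.sq, mul_one] at h1
          have h2 := h1.mul_right ((hz5 i).symm : Commute (P0 i) z)
          rwa [mul_assoc, c.d.hyp.ci.sq, mul_one] at h2
      · intro h i
        show (h : G) * (P0 i * z) * (h : G)⁻¹ = P0 (σ h i) * z
        rw [← hP0act h i]
        calc (h : G) * (P0 i * z) * (h : G)⁻¹ = (h : G) * P0 i * (h : G)⁻¹ * ((h : G) * z * (h : G)⁻¹) := by group
          _ = _ := by rw [hLz h, mul_inv_cancel_right]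
      · have e : ∀ l : List (Fin 5), (l.map fun i => P0 i * z).prod = (l.map P0).prod * z ^ l.length := by
          intro l
          induction l with
          | nil => simp
          | cons i l ih =>
            rw [List.map_cons, List.map_cons, List.prod_cons, List.prod_cons, ih, List.length_cons, pow_succ']
            calc P0 i * z * ((l.map P0).prod * z ^ l.length)
                = P0 i * ((z * (l.map P0).prod) * z ^ l.length) := by group
              _ = P0 i * (((l.map P0).prod * z) * z ^ l.length) := by rw [(hzQ (supp_prod d0 l).1).eq]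
              _ = _ := by group
        rw [e, hRz, show ([0, 1, 2, 3, 4] : List (Fin 5)).length = 5 from rfl,
          show (5 : ℕ) = 2 + 2 + 1 from rfl, pow_succ, pow_add, pow_two, c.d.hyp.ci.sq, one_mul, one_mul,
          c.d.hyp.ci.sq]
      · have e1 : (⟨P0 4 * z, mul_mem hsplit hzK⟩ : K) = ⟨p k, hpK⟩ * ⟨z, hzK⟩ :=
          Subtype.ext (by show P0 4 * z = p k * z; rw [hP04])
        have e2 : (⟨(f : G) * f, mul_mem f.2 f.2⟩ : K) = f * f := rfl
        have e3 : F ⟨p k * z, mul_mem hpK hzK⟩ = sp5 * zp5 :=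
          (map_mul F ⟨p k, hpK⟩ ⟨z, hzK⟩).trans (by rw [hFp, hFz])
        fin_cases i <;> simp [eK2, e1, e2, e3, hFp, hFz, hff]
  -- the six elements
  obtain ⟨gw, hgw⟩ := hpre zp5 (by decide)
  obtain ⟨gr, hgr⟩ := hpre rp5 (by decide)
  obtain ⟨gy, hgy⟩ := hpre yp5 (by decide)
  let e : Fin 6 → G := ![(gw : G), gr, gy, P 4, z, f']
  let eL : Fin 6 → (CL (f : G) z) := ![gw, gr, gy, 1, 1, 1]
  let eK : Fin 6 → K := ![1, 1, 1, ⟨P 4, hPK⟩, ⟨z, hzK⟩, ⟨f', hf'K⟩]
  have hσL : (fun i => σ (eL i)) = eA := by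
    funext i
    fin_cases i <;> simp [eL, eA, hgw, hgr, hgy]
  have hFK : (fun i => F (eK i)) = eKF := funext hFeK
  have hlow : ∀ {a : List ℕ}, (∀ l ∈ a, 1 ≤ l ∧ l ≤ 6) → ((ev (lett eL) a : (CL (f : G) z)) : G) = ev (lett e) a :=
    fun ha => ev_low (e := e) (e' := eL) (CL (f : G) z).subtype rfl rfl rfl ha
  have hhigh : ∀ {a : List ℕ}, (∀ l ∈ a, 7 ≤ l ∧ l ≤ 12) → ((ev (lett eK) a : K) : G) = ev (lett e) a :=
    fun ha => ev_high (e := e) (e' := eK) K.subtype rfl rfl rfl ha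
  have hσev : ∀ a, σ (ev (lett eL) a) = ev (lett eA) a := fun a => by rw [map_ev_lett, hσL]
  have hFev : ∀ a, F (ev (lett eK) a) = ev (lett eKF) a := fun a => by rw [map_ev_lett, hFK]
  have he7 : lett e 7 = P 4 := rfl
  have he9 : lett e 9 = z := rfl
  have hone : ∀ l, ev (lett e) [l] = lett e l := fun l => mul_one _
  have hp : ∀ i : Fin 5, ev (lett e) (pW.getD i.val []) = P i := by
    intro i
    obtain ⟨h1, h2, h3, h4⟩ := gW_table i
    rw [h2, ev_append, ev_append, hone, he7, ← hlow fun l hl => h1 l (List.mem_append_left _ hl),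
      ← hlow fun l hl => h1 l (List.mem_append_right _ hl)]
    have hinv' : ev (lett eL) (gW.getD i.val ([], [])).2 = (ev (lett eL) (gW.getD i.val ([], [])).1)⁻¹ := by
      refine (inv_eq_of_mul_eq_one_right (hσinj ?_)).symm
      rw [← ev_append, hσev, h4, map_one]
    rw [hinv', Subgroup.coe_inv, hact, hσev, h3]
  have hflat : ∀ l : List (Fin 5), ev (lett e) (l.flatMap fun i => pW.getD i.val []) = (l.map P).prod := by
    intro l
    induction l with
    | nil => rfl
    | cons i l ih => rw [List.flatMap_cons, ev_append, ih, hp, List.map_cons, List.prod_cons]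
  have hPmem := d'.mem
  have hcomm34 : ∀ i j : Fin 5, i ≠ j → P i * P j * (P i * P j) = z := by
    intro i j hij
    have h1 := d'.hyp.ci.comm_mem (d'.mem i) (d'.mem j)
    rw [d'.inv_p, d'.inv_p] at h1
    rcases h1 with h | h
    · refine absurd ?_ (d'.nc i j hij)
      calc P i * P j = P i * P j * P i * P j * (P j * P i) := by
            rw [show P i * P j * P i * P j * (P j * P i) = P i * P j * P i * (P j * P j) * P i by group,
              d'.sq, mul_one, mul_assoc (P i * P j), d'.sq, mul_one]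
        _ = P j * P i := by rw [h, one_mul]
    · rw [← mul_assoc]; exact h
  have hprod34 : ev (lett e) (pW.getD 3 [] ++ [7] ++ pW.getD 3 [] ++ [7]) = z := by
    have h3 := hp 3
    change ev (lett e) (pW.getD 3 []) = P 3 at h3
    rw [ev_append, ev_append, ev_append, hone, he7, h3, mul_assoc]
    exact hcomm34 3 4 (by decide)
  have hw2 : (gw : G) * gw = 1 := congrArg Subtype.val
    (hσinj (by rw [map_mul, map_one, hgw]; decide) : gw * gw = 1)
  have hy2 : (gy : G) * gy = 1 := congrArg Subtype.val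
    (hσinj (by rw [map_mul, map_one, hgy]; decide) : gy * gy = 1)
  have hrelC : ∀ w ∈ relC, ev (lett e) w = 1 := by
    intro w hw
    rcases relC_table w hw with ⟨h1, h2⟩ | h | h | rfl | rfl
    · rw [← hlow h1, hσinj (show σ (ev (lett eL) w) = σ 1 by rw [hσev, h2, map_one])]
      rfl
    · obtain ⟨h1, h2, h3⟩ := relK_table w h
      rw [← hhigh h1, hFinj (show F (ev (lett eK) w) = F 1 by
        rw [hFev, map_one]; rcases heK with rfl | rfl
        · exact h2
        · exact h3)]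
      rfl
    · have hz2 : z * z = 1 := c.d.hyp.ci.sq
      have hp4 := d'.sq 4
      have hwp : (gw : G) * P 4 * (gw : G)⁻¹ = P 4 := by rw [hact, hgw]; rfl
      have hrp : (gr : G) * P 4 * (gr : G)⁻¹ = P 4 := by rw [hact, hgr]; rfl
      have q2 : ∀ {a b : G}, a * a = 1 → b * b = 1 → a * b = b * a → a * b * a * b = 1 := by
        intro a b ha hb hab
        rw [hab, mul_assoc b, ha, mul_one, hb]
      have q3 : ∀ {a b : G}, b * b = 1 → a * b = b * a → a * b * a⁻¹ * b = 1 := by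
        intro a b hb hab
        rw [hab, mul_inv_cancel_right, hb]
      have q4 : ∀ {a b : G}, a * b = b * a → a * b * a⁻¹ * b⁻¹ = 1 := by
        intro a b hab
        rw [hab, mul_inv_cancel_right, mul_inv_cancel]
      simp only [relM, List.mem_cons, List.not_mem_nil, or_false] at h
      rcases h with rfl | rfl | rfl | rfl | rfl | rfl | rfl | rfl <;> rw [ev_four]
      · exact q2 hw2 hp4 (mul_inv_eq_iff_eq_mul.1 hwp)
      · exact q3 hp4 (mul_inv_eq_iff_eq_mul.1 hrp)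
      · exact q2 hw2 hz2 (hLz gw)
      · exact q3 hz2 (hLz gr)
      · have := q4 (hf'L gw)
        rwa [inv_eq_of_mul_eq_one_right hw2] at this
      · exact q4 (hf'L gr)
      · exact q2 hy2 hz2 (hLz gy)
      · have := q4 (hf'L gy)
        rwa [inv_eq_of_mul_eq_one_right hy2] at this
    · rw [ev_append, hprod34, hone, he9]
      exact c.d.hyp.ci.sq
    · exact (hflat _).trans hprod
  refine ⟨e, ⟨hrelC, (Enum.ev_linkW e).2 ?_⟩, d'.ne_one 4⟩
  -- linking
  obtain ⟨hkl, hkz1, hkz2, hkp1, hkp2⟩ := kW_table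
  set kk := ev (lett e) kW with hkk
  have hkK : kk ∈ K := by rw [hkk, ← hhigh hkl]; exact (ev (lett eK) kW).2
  have hword : ∀ j : ℕ, 7 ≤ j → j ≤ 12 →
      ((ev (lett eK) (kW ++ [j] ++ invW kW) : K) : G) = kk * lett e j * kk⁻¹ := by
    intro j h1 h2
    rw [ev_append, ev_append, ev_invW, Subgroup.coe_mul, Subgroup.coe_mul, Subgroup.coe_inv, hhigh hkl,
      hhigh (a := [j]) (by simp [h1, h2]), hone]
  have hkz : kk * z * kk⁻¹ = P 4 := by
    rw [← he9, ← hword 9 (by norm_num) (by norm_num)]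
    refine congrArg Subtype.val (?_ : ev (lett eK) (kW ++ [9] ++ invW kW) = ⟨P 4, hPK⟩)
    refine hFinj ?_
    rw [hFev, show F ⟨P 4, hPK⟩ = eKF 3 from hFeK 3]
    rcases heK with rfl | rfl
    exacts [hkz1, hkz2]
  have hkp : kk * P 4 * kk⁻¹ = z ∨ kk * P 4 * kk⁻¹ = z * P 4 := by
    rw [← he7, ← hword 7 (by norm_num) (by norm_num)]
    have h1 : F ⟨z, hzK⟩ = eKF 4 := hFeK 4
    have h2 : F ⟨P 4, hPK⟩ = eKF 3 := hFeK 3
    have h3 : ev (lett eKF) (kW ++ [7] ++ invW kW) = eKF 4 ∨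
        ev (lett eKF) (kW ++ [7] ++ invW kW) = eKF 4 * eKF 3 := by
      rcases heK with rfl | rfl
      exacts [hkp1, hkp2]
    rcases h3 with h | h
    · exact Or.inl (congrArg Subtype.val (hFinj (by rw [hFev, h, h1]) :
        ev (lett eK) (kW ++ [7] ++ invW kW) = ⟨z, hzK⟩))
    · exact Or.inr (congrArg Subtype.val (hFinj (by rw [hFev, h, map_mul, h1, h2]) :
        ev (lett eK) (kW ++ [7] ++ invW kW) = ⟨z, hzK⟩ * ⟨P 4, hPK⟩))
  set q := P 0 * P 1 with hq
  have hqQ : q ∈ Q := mul_mem (d'.mem 0) (d'.mem 1)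
  have hqp : Commute (P 4) q := by
    by_contra h
    have h1 : (4 : Fin 5) ∈ supp P q := mem_supp.2 h
    rw [hq, d'.supp_mul (d'.mem 0) (d'.mem 1), d'.supp_p, d'.supp_p] at h1
    revert h1
    decide
  have hqq : q * q = z := hcomm34 0 1 (by decide)
  set u := kk * q * kk⁻¹ with hu
  have hqe : ev (lett e) qW = q := by
    rw [qW_eq, ev_append]
    exact congrArg₂ (· * ·) (hp 0) (hp 1)
  rw [hqe]
  show u = ev (lett e) uW
  have huz : u * z = z * u := by
    have h1 : Commute q (kk⁻¹ * z * kk) := by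
      have hz' : kk⁻¹ * P 4 * kk = z := by rw [← hkz]; group
      rcases hkp with h | h
      · rw [show kk⁻¹ * z * kk = P 4 by rw [← h]; group]
        exact hqp.symm
      · rw [show kk⁻¹ * z * kk = P 4 * z by
          have : z = kk * P 4 * kk⁻¹ * P 4 := by rw [h, mul_assoc, d'.sq, mul_one]
          nth_rewrite 1 [this]
          calc kk⁻¹ * (kk * P 4 * kk⁻¹ * P 4) * kk = P 4 * (kk⁻¹ * P 4 * kk) := by group
            _ = P 4 * z := by rw [hz']]
        exact hqp.symm.mul_right (hzQ hqQ).symm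
    calc u * z = kk * (q * (kk⁻¹ * z * kk)) * kk⁻¹ := by rw [hu]; group
      _ = kk * ((kk⁻¹ * z * kk) * q) * kk⁻¹ := by rw [h1.eq]
      _ = z * u := by rw [hu]; group
  have hup : u * P 4 = P 4 * u := by
    rw [← hkz]
    exact (commute_conj_iff.2 (hzQ hqQ).symm : Commute u (kk * z * kk⁻¹))
  have huu : u * u = P 4 := by
    calc u * u = kk * (q * q) * kk⁻¹ := by rw [hu]; group
      _ = P 4 := by rw [hqq, hkz]
  have hPD : ∀ h : (CL (f : G) z), σ h 4 = 4 → (h : G) * kk = kk * h := fun h hh => hDK _ ((hstab h).1 hh) _ hkK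
  have hconj : ∀ h : (CL (f : G) z), σ h 4 = 4 → (h : G) * u * (h : G)⁻¹ = kk * (P (σ h 0) * P (σ h 1)) * kk⁻¹ := by
    intro h hh
    rw [← hact h 0, ← hact h 1]
    have hc : Commute (h : G) kk := hPD h hh
    calc (h : G) * u * (h : G)⁻¹ = ((h : G) * kk) * q * ((kk⁻¹) * (h : G)⁻¹) := by rw [hu]; group
      _ = (kk * h) * q * ((h : G)⁻¹ * kk⁻¹) := by rw [hc.eq, hc.inv_inv.symm.eq]
      _ = _ := by rw [hq]; group
  have hwu : (gw : G) * u * gw = u⁻¹ := by
    have h1 := hconj gw (by rw [hgw]; rfl)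
    rw [inv_eq_of_mul_eq_one_right hw2, hgw] at h1
    rw [h1, hu, show zp5 0 = 1 from rfl, show zp5 1 = 0 from rfl, mul_inv_rev, mul_inv_rev, inv_inv, hq,
      mul_inv_rev, d'.inv_p, d'.inv_p]
    group
  have hru : u * ((gr : G) * u * (gr : G)⁻¹) * ((gr : G) * gr * u * ((gr : G) * gr)⁻¹) = 1 := by
    have h1 := hconj gr (by rw [hgr]; rfl)
    have h2 := hconj (gr * gr) (by rw [map_mul, hgr]; rfl)
    rw [Subgroup.coe_mul, map_mul] at h2
    rw [h1, h2, hgr, show rp5 0 = 1 from rfl, show rp5 1 = 2 from rfl, show (rp5 * rp5) 0 = 2 from rfl,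
      show (rp5 * rp5) 1 = 0 from rfl, hu, hq]
    calc kk * (P 0 * P 1) * kk⁻¹ * (kk * (P 1 * P 2) * kk⁻¹) * (kk * (P 2 * P 0) * kk⁻¹)
        = kk * (P 0 * (P 1 * P 1) * (P 2 * P 2) * P 0) * kk⁻¹ := by group
      _ = 1 := by rw [d'.sq, d'.sq, mul_one, mul_one, d'.sq, mul_one, mul_inv_cancel]
  -- the form of `u`
  have huC : u ∈ Subgroup.centralizer ({z} : Set G) := Subgroup.mem_centralizer_singleton_iff.2 huz
  have hfix4 : d'.act ⟨u, huC⟩ 4 = 4 := by
    refine d'.cases_unique (x := P 4) ?_ (Or.inl rfl)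
    have h1 := d'.act_spec ⟨u, huC⟩ 4
    change u * P 4 * u⁻¹ = _ ∨ u * P 4 * u⁻¹ = _ at h1
    rwa [hup, mul_inv_cancel_right] at h1
  obtain ⟨a, haD, ha16, haπ⟩ := dW_table _ (d'.sign_act _) hfix4
  set aL := ev (lett eL) a with haL
  have hσa : σ aL = d'.act ⟨u, huC⟩ := by rw [haL, hσev, haπ]
  have hacta : d'.act ⟨(aL : G), aL.2.2⟩ = σ aL := Equiv.ext fun i => by
    refine d'.cases_unique (x := P (σ aL i)) ?_ (Or.inl rfl)
    have h1 := d'.act_spec ⟨(aL : G), aL.2.2⟩ i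
    change (aL : G) * P i * (aL : G)⁻¹ = _ ∨ (aL : G) * P i * (aL : G)⁻¹ = _ at h1
    rwa [hact] at h1
  set t := (aL : G)⁻¹ * u with ht
  have htQ : t ∈ Q := (d'.mem_ker_iff (⟨(aL : G), aL.2.2⟩⁻¹ * ⟨u, huC⟩)).1 (by
    rw [map_mul, map_inv, hacta, hσa, inv_mul_cancel])
  have ht4 : (4 : Fin 5) ∉ supp P t := by
    rw [mem_supp, not_not]
    have ha4 : (aL : G) * P 4 * (aL : G)⁻¹ = P 4 := by rw [hact, hσa, hfix4]
    exact (Commute.inv_right (show Commute (P 4) (aL : G) from (mul_inv_eq_iff_eq_mul.1 ha4).symm)).mul_right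
      (show Commute (P 4) u from hup.symm)
  obtain ⟨l, hl, hsl⟩ := tIdx_table _ (d'.supp_even htQ) ht4
  obtain ⟨hlQ, hls⟩ := supp_prod d' l
  set tw := l.flatMap fun i => pW.getD i.val [] with htw
  have htwW : tw ∈ tW := by rw [tW_table]; exact List.mem_map.2 ⟨l, hl, rfl⟩
  have hzev : ev (lett e) zW = z := letters_table.2.2 ▸ hprod34
  obtain ⟨v, hv, hcv⟩ : ∃ v ∈ [[], zW], ev (lett e) (a ++ tw ++ v) = u := by
    have hu' : (aL : G) * t = u := by rw [ht, mul_inv_cancel_left]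
    rcases d'.eq_of_supp_eq hlQ htQ (hls.trans hsl.symm) with h | h
    · refine ⟨[], List.mem_cons_self, ?_⟩
      rw [List.append_nil, ev_append, ← hlow ha16, htw, hflat, ← h, hu']
    · refine ⟨zW, List.mem_cons_of_mem _ List.mem_cons_self, ?_⟩
      rw [ev_append, ev_append, ← hlow ha16, htw, hflat, hzev, mul_assoc, ← h, hu']
  -- the centraliser part has full order
  have hcard : 1920 ≤ Nat.card (Subgroup.closure (lett e '' {l | l ∈ stepB.letters})) := by
    set S := Subgroup.closure (lett e '' {l | l ∈ stepB.letters})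
    have hmem : ∀ w : List ℕ, (∀ l ∈ w, l ∈ stepB.letters) → ev (lett e) w ∈ S := fun w hw => Enum.ev_mem e hw
    have hQS : Q ≤ S := by
      rw [← d'.closure_eq, Subgroup.closure_le]
      rintro _ ⟨i, rfl⟩
      rw [← hp i]
      exact hmem _ ((by decide : ∀ i : Fin 5, ∀ l ∈ pW.getD i.val [], l ∈ stepB.letters) i)
    have hLS : (CL (f : G) z) ≤ S := by
      intro h hh
      obtain ⟨b, -, hb16, hb⟩ := aW_table _ (hsignσ ⟨h, hh⟩)
      have e1 : ev (lett eL) b = ⟨h, hh⟩ := hσinj (by rw [hσev, hb])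
      have e2 := hlow hb16
      rw [e1] at e2
      show h ∈ S
      rw [show h = ev (lett e) b from e2]
      refine hmem b fun l hl => ?_
      obtain ⟨a1, a2⟩ := hb16 l hl
      interval_cases l <;> decide
    have hLcard : Nat.card (CL (f : G) z) = 60 := by
      rw [Nat.card_congr (MonoidHom.ofInjective hσinj).toEquiv, hσrange, nat_card_alternatingGroup, Nat.card_fin]
      rfl
    calc 1920 = Nat.card (Q × (CL (f : G) z)) := by rw [Nat.card_prod, d'.hyp.cardQ, hLcard]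
      _ ≤ Nat.card S := by
        refine Nat.card_le_card_of_injective
          (fun r : Q × (CL (f : G) z) => (⟨(r.1 : G) * r.2, mul_mem (hQS r.1.2) (hLS r.2.2)⟩ : S)) ?_
        rintro ⟨q₁, l₁⟩ ⟨q₂, l₂⟩ h
        have h' : (q₁ : G) * l₁ = q₂ * l₂ := congrArg Subtype.val h
        have e1 : ((l₁ * l₂⁻¹ : (CL (f : G) z)) : G) = (q₁ : G)⁻¹ * q₂ := by
          rw [Subgroup.coe_mul, Subgroup.coe_inv]
          calc (l₁ : G) * (l₂ : G)⁻¹ = (q₁ : G)⁻¹ * ((q₁ : G) * l₁) * (l₂ : G)⁻¹ := by group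
            _ = _ := by rw [h']; group
        have e2 : l₁ = l₂ := mul_inv_eq_one.1 (hLQ _ (e1 ▸ mul_mem (inv_mem q₁.2) q₂.2))
        subst e2
        exact Prod.ext (Subtype.ext (mul_right_cancel h')) rfl
  have hB : Enum.RelsB e := Enum.relsB_of hrelC
  have hrun := @Enum.run32_eq G _ e hB hcard
  have hcl : ∀ l ∈ a ++ tw ++ v, l ∈ stepB.letters := letters_table.1 a haD tw htwW v hv
  have happ : ∀ {b c' : List ℕ}, (∀ l ∈ b, l ∈ stepB.letters) → (∀ l ∈ c', l ∈ stepB.letters) →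
      ∀ l ∈ b ++ c', l ∈ stepB.letters := fun hb hc l hl => (List.mem_append.1 hl).elim (hb l) (hc l)
  have h13 : ∀ l ∈ [3], l ∈ stepB.letters := by decide
  have h14 : ∀ l ∈ [4], l ∈ stepB.letters := by decide
  have h133 : ∀ l ∈ [3, 3], l ∈ stepB.letters := by decide
  have h144 : ∀ l ∈ [4, 4], l ∈ stepB.letters := by decide
  have h11 : ∀ l ∈ [1], l ∈ stepB.letters := by decide
  rw [← hcv]
  refine congrArg (ev (lett e)) (cand_table a haD tw htwW v hv ?_ ?_ ?_ ?_)
  · exact hrun (happ hcl hcl) (by decide) (by rw [ev_append, hcv, hone, he7, huu])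
  · refine hrun (happ (happ h11 hcl) h11) (invW_letters a haD tw htwW v hv) ?_
    rw [ev_append, ev_append, hone, ev_invW, hcv]
    exact hwu
  · refine hrun (happ (happ (happ (happ (happ (happ hcl h13) hcl) h14) h133) hcl) h144) (by decide) ?_
    simp only [ev_append, hcv, hone]
    have e3 : ev (lett e) [3, 3] = (gr : G) * gr := by simp [ev, lett, e]
    have e4 : ev (lett e) [4, 4] = ((gr : G) * gr)⁻¹ := by simp [ev, lett, e]
    have e5 : lett e 3 = (gr : G) := rfl
    have e6 : lett e 4 = ((gr : (CL (f : G) z)) : G)⁻¹ := rfl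
    rw [e3, e4, e5, e6, Enum.ev_nil, ← hru]
    group
  · refine hrun (happ hcl letters_table.2.1) (happ letters_table.2.1 hcl) ?_
    rw [ev_append (lett e) (a ++ tw ++ v) zW, ev_append (lett e) zW (a ++ tw ++ v), hcv, hzev, huz]

/-- **Uniqueness.** -/
theorem nonempty_iso_model : Nonempty (G ≃* ↥Cfsg.Agent.Janko2.K) := by
  obtain ⟨e, he, hne⟩ := c.exists_rels
  exact Enum.nonempty_iso_K he hne c.card_G

end Cfg

end Cfsg.Agent.J2Type
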