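import Cfsg.Agent.J2Type.Pairs
import Cfsg.Agent.TwoFusion.BSW
import Mathlib.GroupTheory.Transfer

/-!
The centraliser of the second class is the product of a four group and a group of order 60.
-/

set_option autoImplicit false

namespace Cfsg.Agent.J2Type

open Cfsg Cfsg.Agent.LargeExtra

variable {G : Type*} [Group G] [Finite G]

namespace Cfg

variable {z : G} {Q : Subgroup G} {p : Fin 5 → G} {x : G} (c : Cfg z Q p x)
include c

theorem mul_x_isConj {u : G} (hu : u ∈ c.E) (huz : IsConj z u) : IsConj x (u * x) := by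
  obtain ⟨huQ, -⟩ := (c.conj_z_iff hu).1 huz
  have hne : u * x ∉ Q := fun h => c.outer.2.2 (by simpa using mul_mem (inv_mem huQ) h)
  refine c.isConj_x_of_outer ⟨c.E_sq (mul_mem hu c.x_mem_E), (c.mem_E.1 (mul_mem hu c.x_mem_E)).1, hne⟩

/-- The case in which the conjugates of `z` in `E` are permuted by the centraliser of `x`. -/
theorem false_of_normal
    (hn : ∀ h ∈ Subgroup.centralizer ({x} : Set G), ∀ u ∈ c.E, IsConj z u → h * u * h⁻¹ ∈ c.E) : False := by
  classical
  set H := Subgroup.centralizer ({x} : Set G) with hH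
  let X := {u : G // u ∈ c.E ∧ IsConj z u}
  have hZ : ∀ u v : G, IsConj z u → u * x = x * u → v * v = 1 → v * x = x * v → u ∈ c.E ∧ u * v = v * u := by
    intro u v hu hux hv hvx
    have huE : u ∈ c.E := by
      obtain ⟨h, hh, he⟩ := c.conj_into_E (sq_of_orderOf ((Invol.orderOf_eq_of_isConj hu).symm.trans
        c.d.hyp.ci.order_two)) hux
      have := hn h⁻¹ (inv_mem hh) _ he (hu.trans (Invol.isConj_conj h u))
      simpa [mul_assoc] using this
    obtain ⟨h, hh, he⟩ := c.conj_into_E hv hvx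
    exact ⟨huE, commute_conj_iff.1 (c.E_comm (hn h hh u huE hu) he)⟩
  have h3 : Nat.card {q : G × G // IsConj z q.1 ∧ IsConj x q.2 ∧ x ∈ Subgroup.zpowers (q.1 * q.2)} = 3 := by
    rw [← c.card_four]
    refine Nat.card_congr (Equiv.ofBijective (fun q => ⟨q.1.1, ?_, q.2.1⟩) ⟨?_, ?_⟩)
    · obtain ⟨hu, hv, hmem⟩ := q.2
      have hu2 := sq_of_orderOf ((Invol.orderOf_eq_of_isConj hu).symm.trans c.d.hyp.ci.order_two)
      have hv2 := sq_of_orderOf ((Invol.orderOf_eq_of_isConj hv).symm.trans c.order_x)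
      obtain ⟨hux, hvx⟩ := commute_of_pair hu2 hv2 c.outer.1 hmem
      exact (hZ _ _ hu hux hv2 hvx).1
    · have key : ∀ q : {q : G × G // IsConj z q.1 ∧ IsConj x q.2 ∧ x ∈ Subgroup.zpowers (q.1 * q.2)},
          q.1.2 = q.1.1 * x := by
        rintro ⟨⟨u, v⟩, hu, hv, hmem⟩
        have hu2 := sq_of_orderOf ((Invol.orderOf_eq_of_isConj hu).symm.trans c.d.hyp.ci.order_two)
        have hv2 := sq_of_orderOf ((Invol.orderOf_eq_of_isConj hv).symm.trans c.order_x)
        obtain ⟨hux, hvx⟩ := commute_of_pair hu2 hv2 c.outer.1 hmem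
        have hc := (hZ _ _ hu hux hv2 hvx).2
        have hsq : u * v * (u * v) = 1 := by
          rw [mul_assoc u v, ← mul_assoc v u v, ← hc, mul_assoc u v v, hv2, mul_one, hu2]
        obtain ⟨n, hn'⟩ := hmem
        rcases Int.even_or_odd' n with ⟨m, rfl | rfl⟩
        · exfalso
          apply c.x_ne_one
          rw [← hn']
          show (u * v) ^ (2 * m) = 1
          rw [zpow_mul, zpow_two, hsq, one_zpow]
        · show v = u * x
          rw [← hn']
          show v = u * (u * v) ^ (2 * m + 1)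
          rw [zpow_add_one, zpow_mul, zpow_two, hsq, one_zpow, one_mul, ← mul_assoc, hu2, one_mul]
      intro a b hab
      have h1 : a.1.1 = b.1.1 := congrArg Subtype.val hab
      exact Subtype.ext (Prod.ext h1 (by rw [key a, key b, h1]))
    · rintro ⟨u, huE, huz⟩
      refine ⟨⟨(u, u * x), huz, c.mul_x_isConj huE huz, ?_⟩, rfl⟩
      have : u * (u * x) = x := by rw [← mul_assoc, c.E_sq huE, one_mul]
      show x ∈ Subgroup.zpowers (u * (u * x))
      rw [this]
      exact Subgroup.mem_zpowers x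
  -- the action on the three conjugates
  letI : MulAction H X :=
    { smul := fun a u => ⟨(a : G) * u.1 * (a : G)⁻¹, hn a a.2 u.1 u.2.1 u.2.2,
        u.2.2.trans (Invol.isConj_conj _ _)⟩
      one_smul := fun u => Subtype.ext (show ((1 : H) : G) * u.1 * ((1 : H) : G)⁻¹ = u.1 by simp)
      mul_smul := fun a b u => Subtype.ext (show ((a * b : H) : G) * u.1 * ((a * b : H) : G)⁻¹ =
        (a : G) * ((b : G) * u.1 * (b : G)⁻¹) * (a : G)⁻¹ by simp [mul_assoc]) }
  haveI : Fintype X := Fintype.ofFinite X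
  let f : H →* Equiv.Perm X := MulAction.toPermHom H X
  have hker : f.ker = c.E.subgroupOf H := by
    ext a
    rw [MonoidHom.mem_ker, Subgroup.mem_subgroupOf]
    constructor
    · intro h
      have := congrArg Subtype.val (Equiv.ext_iff.1 h ⟨z, c.z_mem_E, IsConj.refl z⟩)
      exact c.mem_E.2 ⟨mul_inv_eq_iff_eq_mul.1 this, Subgroup.mem_centralizer_singleton_iff.1 a.2⟩
    · intro ha
      refine Equiv.ext fun u => Subtype.ext ?_
      show (a : G) * u.1 * (a : G)⁻¹ = u.1
      exact mul_inv_eq_iff_eq_mul.2 (c.E_comm ha u.2.1)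
  have hdvd : Nat.card f.range ∣ 6 := by
    have := Subgroup.card_subgroup_dvd_card f.range
    have e : Nat.card (Equiv.Perm X) = 6 := by
      rw [Nat.card_perm, c.card_four]; rfl
    rwa [e] at this
  have hHc : Nat.card H = 16 * Nat.card f.range := by
    have := Subgroup.card_mul_index f.ker
    rw [Subgroup.index_ker, hker, Nat.card_congr (Subgroup.subgroupOfEquivOfLe c.E_le).toEquiv, c.card_E] at this
    exact this.symm
  have hodd : ¬ 2 ∣ Nat.card f.range := by
    haveI : Fact (Nat.Prime 2) := ⟨Nat.prime_two⟩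
    obtain ⟨S, hS⟩ := c.exists_sylow
    have h2 := S.not_dvd_index
    rw [hS, ← hker, Subgroup.index_ker] at h2
    exact h2
  have hle : Nat.card f.range ≤ 3 := by
    have := Nat.le_of_dvd (by norm_num) hdvd
    interval_cases (Nat.card f.range) <;> omega
  have h1 := c.order_eq
  have h2 := c.index_ge
  rw [h3, ← hH, hHc] at h1
  omega

/-- An element of the normaliser of `E` acts trivially on `E` modulo the conjugates of `z`. -/
theorem conj_mul_mem_Q {g e : G} (hgN : ∀ w ∈ c.E, g * w * g⁻¹ ∈ c.E)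
    (hgx : g * x = x * g) (he : e ∈ c.E) : g * e * g⁻¹ * e ∈ Q := by
  classical
  haveI : Fact (Nat.Prime 2) := ⟨Nat.prime_two⟩
  set H := Subgroup.centralizer ({x} : Set G) with hH
  have hmem : ∀ w ∈ c.E, (w ∈ Q ↔ g * w * g⁻¹ ∈ Q) := by
    intro w hw
    have h1 := c.conj_z_iff hw
    have h2 := c.conj_z_iff (hgN w hw)
    have h12 : IsConj z w ↔ IsConj z (g * w * g⁻¹) :=
      ⟨fun h => h.trans (Invol.isConj_conj g w), fun h => h.trans (Invol.isConj_conj g w).symm⟩
    by_cases hw1 : w = 1
    · subst hw1; simp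
    · have hne : g * w * g⁻¹ ≠ 1 := fun e => hw1 (conj_eq_one_iff.1 e)
      rw [h1, h2] at h12
      exact ⟨fun h => (h12.1 ⟨h, hw1⟩).1, fun h => (h12.2 ⟨h, hne⟩).1⟩
  have hxx : g * x * g⁻¹ = x := mul_inv_eq_iff_eq_mul.2 hgx
  -- classes modulo `Q`
  have hK : Nat.card (c.E ⊓ Q : Subgroup G) = 4 := by
    obtain ⟨k, hk, hkz, hiff⟩ := c.exists_four
    have hset : ∀ w, w ∈ c.E ⊓ Q ↔ w ∈ ({1, z, p k, p k * z} : Finset G) := by
      intro w
      simp only [Subgroup.mem_inf, Finset.mem_insert, Finset.mem_singleton]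
      by_cases hw1 : w = 1
      · subst hw1; simp [one_mem]
      · constructor
        · intro h; exact Or.inr ((hiff w).1 ⟨h.1, (c.conj_z_iff h.1).2 ⟨h.2, hw1⟩⟩)
        · intro h
          have h' := (hiff w).2 (h.resolve_left hw1)
          exact ⟨h'.1, ((c.conj_z_iff h'.1).1 h'.2).1⟩
    rw [Nat.card_congr (Equiv.subtypeEquivRight (q := fun w => w ∈ ({1, z, p k, p k * z} : Finset G)) hset),
      Nat.card_eq_finsetCard]
    have n1 := c.d.ne_one k
    have n2 := c.d.ne_z k
    have n3 := c.d.hyp.ci.ne_one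
    have n4 : p k * z ≠ 1 := fun e => n2 (by rw [eq_inv_of_mul_eq_one_left e, c.d.hyp.ci.inv_eq])
    have n5 : z ≠ p k * z := fun e => n1 (mul_eq_right.1 e.symm)
    have n6 : p k ≠ p k * z := fun e => n3 (mul_eq_left.1 e.symm)
    simp [n1.symm, n2.symm, n3.symm, n4.symm, n5, n6]
  by_cases hse : e ∈ Q
  · exact mul_mem ((hmem e he).1 hse) hse
  by_cases hsx : x * e ∈ Q
  · have h1 := (hmem _ (mul_mem c.x_mem_E he)).1 hsx
    have e1 : g * (x * e) * g⁻¹ * (x * e) = g * e * g⁻¹ * e := by
      rw [show g * (x * e) * g⁻¹ = (g * x * g⁻¹) * (g * e * g⁻¹) by group, hxx,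
        c.E_comm c.x_mem_E he, c.E_comm c.x_mem_E (hgN e he)]
      calc g * e * g⁻¹ * x * (e * x) = g * e * g⁻¹ * (x * e * x) := by group
        _ = g * e * g⁻¹ * e := by rw [← c.E_comm he c.x_mem_E, mul_assoc e x x, c.outer.1, mul_one]
    exact e1 ▸ mul_mem h1 hsx
  -- four classes: the ones of `1`, `x`, `e`, `x e`
  have hcases : ∀ w ∈ c.E, w ∈ Q ∨ x * w ∈ Q ∨ e * w ∈ Q ∨ x * e * w ∈ Q := by
    intro w hw
    set V := c.E ⊓ Q with hV
    have h4 : (V.subgroupOf c.E).index = 4 := by
      have := Subgroup.card_mul_index (V.subgroupOf c.E)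
      rw [Nat.card_congr (Subgroup.subgroupOfEquivOfLe (inf_le_left : V ≤ c.E)).toEquiv, hK, c.card_E] at this
      omega
    let v : Fin 4 → G := ![1, x, e, x * e]
    have hv : ∀ i, v i ∈ c.E := by
      intro i
      fin_cases i
      · exact one_mem _
      · exact c.x_mem_E
      · exact he
      · exact mul_mem c.x_mem_E he
    let q : Fin 4 → c.E ⧸ V.subgroupOf c.E := fun i => QuotientGroup.mk ⟨v i, hv i⟩
    have hiff : ∀ (i : Fin 4) (w : G) (hw : w ∈ c.E),
        q i = QuotientGroup.mk ⟨w, hw⟩ ↔ v i * w ∈ Q := by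
      intro i w hw
      simp only [q]
      rw [QuotientGroup.eq, Subgroup.mem_subgroupOf, hV, Subgroup.mem_inf]
      push_cast
      rw [inv_eq_of_mul_eq_one_right (c.E_sq (hv i))]
      exact and_iff_right (mul_mem (hv i) hw)
    have hprod : ∀ i j : Fin 4, i ≠ j → v i * v j ∉ Q := by
      have a1 : x * (x * e) = e := by rw [← mul_assoc, c.outer.1, one_mul]
      have a2 : e * (x * e) = x := by rw [c.E_comm c.x_mem_E he, ← mul_assoc, c.E_sq he, one_mul]
      have a3 : x * e * x = e := by rw [c.E_comm (mul_mem c.x_mem_E he) c.x_mem_E, a1]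
      have a4 : x * e * e = x := by rw [mul_assoc, c.E_sq he, mul_one]
      intro i j hij
      fin_cases i <;> fin_cases j
      all_goals first
        | exact absurd rfl hij
        | simp only [v, Matrix.cons_val_zero, Matrix.cons_val_one, Matrix.cons_val, Fin.zero_eta, Fin.mk_one,
            Fin.reduceFinMk, one_mul, mul_one, a1, a2, a3, a4]
      all_goals first
        | exact c.outer.2.2
        | exact hse
        | exact hsx
        | (rw [c.E_comm he c.x_mem_E]; exact hsx)
    have hq : Function.Injective q := by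
      intro i j h
      by_contra hne
      exact hprod i j hne ((hiff i _ (hv j)).1 h)
    have hb : Function.Bijective q := hq.bijective_of_nat_card_le (by
      rw [← Subgroup.index_eq_card, h4, Nat.card_fin])
    obtain ⟨i, hi⟩ := hb.2 (QuotientGroup.mk ⟨w, hw⟩)
    have := (hiff i w hw).1 hi
    fin_cases i
    · exact Or.inl (by simpa [v] using this)
    · exact Or.inr (Or.inl (by simpa [v] using this))
    · exact Or.inr (Or.inr (Or.inl (by simpa [v] using this)))
    · exact Or.inr (Or.inr (Or.inr (by simpa [v] using this)))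
  rcases hcases _ (hgN e he) with h | h | h | h
  · exact absurd ((hmem e he).2 h) hse
  · exfalso
    apply hsx
    refine (hmem _ (mul_mem c.x_mem_E he)).2 ?_
    rwa [show g * (x * e) * g⁻¹ = (g * x * g⁻¹) * (g * e * g⁻¹) by group, hxx]
  · rwa [c.E_comm he (hgN e he)] at h
  · -- `g` would map the class of `e` to that of `x e`: impossible as some odd power of `g` fixes it
    exfalso
    have step : ∀ n : ℕ, g ^ n * e * (g ^ n)⁻¹ ∈ c.E ∧
        (Even n → g ^ n * e * (g ^ n)⁻¹ * e ∈ Q) ∧ (Odd n → g ^ n * e * (g ^ n)⁻¹ * (x * e) ∈ Q) := by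
      intro n
      induction n with
      | zero =>
        refine ⟨by simpa using he, fun _ => ?_, fun h0 => absurd h0 Nat.not_odd_zero⟩
        simp [c.E_sq he]
      | succ n ih =>
        obtain ⟨hE', hev, hod⟩ := ih
        have hrec : g ^ (n + 1) * e * (g ^ (n + 1))⁻¹ = g * (g ^ n * e * (g ^ n)⁻¹) * g⁻¹ := by
          rw [pow_succ']; group
        have h' : g * e * g⁻¹ * (x * e) ∈ Q := by
          rwa [c.E_comm (mul_mem c.x_mem_E he) (hgN e he)] at h
        refine ⟨hrec ▸ hgN _ hE', fun hn1 => ?_, fun hn1 => ?_⟩ <;> rw [hrec]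
        · have hn : Odd n := by
            rcases Nat.even_or_odd n with h0 | h0
            · exact absurd hn1 (Nat.not_even_iff_odd.2 h0.add_one)
            · exact h0
          set w := g ^ n * e * (g ^ n)⁻¹
          have h1 := (hmem _ (mul_mem hE' (mul_mem c.x_mem_E he))).1 (hod hn)
          have e1 : g * (w * (x * e)) * g⁻¹ * (g * e * g⁻¹ * (x * e)) = g * w * g⁻¹ * e := by
            rw [show g * (w * (x * e)) * g⁻¹ = g * w * g⁻¹ * ((g * x * g⁻¹) * (g * e * g⁻¹)) by group, hxx]
            calc g * w * g⁻¹ * (x * (g * e * g⁻¹)) * (g * e * g⁻¹ * (x * e))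
                = g * w * g⁻¹ * x * ((g * e * g⁻¹) * (g * e * g⁻¹)) * x * e := by group
              _ = g * w * g⁻¹ * (x * x) * e := by rw [c.E_sq (hgN e he)]; group
              _ = g * w * g⁻¹ * e := by rw [c.outer.1, mul_one]
          exact e1 ▸ mul_mem h1 h'
        · have hn : Even n := by
            rcases Nat.even_or_odd n with h0 | h0
            · exact h0
            · exact absurd hn1 (Nat.not_odd_iff_even.2 h0.add_one)
          set w := g ^ n * e * (g ^ n)⁻¹
          have h1 := (hmem _ (mul_mem hE' he)).1 (hev hn)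
          have e1 : g * (w * e) * g⁻¹ * (g * e * g⁻¹ * (x * e)) = g * w * g⁻¹ * (x * e) := by
            calc g * (w * e) * g⁻¹ * (g * e * g⁻¹ * (x * e)) = g * w * (e * e) * g⁻¹ * (x * e) := by group
              _ = g * w * g⁻¹ * (x * e) := by rw [c.E_sq he, mul_one]
          exact e1 ▸ mul_mem h1 h'
    -- `g ^ m ∈ E` for some odd `m`
    set N := Subgroup.normalizer ((c.E.subgroupOf H : Subgroup H) : Set H) with hN
    have hgH : g ∈ H := Subgroup.mem_centralizer_singleton_iff.2 hgx
    have hgNm : (⟨g, hgH⟩ : H) ∈ N := by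
      let E' := c.E.subgroupOf H
      have hle : E'.map (MulAut.conj (⟨g, hgH⟩ : H)).toMonoidHom ≤ E' := by
        rintro _ ⟨w, hw, rfl⟩
        exact hgN _ hw
      have heq := Subgroup.eq_of_le_of_card_ge hle
        (by rw [Subgroup.card_map_of_injective (MulAut.conj (⟨g, hgH⟩ : H)).injective])
      refine Subgroup.mem_normalizer_iff.2 fun w => ⟨fun hw => hgN _ hw, fun hw => ?_⟩
      have hw' : _ ∈ E' := hw
      rw [← heq] at hw'
      obtain ⟨v, hv, hve⟩ := hw'
      have e : v = w := (MulAut.conj (⟨g, hgH⟩ : H)).injective hve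
      exact e ▸ hv
    obtain ⟨S, hS⟩ := c.exists_sylow
    set m := ((c.E.subgroupOf H).subgroupOf N).index with hm
    have hmodd : Odd m := by
      rw [← Nat.not_even_iff_odd, even_iff_two_dvd]
      intro hd
      apply S.not_dvd_index
      rw [hS, ← Subgroup.relIndex_mul_index (Subgroup.le_normalizer (H := c.E.subgroupOf H))]
      exact dvd_mul_of_dvd_left hd _
    have hgm : g ^ m ∈ c.E := by
      haveI : ((c.E.subgroupOf H).subgroupOf N).Normal := Subgroup.normal_in_normalizer
      have := Subgroup.pow_index_mem ((c.E.subgroupOf H).subgroupOf N) ⟨⟨g, hgH⟩, hgNm⟩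
      exact this
    have h1 := (step m).2.2 hmodd
    rw [c.E_comm hgm he, mul_inv_cancel_right, ← mul_assoc, c.E_comm he c.x_mem_E, mul_assoc, c.E_sq he,
      mul_one] at h1
    exact c.outer.2.2 h1

end Cfg

end Cfsg.Agent.J2Type
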