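import Cfsg.Agent.J2Type.Coset

/-!
The two classes of involutions and the centraliser of the second one.
-/

set_option autoImplicit false

namespace Cfsg.Agent.J2Type

open Cfsg Cfsg.Agent.LargeExtra

variable {G : Type*} [Group G]

/-- Data at `z` together with an involution `x` of the other class. -/
structure Cfg (z : G) (Q : Subgroup G) (p : Fin 5 → G) (x : G) : Prop where
  d : Data z Q p
  outer : Outer z Q x
  not_conj : ¬ IsConj z x
  classes : ∀ u : G, orderOf u = 2 → IsConj z u ∨ IsConj x u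

theorem sq_of_orderOf {u : G} (h : orderOf u = 2) : u * u = 1 := by
  rw [← pow_two, ← h, pow_orderOf_eq_one]

theorem orderOf_two {u : G} (h : u * u = 1) (h1 : u ≠ 1) : orderOf u = 2 :=
  orderOf_eq_prime (by rw [pow_two, h]) h1

theorem Data.exists_conj_mem [Finite G] {z : G} {Q : Subgroup G} {p : Fin 5 → G} (d : Data z Q p)
    {u : G} (hu : orderOf u = 2) : ∃ g : G, g * u * g⁻¹ ∈ Subgroup.centralizer ({z} : Set G) := by
  haveI : Fact (Nat.Prime 2) := ⟨Nat.prime_two⟩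
  set C := Subgroup.centralizer ({z} : Set G)
  let T : Sylow 2 C := Classical.arbitrary _
  have hTp : IsPGroup 2 (((T : Subgroup C).map C.subtype : Subgroup G)) := T.isPGroup'.map _
  obtain ⟨S, hS⟩ := hTp.exists_le_sylow
  have hQC : Q ≤ C := d.hyp.ci.le_centralizer
  have hQn : (Q.subgroupOf C).Normal := ⟨fun q hq c => d.hyp.conj_mem c.2 hq⟩
  have hQT : Q.subgroupOf C ≤ (T : Subgroup C) := by
    have hp : IsPGroup 2 (Q.subgroupOf C) := by
      refine IsPGroup.of_card (n := 5) ?_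
      rw [Nat.card_congr (Subgroup.subgroupOfEquivOfLe hQC).toEquiv, d.hyp.cardQ]
      norm_num
    obtain ⟨S', hS'⟩ := hp.exists_le_sylow
    obtain ⟨g, hg⟩ := MulAction.exists_smul_eq C S' T
    intro q hq
    have h1 : g⁻¹ * q * g ∈ (S' : Subgroup C) := hS' (by simpa using hQn.conj_mem q hq g⁻¹)
    rw [← hg, Sylow.coe_subgroup_smul, Subgroup.mem_pointwise_smul_iff_inv_smul_mem]
    simpa [MulAut.smul_def, MulAut.conj_apply, mul_assoc] using h1
  have hQS : Q ≤ (S : Subgroup G) := fun q hq => hS ⟨⟨q, hQC hq⟩, hQT hq, rfl⟩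
  have hne : Nontrivial (S : Subgroup G) :=
    ⟨⟨⟨z, hQS d.hyp.ci.mem⟩, 1, fun e => d.hyp.ci.ne_one (congrArg Subtype.val e)⟩⟩
  have := hne
  have hS' := S.isPGroup'.center_nontrivial
  obtain ⟨⟨c, hc⟩, hc1⟩ := exists_ne (1 : Subgroup.center (S : Subgroup G))
  have hcz : (c : G) = z := by
    have hcQ : (c : G) ∈ Subgroup.centralizer (Q : Set G) := fun q hq =>
      congrArg Subtype.val (Subgroup.mem_center_iff.1 hc ⟨q, hQS hq⟩)
    refine (d.hyp.ci.mem_zpowers_iff.1 (d.hyp.cent hcQ)).resolve_left fun e => hc1 ?_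
    exact Subtype.ext (Subtype.ext e)
  have hSC : (S : Subgroup G) ≤ C := fun w hw => Hyp.mem_C.2 (by
    have := congrArg Subtype.val (Subgroup.mem_center_iff.1 hc ⟨w, hw⟩)
    simpa [hcz] using this)
  have hup : IsPGroup 2 (Subgroup.zpowers u) :=
    IsPGroup.of_card (n := 1) (by rw [Nat.card_zpowers, hu, pow_one])
  obtain ⟨S₂, hS₂⟩ := hup.exists_le_sylow
  obtain ⟨g, hg⟩ := MulAction.exists_smul_eq G S₂ S
  refine ⟨g, hSC ?_⟩
  rw [← hg, Sylow.coe_subgroup_smul, Subgroup.mem_pointwise_smul_iff_inv_smul_mem]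
  simpa [MulAut.smul_def, MulAut.conj_apply, mul_assoc] using hS₂ (Subgroup.mem_zpowers u)

theorem Data.exists_cfg [Finite G] {z : G} {Q : Subgroup G} {p : Fin 5 → G} (d : Data z Q p)
    (hcl : ∃ x y : G, orderOf x = 2 ∧ orderOf y = 2 ∧ ¬ IsConj x y) : ∃ x, Cfg z Q p x := by
  have key : ∀ u : G, orderOf u = 2 → IsConj z u ∨ ∃ y, Outer z Q y ∧ IsConj y u := by
    intro u hu
    obtain ⟨g, hg⟩ := d.exists_conj_mem hu
    have hconj : IsConj (g * u * g⁻¹) u := (Invol.isConj_conj g u).symm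
    have h2 : g * u * g⁻¹ * (g * u * g⁻¹) = 1 := by
      calc g * u * g⁻¹ * (g * u * g⁻¹) = g * (u * u) * g⁻¹ := by group
        _ = 1 := by rw [sq_of_orderOf hu]; group
    have h1 : g * u * g⁻¹ ≠ 1 := fun e => by rw [conj_eq_one_iff.1 e, orderOf_one] at hu; norm_num at hu
    by_cases hQ : g * u * g⁻¹ ∈ Q
    · exact Or.inl ((d.isConj_z_of_mem hQ h2 h1).trans hconj)
    · exact Or.inr ⟨_, ⟨h2, Hyp.mem_C.1 hg, hQ⟩, hconj⟩
  obtain ⟨a, b, ha, hb, hab⟩ := hcl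
  have hall : ∀ x y : G, Outer z Q x → Outer z Q y → IsConj x y := fun x y hx hy => by
    obtain ⟨c, -, hc⟩ := d.outer_conj hx hy
    exact isConj_iff.2 ⟨c, hc⟩
  obtain ⟨x, hx⟩ : ∃ x, Outer z Q x := by
    rcases key a ha with h | ⟨y, hy, -⟩
    · rcases key b hb with h' | ⟨y, hy, -⟩
      · exact absurd (h.symm.trans h') hab
      · exact ⟨y, hy⟩
    · exact ⟨y, hy⟩
  refine ⟨x, d, hx, fun hzx => hab ?_, fun u hu => ?_⟩
  · have : ∀ u : G, orderOf u = 2 → IsConj z u := fun u hu =>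
      (key u hu).elim id fun ⟨y, hy, hyu⟩ => (hzx.trans (hall x y hx hy)).trans hyu
    exact (this a ha).symm.trans (this b hb)
  · exact (key u hu).imp id fun ⟨y, hy, hyu⟩ => (hall x y hx hy).trans hyu

namespace Cfg

variable {z : G} {Q : Subgroup G} {p : Fin 5 → G} {x : G} (c : Cfg z Q p x)
include c

theorem x_ne_one : x ≠ 1 := fun e => c.outer.2.2 (e ▸ one_mem Q)

theorem order_x : orderOf x = 2 := orderOf_two c.outer.1 c.x_ne_one

variable [Finite G]

theorem isConj_x_of_outer {y : G} (hy : Outer z Q y) : IsConj x y := by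
  obtain ⟨a, -, ha⟩ := c.d.outer_conj c.outer hy
  exact isConj_iff.2 ⟨a, ha⟩

/-- In the centraliser of `z`, the conjugates of `z` are the involutions of `Q`. -/
theorem mem_Q_of_isConj {u : G} (hu : IsConj z u) (huC : u * z = z * u) : u ∈ Q := by
  by_contra hQ
  have ho : orderOf u = 2 := (Invol.orderOf_eq_of_isConj hu).symm.trans c.d.hyp.ci.order_two
  exact c.not_conj (hu.trans (c.isConj_x_of_outer ⟨sq_of_orderOf ho, huC, hQ⟩).symm)

theorem isConj_x_iff {u : G} (ho : orderOf u = 2) : IsConj x u ↔ ¬ IsConj z u :=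
  ⟨fun h h' => c.not_conj (h'.trans h.symm), fun h => (c.classes u ho).resolve_left h⟩

/-- `x` is an outer involution at every conjugate of `z` commuting with it. -/
theorem outer_at {u : G} {g : G} (hg : g * z * g⁻¹ = u) (hc : x * u = u * x) :
    Outer u (Q.map (MulAut.conj g).toMonoidHom) x := by
  refine ⟨c.outer.1, hc, ?_⟩
  rintro ⟨q, hq, hqe⟩
  have hqx : g * q * g⁻¹ = x := hqe
  have h2 : q * q = 1 := by
    calc q * q = g⁻¹ * (g * q * g⁻¹ * (g * q * g⁻¹)) * g := by group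
      _ = 1 := by rw [hqx, c.outer.1]; group
  have h1 : q ≠ 1 := fun e => c.x_ne_one (by rw [← hqx, e]; group)
  exact c.not_conj ((c.d.isConj_z_of_mem hq h2 h1).trans (isConj_iff.2 ⟨g, hqx⟩))

theorem exists_data_at {u : G} (hu : IsConj z u) :
    ∃ g p', g * z * g⁻¹ = u ∧ Data u (Q.map (MulAut.conj g).toMonoidHom) p' := by
  obtain ⟨g, hg⟩ := isConj_iff.1 hu
  obtain ⟨p', hp'⟩ := exists_data (c.d.hyp.conj g)
  exact ⟨g, p', hg, hg ▸ hp'⟩

theorem card_at {u : G} (hu : IsConj z u) (hc : x * u = u * x) :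
    Nat.card (Subgroup.centralizer ({u} : Set G) ⊓ Subgroup.centralizer ({x} : Set G) : Subgroup G) = 16 := by
  obtain ⟨g, p', hg, d'⟩ := c.exists_data_at hu
  exact d'.card_centralizer_outer (c.outer_at hg hc)

/-- The group `C(z) ∩ C(x)` is elementary abelian. -/
theorem e_sq {w : G} (hw : w * z = z * w) (hwx : w * x = x * w) : w * w = 1 := by
  obtain ⟨k, -, hfix, hkx⟩ := c.d.fixed_in_Q c.outer
  by_cases hwQ : w ∈ Q
  · exact (hfix w hwQ hwx).1
  have hwC := Hyp.mem_C.2 hw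
  have hact : c.d.act ⟨w, hwC⟩ * c.d.act ⟨w, hwC⟩ = 1 := by
    obtain ⟨h1, h2⟩ := c.d.act_outer c.outer
    refine Fin5.centralizer_sq _ h1 h2 (c.d.sign_act _) _ (c.d.sign_act _) ?_
    rw [← map_mul, ← map_mul]
    exact congrArg c.d.act (Subtype.ext hwx)
  have hw2Q : w * w ∈ Q := (c.d.mem_ker_iff (⟨w, hwC⟩ * ⟨w, hwC⟩)).1 (by rw [map_mul, hact])
  have hw2x : w * w * x = x * (w * w) := by rw [mul_assoc, hwx, ← mul_assoc, hwx, mul_assoc]
  by_contra hne
  obtain ⟨h22, hcases⟩ := hfix _ hw2Q hw2x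
  have hu : IsConj z (w * w) := c.d.isConj_z_of_mem hw2Q h22 hne
  obtain ⟨g, p', hg, d'⟩ := c.exists_data_at hu
  have ho := c.outer_at hg hw2x.symm
  refine d'.no_sqrt ho (Hyp.mem_C.2 ?_) ?_ rfl
  · rw [← mul_assoc]
  · intro hwQ'
    obtain ⟨k', -, hfix', -⟩ := d'.fixed_in_Q ho
    exact hne (hfix' w hwQ' hwx).1

theorem e_comm {a b : G} (ha : a * z = z * a) (hax : a * x = x * a) (hb : b * z = z * b)
    (hbx : b * x = x * b) : a * b = b * a := by
  have h := c.e_sq (w := a * b) (by rw [mul_assoc, hb, ← mul_assoc, ha, mul_assoc])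
    (by rw [mul_assoc, hbx, ← mul_assoc, hax, mul_assoc])
  calc a * b = (a * b)⁻¹ := (inv_eq_of_mul_eq_one_right h).symm
    _ = b⁻¹ * a⁻¹ := mul_inv_rev a b
    _ = b * a := by rw [inv_eq_of_mul_eq_one_right (c.e_sq ha hax), inv_eq_of_mul_eq_one_right (c.e_sq hb hbx)]

/-- The centraliser of `z` in the centraliser of `x`. -/
noncomputable def E (_ : Cfg z Q p x) : Subgroup G :=
  Subgroup.centralizer ({z} : Set G) ⊓ Subgroup.centralizer ({x} : Set G)

omit [Finite G] in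
theorem mem_E {w : G} : w ∈ c.E ↔ w * z = z * w ∧ w * x = x * w := by
  rw [E, Subgroup.mem_inf, Subgroup.mem_centralizer_singleton_iff, Subgroup.mem_centralizer_singleton_iff]

theorem card_E : Nat.card c.E = 16 := c.d.card_centralizer_outer c.outer

omit [Finite G] in
theorem x_mem_E : x ∈ c.E := c.mem_E.2 ⟨c.outer.2.1, rfl⟩

omit [Finite G] in
theorem z_mem_E : z ∈ c.E := c.mem_E.2 ⟨rfl, c.outer.2.1.symm⟩

omit [Finite G] in
theorem E_le : c.E ≤ Subgroup.centralizer ({x} : Set G) := inf_le_right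

theorem E_comm {a b : G} (ha : a ∈ c.E) (hb : b ∈ c.E) : a * b = b * a :=
  c.e_comm (c.mem_E.1 ha).1 (c.mem_E.1 ha).2 (c.mem_E.1 hb).1 (c.mem_E.1 hb).2

theorem E_sq {a : G} (ha : a ∈ c.E) : a * a = 1 := c.e_sq (c.mem_E.1 ha).1 (c.mem_E.1 ha).2

theorem E_isPGroup : IsPGroup 2 c.E := IsPGroup.of_card (n := 4) (by rw [c.card_E]; norm_num)

theorem conj_z_iff {w : G} (hw : w ∈ c.E) : IsConj z w ↔ w ∈ Q ∧ w ≠ 1 := by
  refine ⟨fun h => ⟨c.mem_Q_of_isConj h (c.mem_E.1 hw).1, fun e => ?_⟩,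
    fun h => c.d.isConj_z_of_mem h.1 (c.E_sq hw) h.2⟩
  subst e
  exact c.d.hyp.ci.ne_one (isConj_one_left.1 h)

/-- The three conjugates of `z` in `E`. -/
theorem exists_four : ∃ k, p k ∈ c.E ∧ p k * z ∈ c.E ∧
    (∀ w : G, w ∈ c.E ∧ IsConj z w ↔ w = z ∨ w = p k ∨ w = p k * z) := by
  obtain ⟨k, -, hfix, hkx⟩ := c.d.fixed_in_Q c.outer
  have hk : p k ∈ c.E := c.mem_E.2 ⟨c.d.hyp.ci.comm _ (c.d.mem k), hkx⟩
  refine ⟨k, hk, mul_mem hk c.z_mem_E, fun w => ⟨?_, ?_⟩⟩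
  · rintro ⟨hw, h⟩
    obtain ⟨hQ, h1⟩ := (c.conj_z_iff hw).1 h
    exact ((hfix w hQ (c.mem_E.1 hw).2).2).resolve_left h1
  · rintro (rfl | rfl | rfl)
    · exact ⟨c.z_mem_E, IsConj.refl _⟩
    · exact ⟨hk, (c.d.p_conj_z k).1⟩
    · exact ⟨mul_mem hk c.z_mem_E, (c.d.p_conj_z k).2⟩

theorem card_four : Nat.card {w : G // w ∈ c.E ∧ IsConj z w} = 3 := by
  classical
  obtain ⟨k, -, -, h⟩ := c.exists_four
  rw [Nat.card_congr (Equiv.subtypeEquivRight (q := fun w => w ∈ ({z, p k, p k * z} : Finset G))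
    (fun w => by rw [h w]; simp)), Nat.card_eq_finsetCard]
  refine Finset.card_eq_three.2 ⟨z, p k, p k * z, (c.d.ne_z k).symm, fun e => c.d.ne_one k ?_,
    fun e => c.d.hyp.ci.ne_one (mul_eq_left.1 e.symm), rfl⟩
  calc p k = p k * z * z := by rw [mul_assoc, c.d.hyp.ci.sq, mul_one]
    _ = 1 := by rw [← e, c.d.hyp.ci.sq]

theorem inf_centralizer_eq {u : G} (hu : u ∈ c.E) (huz : IsConj z u) :
    Subgroup.centralizer ({u} : Set G) ⊓ Subgroup.centralizer ({x} : Set G) = c.E := by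
  refine (Subgroup.eq_of_le_of_card_ge ?_ ?_).symm
  · intro w hw
    exact ⟨Subgroup.mem_centralizer_singleton_iff.2 (c.E_comm hw hu), c.E_le hw⟩
  · rw [c.card_at huz (c.mem_E.1 hu).2.symm, c.card_E]

theorem le_of_two_group {P : Subgroup G} (hP : IsPGroup 2 P) (hEP : c.E ≤ P)
    (hPH : P ≤ Subgroup.centralizer ({x} : Set G)) : P = c.E := by
  haveI : Fact (Nat.Prime 2) := ⟨Nat.prime_two⟩
  by_contra hne
  have hlt : c.E.subgroupOf P < ⊤ := by
    refine lt_top_iff_ne_top.2 fun e => hne (le_antisymm ?_ hEP)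
    rwa [Subgroup.subgroupOf_eq_top] at e
  have := hP.isNilpotent
  have hnc : NormalizerCondition P := Group.normalizerCondition_of_isNilpotent
  obtain ⟨w, hwN, hwE⟩ := SetLike.exists_of_lt (hnc _ hlt)
  let N := Subgroup.normalizer ((c.E.subgroupOf P : Subgroup P) : Set P)
  have hmap : ∀ (a : N) (v : G), v ∈ c.E → ((a : P) : G) * v * ((a : P) : G)⁻¹ ∈ c.E := fun a v hv =>
    (Subgroup.mem_normalizer_iff.1 a.2 ⟨v, hEP hv⟩).1 hv
  let X := {v : G // v ∈ c.E ∧ IsConj z v}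
  letI : MulAction N X :=
    { smul := fun a v => ⟨((a : P) : G) * v.1 * ((a : P) : G)⁻¹, hmap a v v.2.1,
        v.2.2.trans (Invol.isConj_conj _ _)⟩
      one_smul := fun v => Subtype.ext (show ((1 : N) : P).1 * v.1 * ((1 : N) : P).1⁻¹ = v.1 by simp)
      mul_smul := fun a b v => Subtype.ext (show (((a * b : N) : P) : G) * v.1 * (((a * b : N) : P) : G)⁻¹ =
        ((a : P) : G) * (((b : P) : G) * v.1 * ((b : P) : G)⁻¹) * ((a : P) : G)⁻¹ by simp [mul_assoc]) }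
  have hNp : IsPGroup 2 N := hP.to_subgroup N
  obtain ⟨⟨u, huE, huz⟩, hu⟩ := hNp.nonempty_fixed_point_of_prime_not_dvd_card X (by
    show ¬ 2 ∣ Nat.card {v : G // v ∈ c.E ∧ IsConj z v}
    rw [c.card_four]; norm_num)
  refine hwE ?_
  show (w : G) ∈ c.E
  rw [← c.inf_centralizer_eq huE huz]
  refine ⟨Subgroup.mem_centralizer_singleton_iff.2 ?_, hPH w.2⟩
  have := congrArg Subtype.val (hu ⟨w, hwN⟩)
  exact mul_inv_eq_iff_eq_mul.1 this

/-- `E` is a Sylow 2-subgroup of the centraliser of `x`. -/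
theorem exists_sylow : ∃ S : Sylow 2 (Subgroup.centralizer ({x} : Set G)),
    (S : Subgroup (Subgroup.centralizer ({x} : Set G))) = c.E.subgroupOf (Subgroup.centralizer ({x} : Set G)) := by
  haveI : Fact (Nat.Prime 2) := ⟨Nat.prime_two⟩
  set H := Subgroup.centralizer ({x} : Set G)
  have hp : IsPGroup 2 (c.E.subgroupOf H) :=
    c.E_isPGroup.of_equiv (Subgroup.subgroupOfEquivOfLe c.E_le).symm
  obtain ⟨S, hS⟩ := hp.exists_le_sylow
  refine ⟨S, le_antisymm ?_ hS⟩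
  have hle : c.E ≤ (S : Subgroup H).map H.subtype := fun w hw => ⟨⟨w, c.E_le hw⟩, hS hw, rfl⟩
  have h := c.le_of_two_group (S.isPGroup'.map _) hle (Subgroup.map_subtype_le _)
  intro w hw
  show (w : G) ∈ c.E
  rw [← h]
  exact ⟨w, hw, rfl⟩

theorem conj_into_E {v : G} (hv : v * v = 1) (hvx : v * x = x * v) :
    ∃ h ∈ Subgroup.centralizer ({x} : Set G), h * v * h⁻¹ ∈ c.E := by
  haveI : Fact (Nat.Prime 2) := ⟨Nat.prime_two⟩
  set H := Subgroup.centralizer ({x} : Set G)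
  obtain ⟨S, hS⟩ := c.exists_sylow
  have hvH : v ∈ H := Subgroup.mem_centralizer_singleton_iff.2 hvx
  have hp : IsPGroup 2 (Subgroup.zpowers (⟨v, hvH⟩ : H)) := by
    rintro ⟨w, n, rfl⟩
    refine ⟨1, Subtype.ext (Subtype.ext ?_)⟩
    show (v ^ n) ^ (2 ^ 1) = (1 : G)
    rw [pow_one, ← zpow_natCast, ← zpow_mul, mul_comm, zpow_mul, zpow_natCast, pow_two, hv, one_zpow]
  obtain ⟨S₂, hS₂⟩ := hp.exists_le_sylow
  obtain ⟨g, hg⟩ := MulAction.exists_smul_eq H S₂ S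
  refine ⟨g, g.2, ?_⟩
  have h1 : g * ⟨v, hvH⟩ * g⁻¹ ∈ (S : Subgroup H) := by
    rw [← hg, Sylow.coe_subgroup_smul, Subgroup.mem_pointwise_smul_iff_inv_smul_mem]
    simpa [MulAut.smul_def, MulAut.conj_apply, mul_assoc] using hS₂ (Subgroup.mem_zpowers _)
  rw [hS] at h1
  exact h1

end Cfg

end Cfsg.Agent.J2Type
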