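import Cfsg.Agent.J2Type.Extra

/-!
Coordinates on `Q` modulo its centre: even subsets of five points, and the action of the centraliser.
-/

set_option autoImplicit false

namespace Cfsg.Agent.J2Type

open Cfsg Cfsg.Agent.LargeExtra
open scoped symmDiff

variable {G : Type*} [Group G]

open Classical in
/-- The members of `p` not commuting with `x`. -/
noncomputable def supp (p : Fin 5 → G) (x : G) : Finset (Fin 5) :=
  Finset.univ.filter fun m => ¬ Commute (p m) x

theorem mem_supp {p : Fin 5 → G} {x : G} {m : Fin 5} : m ∈ supp p x ↔ ¬ Commute (p m) x := by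
  simp [supp]

namespace Data

variable {z : G} {Q : Subgroup G} {p : Fin 5 → G} (d : Data z Q p)
include d

theorem ne_z (i : Fin 5) : p i ≠ z := fun e => by
  obtain ⟨j, hj⟩ : ∃ j : Fin 5, i ≠ j := exists_ne i |>.imp fun _ h => h.symm
  exact d.nc i j hj (e ▸ (d.hyp.ci.comm _ (d.mem j)).symm)

theorem ne_one (i : Fin 5) : p i ≠ 1 := fun e => by
  obtain ⟨j, hj⟩ : ∃ j : Fin 5, i ≠ j := exists_ne i |>.imp fun _ h => h.symm
  exact d.nc i j hj (e ▸ Commute.one_left _)

theorem inv_p (i : Fin 5) : (p i)⁻¹ = p i := inv_eq_of_mul_eq_one_right (d.sq i)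

theorem supp_one : supp p (1 : G) = ∅ := by
  ext m; simp [mem_supp]

theorem supp_z : supp p z = ∅ := by
  ext m
  simp only [mem_supp, Finset.notMem_empty, iff_false, not_not]
  exact d.hyp.ci.comm _ (d.mem m)

theorem supp_p (i : Fin 5) : supp p (p i) = Finset.univ.erase i := by
  ext m
  simp only [mem_supp, Finset.mem_erase, Finset.mem_univ, and_true]
  exact ⟨fun h e => h (e ▸ Commute.refl _), fun h => d.nc m i h⟩

theorem supp_mul {a b : G} (ha : a ∈ Q) (hb : b ∈ Q) : supp p (a * b) = supp p a ∆ supp p b := by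
  ext m
  simp only [mem_supp, Finset.mem_symmDiff, comm_xor d.hyp (d.mem m) ha hb]
  tauto

theorem supp_mul_z {a : G} (ha : a ∈ Q) : supp p (a * z) = supp p a := by
  rw [d.supp_mul ha d.hyp.ci.mem, d.supp_z, ← Finset.bot_eq_empty, symmDiff_bot]

theorem exists_of_even (A : Finset (Fin 5)) (hA : Even A.card) :
    ∃ x ∈ Subgroup.closure (Set.range p), supp p x = A := by
  have key : ∀ A : Finset (Fin 5), Even A.card → A = ∅ ∨ (∃ i, A = Finset.univ.erase i) ∨
      ∃ i j : Fin 5, i ≠ j ∧ A = {i, j} := by decide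
  rcases key A hA with rfl | ⟨i, rfl⟩ | ⟨i, j, hij, rfl⟩
  · exact ⟨1, one_mem _, d.supp_one⟩
  · exact ⟨p i, Subgroup.subset_closure ⟨i, rfl⟩, d.supp_p i⟩
  · refine ⟨p i * p j, mul_mem (Subgroup.subset_closure ⟨i, rfl⟩) (Subgroup.subset_closure ⟨j, rfl⟩), ?_⟩
    rw [d.supp_mul (d.mem i) (d.mem j), d.supp_p, d.supp_p]
    clear d
    revert i j
    decide

theorem z_mem_closure : z ∈ Subgroup.closure (Set.range p) := by
  have h01 : (0 : Fin 5) ≠ 1 := by decide
  have hc := d.hyp.ci.comm_mem (d.mem 0) (d.mem 1)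
  rcases hc with e | e
  · exact absurd (mul_inv_eq_iff_eq_mul.1 (mul_inv_eq_one.1 e)) (d.nc 0 1 h01)
  · exact e ▸ mul_mem (mul_mem (mul_mem (Subgroup.subset_closure ⟨0, rfl⟩) (Subgroup.subset_closure ⟨1, rfl⟩))
      (inv_mem (Subgroup.subset_closure ⟨0, rfl⟩))) (inv_mem (Subgroup.subset_closure ⟨1, rfl⟩))

variable [Finite G]

theorem closure_eq : Subgroup.closure (Set.range p) = Q := by
  classical
  have hle : Subgroup.closure (Set.range p) ≤ Q :=
    (Subgroup.closure_le _).2 (by rintro _ ⟨i, rfl⟩; exact d.mem i)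
  refine Subgroup.eq_of_le_of_card_ge hle ?_
  rw [d.hyp.cardQ]
  choose x hx hs using d.exists_of_even
  let f : {A : Finset (Fin 5) // Even A.card} × Bool → Subgroup.closure (Set.range p) := fun q =>
    if q.2 then ⟨x q.1 q.1.2 * z, mul_mem (hx _ _) d.z_mem_closure⟩ else ⟨x q.1 q.1.2, hx _ _⟩
  have hf : Function.Injective f := by
    rintro ⟨⟨A, hA⟩, b⟩ ⟨⟨B, hB⟩, c⟩ h
    have h' := congrArg Subtype.val h
    have hAB : A = B := by
      rw [← hs A hA, ← hs B hB]
      cases b <;> cases c <;> simp [f] at h'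
      · rw [h']
      · rw [h', d.supp_mul_z (hle (hx _ _))]
      · rw [← h', d.supp_mul_z (hle (hx _ _))]
      · rw [h']
    subst hAB
    cases b <;> cases c <;> simp [f, d.hyp.ci.ne_one] at h' <;> rfl
  refine le_trans ?_ (Nat.card_le_card_of_injective f hf)
  rw [Nat.card_prod, Nat.card_eq_fintype_card, Nat.card_eq_fintype_card, Fintype.card_bool]
  exact le_of_eq (by decide)

theorem supp_eq_empty {a : G} (ha : a ∈ Q) (h : supp p a = ∅) : a = 1 ∨ a = z := by
  refine d.hyp.ci.of_central a ha fun q hq => ?_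
  rw [← d.closure_eq] at hq
  induction hq using Subgroup.closure_induction with
  | mem x hx =>
    obtain ⟨m, rfl⟩ := hx
    by_contra hne
    have : m ∈ supp p a := mem_supp.2 hne
    rw [h] at this
    exact Finset.notMem_empty m this
  | one => simp
  | mul x y _ _ hx hy => rw [mul_assoc, hy, ← mul_assoc, hx, mul_assoc]
  | inv x _ hx => exact (show Commute x a from hx).inv_left

theorem eq_of_supp_eq {a b : G} (ha : a ∈ Q) (hb : b ∈ Q) (h : supp p a = supp p b) :
    b = a ∨ b = a * z := by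
  have hab : supp p (a⁻¹ * b) = ∅ := by
    rw [d.supp_mul (inv_mem ha) hb, ← h]
    have : supp p a⁻¹ = supp p a := by ext m; simp [mem_supp]
    rw [this, symmDiff_self, Finset.bot_eq_empty]
  rcases d.supp_eq_empty (mul_mem (inv_mem ha) hb) hab with e | e
  · exact Or.inl (inv_mul_eq_one.1 e).symm
  · exact Or.inr (inv_mul_eq_iff_eq_mul.1 e)

theorem supp_even {a : G} (ha : a ∈ Q) : Even (supp p a).card := by
  rw [← d.closure_eq] at ha
  have key : ∀ A B : Finset (Fin 5), Even A.card → Even B.card → Even (A ∆ B).card := by decide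
  induction ha using Subgroup.closure_induction with
  | mem x hx =>
    obtain ⟨i, rfl⟩ := hx
    rw [d.supp_p]
    clear d
    revert i
    decide
  | one => simp [d.supp_one]
  | mul x y hx hy ihx ihy =>
    rw [d.supp_mul (d.closure_eq ▸ hx) (d.closure_eq ▸ hy)]
    exact key _ _ ihx ihy
  | inv x _ ih =>
    have : supp p x⁻¹ = supp p x := by ext m; simp [mem_supp]
    rwa [this]

theorem exists_supp (A : Finset (Fin 5)) (hA : Even A.card) : ∃ q ∈ Q, supp p q = A := by
  obtain ⟨x, hx, h⟩ := d.exists_of_even A hA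
  exact ⟨x, d.closure_eq ▸ hx, h⟩

/-- An element of `Q` squares to one exactly when its support does not have two points. -/
theorem sq_eq_one_iff {a : G} (ha : a ∈ Q) : a * a = 1 ↔ (supp p a).card ≠ 2 := by
  have key : ∀ A : Finset (Fin 5), Even A.card → A = ∅ ∨ (∃ i, A = Finset.univ.erase i) ∨
      ∃ i j : Fin 5, i ≠ j ∧ A = {i, j} := by decide
  have hz : ∀ b ∈ Q, b * z * (b * z) = b * b := fun b hb => by
    calc b * z * (b * z) = b * (z * b) * z := by group
      _ = b * (b * z) * z := by rw [d.hyp.ci.comm b hb]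
      _ = b * b * (z * z) := by group
      _ = b * b := by rw [d.hyp.ci.sq, mul_one]
  rcases key _ (d.supp_even ha) with h | ⟨i, h⟩ | ⟨i, j, hij, h⟩
  · rcases d.supp_eq_empty ha h with rfl | rfl <;> simp [h, d.hyp.ci.sq]
  · have hc : (supp p a).card = 4 := by rw [h]; simp
    refine iff_of_true ?_ (by rw [hc]; norm_num)
    rcases d.eq_of_supp_eq (d.mem i) ha (by rw [d.supp_p, h]) with rfl | rfl
    · exact d.sq i
    · rw [hz _ (d.mem i), d.sq]
  · refine iff_of_false ?_ (by rw [h, Finset.card_pair hij]; norm_num)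
    have hne : p i * p j * (p i * p j) ≠ 1 := by
      intro e
      apply d.nc i j hij
      have := eq_inv_of_mul_eq_one_left e
      rwa [mul_inv_rev, d.inv_p, d.inv_p] at this
    have hs : supp p (p i * p j) = supp p a := by
      rw [h, d.supp_mul (d.mem i) (d.mem j), d.supp_p, d.supp_p]
      clear d h hne
      revert i j
      decide
    rcases d.eq_of_supp_eq (mul_mem (d.mem i) (d.mem j)) ha hs with rfl | rfl
    · exact hne
    · rwa [hz _ (mul_mem (d.mem i) (d.mem j))]

theorem involution_cases {a : G} (ha : a ∈ Q) (h2 : a * a = 1) (h1 : a ≠ 1) (hz : a ≠ z) :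
    ∃ i, a = p i ∨ a = p i * z := by
  have key : ∀ A : Finset (Fin 5), Even A.card → A.card ≠ 2 → A ≠ ∅ →
      ∃ i, A = Finset.univ.erase i := by decide
  have hne : supp p a ≠ ∅ := fun e => (d.supp_eq_empty ha e).elim h1 hz
  obtain ⟨i, hi⟩ := key _ (d.supp_even ha) ((d.sq_eq_one_iff ha).1 h2) hne
  exact ⟨i, d.eq_of_supp_eq (d.mem i) ha (by rw [d.supp_p, hi])⟩

theorem exists_perm {c : G} (hc : c ∈ Subgroup.centralizer ({z} : Set G)) (i : Fin 5) :
    ∃ j, c * p i * c⁻¹ = p j ∨ c * p i * c⁻¹ = p j * z := by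
  refine d.involution_cases (d.hyp.conj_mem hc (d.mem i)) ?_ ?_ ?_
  · rw [show c * p i * c⁻¹ * (c * p i * c⁻¹) = c * (p i * p i) * c⁻¹ by group, d.sq]; group
  · exact fun e => d.ne_one i (conj_eq_one_iff.1 e)
  · intro e
    apply d.ne_z i
    calc p i = c⁻¹ * (c * p i * c⁻¹) * c := by group
      _ = z := by rw [e, mul_assoc, ← Hyp.mem_C.1 hc]; group

theorem supp_eq_supp_of_cases {x : G} {j : Fin 5} (h : x = p j ∨ x = p j * z) :
    supp p x = Finset.univ.erase j := by
  rcases h with rfl | rfl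
  · exact d.supp_p j
  · rw [d.supp_mul_z (d.mem j), d.supp_p]

theorem cases_unique {x : G} {j k : Fin 5} (h : x = p j ∨ x = p j * z) (h' : x = p k ∨ x = p k * z) :
    j = k := by
  by_contra hne
  have e := (d.supp_eq_supp_of_cases h).symm.trans (d.supp_eq_supp_of_cases h')
  have : j ∈ Finset.univ.erase k := Finset.mem_erase.2 ⟨hne, Finset.mem_univ _⟩
  rw [← e] at this
  exact (Finset.mem_erase.1 this).1 rfl

/-- The permutation of the five points induced by an element of the centraliser. -/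
noncomputable def idx (c : Subgroup.centralizer ({z} : Set G)) (i : Fin 5) : Fin 5 :=
  (d.exists_perm c.2 i).choose

theorem idx_spec (c : Subgroup.centralizer ({z} : Set G)) (i : Fin 5) :
    (c : G) * p i * (c : G)⁻¹ = p (d.idx c i) ∨ (c : G) * p i * (c : G)⁻¹ = p (d.idx c i) * z :=
  (d.exists_perm c.2 i).choose_spec

theorem idx_mul (a b : Subgroup.centralizer ({z} : Set G)) (i : Fin 5) :
    d.idx (a * b) i = d.idx a (d.idx b i) := by
  refine d.cases_unique (d.idx_spec (a * b) i) ?_
  have ha := d.idx_spec a (d.idx b i)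
  have haz : (a : G) * z * (a : G)⁻¹ = z := mul_inv_eq_iff_eq_mul.2 (Hyp.mem_C.1 a.2)
  have e : ((a * b : Subgroup.centralizer ({z} : Set G)) : G) * p i *
      ((a * b : Subgroup.centralizer ({z} : Set G)) : G)⁻¹ = (a : G) * ((b : G) * p i * (b : G)⁻¹) * (a : G)⁻¹ := by
    push_cast; group
  rw [e]
  rcases d.idx_spec b i with h | h
  · rw [h]; exact ha
  · rw [h, show (a : G) * (p (d.idx b i) * z) * (a : G)⁻¹ =
      ((a : G) * p (d.idx b i) * (a : G)⁻¹) * ((a : G) * z * (a : G)⁻¹) by group, haz]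
    rcases ha with h' | h' <;> rw [h']
    · exact Or.inr rfl
    · exact Or.inl (by rw [mul_assoc, d.hyp.ci.sq, mul_one])

theorem idx_one (i : Fin 5) : d.idx 1 i = i :=
  d.cases_unique (d.idx_spec 1 i) (Or.inl (by simp))

/-- The action on the five points. -/
noncomputable def act : Subgroup.centralizer ({z} : Set G) →* Equiv.Perm (Fin 5) where
  toFun c :=
    { toFun := d.idx c
      invFun := d.idx c⁻¹
      left_inv := fun i => by rw [← d.idx_mul, inv_mul_cancel, d.idx_one]
      right_inv := fun i => by rw [← d.idx_mul, mul_inv_cancel, d.idx_one] }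
  map_one' := Equiv.ext d.idx_one
  map_mul' a b := Equiv.ext (d.idx_mul a b)

theorem act_spec (c : Subgroup.centralizer ({z} : Set G)) (i : Fin 5) :
    (c : G) * p i * (c : G)⁻¹ = p (d.act c i) ∨ (c : G) * p i * (c : G)⁻¹ = p (d.act c i) * z :=
  d.idx_spec c i

theorem supp_conj (c : Subgroup.centralizer ({z} : Set G)) {a : G} (ha : a ∈ Q) :
    supp p ((c : G) * a * (c : G)⁻¹) = (supp p a).map (d.act c).toEmbedding := by
  ext m
  rw [Finset.mem_map_equiv, mem_supp, mem_supp]
  obtain ⟨i, rfl⟩ : ∃ i, d.act c i = m := ⟨_, (d.act c).apply_symm_apply m⟩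
  rw [Equiv.symm_apply_apply, not_iff_not, ← commute_conj_iff (g := (c : G)) (a := p i)]
  have hz : Commute z ((c : G) * a * (c : G)⁻¹) := (d.hyp.ci.comm _ (d.hyp.conj_mem c.2 ha)).symm
  rcases d.act_spec c i with h | h <;> rw [h]
  refine ⟨fun hc => hc.mul_left hz, fun hc => ?_⟩
  have := hc.mul_left hz
  rwa [mul_assoc, d.hyp.ci.sq, mul_one] at this

theorem mem_ker_iff (c : Subgroup.centralizer ({z} : Set G)) : d.act c = 1 ↔ (c : G) ∈ Q := by
  constructor
  · intro h
    haveI : Fact (Nat.Prime 2) := ⟨Nat.prime_two⟩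
    let α : MulAut ↥Q :=
      { toFun := fun q => ⟨(c : G) * q * (c : G)⁻¹, d.hyp.conj_mem c.2 q.2⟩
        invFun := fun q => ⟨(c : G)⁻¹ * q * (c : G), by
          simpa using d.hyp.conj_mem (inv_mem c.2) q.2⟩
        left_inv := fun q => Subtype.ext (by simp [mul_assoc])
        right_inv := fun q => Subtype.ext (by simp [mul_assoc])
        map_mul' := fun a b => Subtype.ext (by simp [mul_assoc]) }
    have hα : ∀ q : ↥Q, q⁻¹ * α q ∈ Subgroup.center ↥Q := by
      intro q
      have hs : supp p (q : G) = supp p ((c : G) * q * (c : G)⁻¹) := by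
        rw [d.supp_conj c q.2, h]; ext m; simp [Finset.mem_map_equiv, Equiv.Perm.one_def]
      refine Subgroup.mem_center_iff.2 fun w => Subtype.ext ?_
      show (w : G) * ((q : G)⁻¹ * ((c : G) * q * (c : G)⁻¹)) = (q : G)⁻¹ * ((c : G) * q * (c : G)⁻¹) * w
      rcases d.eq_of_supp_eq q.2 (d.hyp.conj_mem c.2 q.2) hs with e | e <;> rw [e]
      · simp
      · rw [inv_mul_cancel_left]; exact d.hyp.ci.comm _ w.2
    obtain ⟨g, hg⟩ := PGroup.extraspecial_exists_conj d.hyp.ci.extra α hα
    have hcen : (g : G)⁻¹ * c ∈ Subgroup.centralizer (Q : Set G) := by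
      intro q hq
      have e : (c : G) * q * (c : G)⁻¹ = g * q * (g : G)⁻¹ :=
        congrArg Subtype.val (MulEquiv.congr_fun hg ⟨q, hq⟩)
      calc q * ((g : G)⁻¹ * c) = (g : G)⁻¹ * (g * q * (g : G)⁻¹) * c := by group
        _ = (g : G)⁻¹ * c * q := by rw [← e]; group
    have := (Subgroup.zpowers_le.2 d.hyp.ci.mem) (d.hyp.cent hcen)
    simpa using mul_mem g.2 this
  · intro hc
    ext i
    refine congrArg Fin.val (d.cases_unique (d.act_spec c i) ?_)
    exact d.hyp.ci.conj_cases hc (d.mem i)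

theorem card_range : Nat.card d.act.range = 60 := by
  have hk : d.act.ker = Q.subgroupOf (Subgroup.centralizer ({z} : Set G)) := by
    ext c; rw [MonoidHom.mem_ker, d.mem_ker_iff, Subgroup.mem_subgroupOf]
  have hkc : Nat.card d.act.ker = 32 := by
    rw [hk, Nat.card_congr (Subgroup.subgroupOfEquivOfLe d.hyp.ci.le_centralizer).toEquiv, d.hyp.cardQ]
  have := Subgroup.card_mul_index d.act.ker
  rw [Subgroup.index_ker, hkc, d.hyp.cardC] at this
  omega

theorem range_eq : d.act.range = alternatingGroup (Fin 5) := by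
  refine Equiv.Perm.eq_alternatingGroup_of_index_eq_two ?_
  have := Subgroup.card_mul_index d.act.range
  rw [d.card_range, Nat.card_eq_fintype_card, Fintype.card_perm, Fintype.card_fin,
    show Nat.factorial 5 = 120 from rfl] at this
  omega

theorem exists_lift {π : Equiv.Perm (Fin 5)} (h : Equiv.Perm.sign π = 1) : ∃ c, d.act c = π :=
  (d.range_eq ▸ (Equiv.Perm.mem_alternatingGroup.2 h) : π ∈ d.act.range)

theorem sign_act (c : Subgroup.centralizer ({z} : Set G)) : Equiv.Perm.sign (d.act c) = 1 :=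
  Equiv.Perm.mem_alternatingGroup.1 (d.range_eq ▸ ⟨c, rfl⟩)

end Data

end Cfsg.Agent.J2Type
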