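import Cfsg.Agent.J2Type.Coord
import Cfsg.Agent.Invol.Counting

/-!
Involutions of the centraliser outside `Q`: one class, elementary abelian centraliser of order 16.
-/

set_option autoImplicit false

namespace Cfsg.Agent.J2Type

open Cfsg Cfsg.Agent.LargeExtra
open scoped symmDiff

namespace Fin5

theorem commutator_fill : ∀ π : Equiv.Perm (Fin 5), π * π = 1 → π ≠ 1 → Equiv.Perm.sign π = 1 →
    ∀ A : Finset (Fin 5), Even A.card → A.map π.toEmbedding = A →
      ∃ B : Finset (Fin 5), Even B.card ∧ B ∆ B.map π.toEmbedding = A := by decide +kernel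

theorem fixed_pair : ∀ π : Equiv.Perm (Fin 5), π * π = 1 → π ≠ 1 → Equiv.Perm.sign π = 1 →
    ∃ A : Finset (Fin 5), A.card = 2 ∧ A.map π.toEmbedding = A := by decide +kernel

theorem fixed_point : ∀ π : Equiv.Perm (Fin 5), π * π = 1 → π ≠ 1 → Equiv.Perm.sign π = 1 →
    ∃ k, π k = k ∧ ∀ A : Finset (Fin 5), Even A.card → A.card ≠ 2 → A.map π.toEmbedding = A →
      A = ∅ ∨ A = Finset.univ.erase k := by decide +kernel

theorem exists_conj : ∀ π π' : Equiv.Perm (Fin 5), π * π = 1 → π ≠ 1 → Equiv.Perm.sign π = 1 →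
    π' * π' = 1 → π' ≠ 1 → Equiv.Perm.sign π' = 1 →
      ∃ σ : Equiv.Perm (Fin 5), Equiv.Perm.sign σ = 1 ∧ σ * π = π' * σ := by decide +kernel

theorem centralizer_sq : ∀ π : Equiv.Perm (Fin 5), π * π = 1 → π ≠ 1 → Equiv.Perm.sign π = 1 →
    ∀ σ : Equiv.Perm (Fin 5), Equiv.Perm.sign σ = 1 → σ * π = π * σ → σ * σ = 1 := by decide +kernel

theorem centralizer_card : ∀ π : Equiv.Perm (Fin 5), π * π = 1 → π ≠ 1 → Equiv.Perm.sign π = 1 →
    (Finset.univ.filter fun σ : Equiv.Perm (Fin 5) => Equiv.Perm.sign σ = 1 ∧ σ * π = π * σ).card = 4 := by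
  decide +kernel

theorem stabilizer_card : ∀ k : Fin 5,
    (Finset.univ.filter fun σ : Equiv.Perm (Fin 5) => Equiv.Perm.sign σ = 1 ∧ σ k = k).card = 12 := by
  decide +kernel

theorem transitive : ∀ i j : Fin 5, ∃ σ : Equiv.Perm (Fin 5), Equiv.Perm.sign σ = 1 ∧ σ i = j := by
  decide +kernel

end Fin5

variable {G : Type*} [Group G]

/-- An involution of the centraliser of `z` outside `Q`. -/
def Outer (z : G) (Q : Subgroup G) (x : G) : Prop := x * x = 1 ∧ x * z = z * x ∧ x ∉ Q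

theorem Outer.mem {z : G} {Q : Subgroup G} {x : G} (hx : Outer z Q x) :
    x ∈ Subgroup.centralizer ({z} : Set G) := Hyp.mem_C.2 hx.2.1

theorem Outer.inv {z : G} {Q : Subgroup G} {x : G} (hx : Outer z Q x) : x⁻¹ = x :=
  inv_eq_of_mul_eq_one_right hx.1

namespace Data

variable {z : G} {Q : Subgroup G} {p : Fin 5 → G} (d : Data z Q p) [Finite G]
include d

theorem act_outer {x : G} (hx : Outer z Q x) :
    d.act ⟨x, hx.mem⟩ * d.act ⟨x, hx.mem⟩ = 1 ∧ d.act ⟨x, hx.mem⟩ ≠ 1 := by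
  refine ⟨?_, fun e => hx.2.2 ((d.mem_ker_iff _).1 e)⟩
  rw [← map_mul, show (⟨x, hx.mem⟩ * ⟨x, hx.mem⟩ : Subgroup.centralizer ({z} : Set G)) = 1 from
    Subtype.ext hx.1, map_one]

theorem supp_outer {x : G} (hx : Outer z Q x) {q : G} (hq : q ∈ Q) :
    supp p (x * q * x) = (supp p q).map (d.act ⟨x, hx.mem⟩).toEmbedding := by
  have := d.supp_conj ⟨x, hx.mem⟩ hq
  simpa only [hx.inv] using this

/-- Fixed classes of `Q` modulo its centre are inverted. -/
theorem inverts {x : G} (hx : Outer z Q x) {q : G} (hq : q ∈ Q)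
    (hf : (supp p q).map (d.act ⟨x, hx.mem⟩).toEmbedding = supp p q) : x * q * x = q⁻¹ := by
  obtain ⟨h1, h2⟩ := d.act_outer hx
  obtain ⟨B, hB, hBA⟩ := Fin5.commutator_fill _ h1 h2 (d.sign_act _) _ (d.supp_even hq) hf
  obtain ⟨r, hr, rfl⟩ := d.exists_supp B hB
  have hxr : x * r * x ∈ Q := by
    have := d.hyp.conj_mem hx.mem hr
    rwa [hx.inv] at this
  have hs : supp p (x * r * x * r⁻¹) = supp p q := by
    rw [d.supp_mul hxr (inv_mem hr), d.supp_outer hx hr]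
    have : supp p r⁻¹ = supp p r := by ext m; simp [mem_supp]
    rw [this, symmDiff_comm, hBA]
  have hinv : x * (x * r * x * r⁻¹) * x = (x * r * x * r⁻¹)⁻¹ := by
    have hxx := hx.1
    rw [mul_inv_rev, mul_inv_rev, mul_inv_rev, inv_inv, hx.inv]
    calc x * (x * r * x * r⁻¹) * x = (x * x) * r * x * r⁻¹ * x := by group
      _ = r * (x * (r⁻¹ * x)) := by rw [hxx]; group
  rcases d.eq_of_supp_eq (mul_mem hxr (inv_mem hr)) hq hs with rfl | rfl
  · exact hinv
  · have hzc : x * z = z * x := hx.2.1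
    calc x * (x * r * x * r⁻¹ * z) * x = x * (x * r * x * r⁻¹) * (z * x) := by group
      _ = x * (x * r * x * r⁻¹) * x * z := by rw [← hzc]; group
      _ = (x * r * x * r⁻¹)⁻¹ * z := by rw [hinv]
      _ = (x * r * x * r⁻¹ * z)⁻¹ := by
        rw [mul_inv_rev (x * r * x * r⁻¹) z, d.hyp.ci.inv_eq]
        exact d.hyp.ci.comm _ (inv_mem (mul_mem hxr (inv_mem hr)))

theorem fixed_of_inverts {x : G} (hx : Outer z Q x) {q : G} (hq : q ∈ Q) (h : x * q * x = q⁻¹) :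
    (supp p q).map (d.act ⟨x, hx.mem⟩).toEmbedding = supp p q := by
  rw [← d.supp_outer hx hq, h]
  ext m; simp [mem_supp]

/-- Involutions in one coset of `Q` are conjugate under `Q`. -/
theorem coset_conj {x : G} (hx : Outer z Q x) {q : G} (hq : q ∈ Q) (h : x * q * (x * q) = 1) :
    ∃ r ∈ Q, r * x * r⁻¹ = x * q := by
  have hinv : x * q * x = q⁻¹ := eq_inv_of_mul_eq_one_left (by rw [← h]; group)
  obtain ⟨h1, h2⟩ := d.act_outer hx
  obtain ⟨B, hB, hBA⟩ := Fin5.commutator_fill _ h1 h2 (d.sign_act _) _ (d.supp_even hq)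
    (d.fixed_of_inverts hx hq hinv)
  obtain ⟨r, hr, rfl⟩ := d.exists_supp B hB
  have hxr : x * r * x ∈ Q := by
    have := d.hyp.conj_mem hx.mem hr
    rwa [hx.inv] at this
  have hs : supp p (x * r * x * r⁻¹) = supp p q := by
    rw [d.supp_mul hxr (inv_mem hr), d.supp_outer hx hr]
    have : supp p r⁻¹ = supp p r := by ext m; simp [mem_supp]
    rw [this, symmDiff_comm, hBA]
  have e0 : x * (x * r * x * r⁻¹) = r * x * r⁻¹ := by
    calc x * (x * r * x * r⁻¹) = (x * x) * r * x * r⁻¹ := by group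
      _ = r * x * r⁻¹ := by rw [hx.1]; group
  rcases d.eq_of_supp_eq (mul_mem hxr (inv_mem hr)) hq hs with rfl | rfl
  · exact ⟨r, hr, e0.symm⟩
  · obtain ⟨A, hA2, hAf⟩ := Fin5.fixed_pair _ h1 h2 (d.sign_act _)
    obtain ⟨w, hw, rfl⟩ := d.exists_supp A (by rw [hA2]; exact even_two)
    have hwi := d.inverts hx hw hAf
    have hwz : w * w = z := by
      rcases d.hyp.ci.sq_mem hw with e | e
      · exact absurd hA2 ((d.sq_eq_one_iff hw).1 e)
      · exact e
    have e1 : w * x * w⁻¹ = x * z := by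
      have hw1 : x * w * x = w⁻¹ := hwi
      have : w * x = x * w⁻¹ := by
        calc w * x = (x * x) * w * x := by rw [hx.1, one_mul]
          _ = x * (x * w * x) := by group
          _ = x * w⁻¹ := by rw [hw1]
      rw [this, mul_assoc, ← mul_inv_rev, hwz, d.hyp.ci.inv_eq]
    refine ⟨r * w, mul_mem hr hw, ?_⟩
    calc r * w * x * (r * w)⁻¹ = r * (w * x * w⁻¹) * r⁻¹ := by group
      _ = r * x * (z * r⁻¹) := by rw [e1]; group
      _ = r * x * r⁻¹ * z := by rw [← d.hyp.ci.comm _ (inv_mem hr)]; group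
      _ = x * (x * r * x * r⁻¹ * z) := by rw [← e0]; group

theorem outer_conj_outer {x : G} (hx : Outer z Q x) {c : G} (hc : c ∈ Subgroup.centralizer ({z} : Set G)) :
    Outer z Q (c * x * c⁻¹) := by
  refine ⟨?_, ?_, fun hm => hx.2.2 ?_⟩
  · calc c * x * c⁻¹ * (c * x * c⁻¹) = c * (x * x) * c⁻¹ := by group
      _ = 1 := by rw [hx.1]; group
  · exact Hyp.mem_C.1 (mul_mem (mul_mem hc hx.mem) (inv_mem hc))
  · have := d.hyp.conj_mem (inv_mem hc) hm
    simpa [mul_assoc] using this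

theorem exists_same_act {x : G} (hx : Outer z Q x) {π : Equiv.Perm (Fin 5)} (h1 : π * π = 1) (h2 : π ≠ 1)
    (h3 : Equiv.Perm.sign π = 1) :
    ∃ y, ∃ hy : Outer z Q y, (∃ c ∈ Subgroup.centralizer ({z} : Set G), c * x * c⁻¹ = y) ∧
      d.act ⟨y, hy.mem⟩ = π := by
  obtain ⟨a1, a2⟩ := d.act_outer hx
  obtain ⟨σ, hσ, hσπ⟩ := Fin5.exists_conj _ _ a1 a2 (d.sign_act _) h1 h2 h3
  obtain ⟨c, hc⟩ := d.exists_lift hσ
  refine ⟨_, d.outer_conj_outer hx c.2, ⟨c, c.2, rfl⟩, ?_⟩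
  rw [show (⟨(c : G) * x * (c : G)⁻¹, (d.outer_conj_outer hx c.2).mem⟩ : Subgroup.centralizer ({z} : Set G))
    = c * ⟨x, hx.mem⟩ * c⁻¹ from rfl, map_mul, map_mul, map_inv, hc, hσπ, mul_inv_cancel_right]

/-- No element outside `Q` squares to `z`. -/
theorem no_sqrt {x : G} (hx : Outer z Q x) {w : G} (hw : w ∈ Subgroup.centralizer ({z} : Set G))
    (hwQ : w ∉ Q) : w * w ≠ z := by
  intro e
  have h1 : d.act ⟨w, hw⟩ * d.act ⟨w, hw⟩ = 1 := by
    rw [← map_mul]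
    refine (d.mem_ker_iff _).2 ?_
    show w * w ∈ Q
    rw [e]; exact d.hyp.ci.mem
  have h2 : d.act ⟨w, hw⟩ ≠ 1 := fun h => hwQ ((d.mem_ker_iff _).1 h)
  obtain ⟨y, hy, -, hact⟩ := d.exists_same_act hx h1 h2 (d.sign_act _)
  have hq : y * w ∈ Q := (d.mem_ker_iff ⟨y * w, mul_mem hy.mem hw⟩).1 (by
    rw [show (⟨y * w, mul_mem hy.mem hw⟩ : Subgroup.centralizer ({z} : Set G)) = ⟨y, hy.mem⟩ * ⟨w, hw⟩
      from rfl, map_mul, hact, h1])
  have hwy : w = y * (y * w) := by rw [← mul_assoc, hy.1, one_mul]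
  have hyq : y * (y * w) * y = z * (y * w)⁻¹ := by
    calc y * (y * w) * y = (y * y) * (w * w) * (w⁻¹ * y) := by group
      _ = z * (w⁻¹ * y) := by rw [hy.1, e, one_mul]
      _ = z * (y * w)⁻¹ := by rw [mul_inv_rev, hy.inv]
  have hs : (supp p (y * w)).map (d.act ⟨y, hy.mem⟩).toEmbedding = supp p (y * w) := by
    rw [← d.supp_outer hy hq, hyq, ← d.hyp.ci.comm _ (inv_mem hq), d.supp_mul_z (inv_mem hq)]
    ext m; rw [mem_supp, mem_supp, Commute.inv_right_iff]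
  have hinv := d.inverts hy hq hs
  rw [hinv] at hyq
  exact d.hyp.ci.ne_one (mul_eq_right.1 hyq.symm)

/-- All involutions outside `Q` are conjugate in the centraliser. -/
theorem outer_conj {x y : G} (hx : Outer z Q x) (hy : Outer z Q y) :
    ∃ c ∈ Subgroup.centralizer ({z} : Set G), c * x * c⁻¹ = y := by
  obtain ⟨h1, h2⟩ := d.act_outer hy
  obtain ⟨y', hy', ⟨c, hc, rfl⟩, hact⟩ := d.exists_same_act hx h1 h2 (d.sign_act _)
  have hq : c * x * c⁻¹ * y ∈ Q := (d.mem_ker_iff ⟨c * x * c⁻¹ * y, mul_mem hy'.mem hy.mem⟩).1 (by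
    rw [show (⟨c * x * c⁻¹ * y, mul_mem hy'.mem hy.mem⟩ : Subgroup.centralizer ({z} : Set G))
      = ⟨c * x * c⁻¹, hy'.mem⟩ * ⟨y, hy.mem⟩ from rfl, map_mul, hact, h1])
  have e : c * x * c⁻¹ * (c * x * c⁻¹ * y) = y := by rw [← mul_assoc, hy'.1, one_mul]
  obtain ⟨r, hr, hr'⟩ := d.coset_conj hy' hq (by rw [e, hy.1])
  refine ⟨r * c, mul_mem (d.hyp.ci.le_centralizer hr) hc, ?_⟩
  rw [← e, ← hr']; group

/-- The elements of `Q` commuting with an outer involution. -/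
theorem fixed_in_Q {x : G} (hx : Outer z Q x) :
    ∃ k, d.act ⟨x, hx.mem⟩ k = k ∧ (∀ q ∈ Q, q * x = x * q → q * q = 1 ∧
        (q = 1 ∨ q = z ∨ q = p k ∨ q = p k * z)) ∧ p k * x = x * p k := by
  obtain ⟨h1, h2⟩ := d.act_outer hx
  obtain ⟨k, hk, huniq⟩ := Fin5.fixed_point _ h1 h2 (d.sign_act _)
  refine ⟨k, hk, fun q hq hc => ?_, ?_⟩
  · have e : x * q * x = q := by rw [← hc, mul_assoc, hx.1, mul_one]
    have hf : (supp p q).map (d.act ⟨x, hx.mem⟩).toEmbedding = supp p q := by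
      rw [← d.supp_outer hx hq, e]
    have hinv := d.inverts hx hq hf
    rw [e] at hinv
    have hqq : q * q = 1 := mul_eq_one_iff_eq_inv.2 hinv
    refine ⟨hqq, ?_⟩
    rcases huniq _ (d.supp_even hq) ((d.sq_eq_one_iff hq).1 hqq) hf with h | h
    · rcases d.supp_eq_empty hq h with r | r
      · exact Or.inl r
      · exact Or.inr (Or.inl r)
    · rcases d.eq_of_supp_eq (d.mem k) hq (by rw [d.supp_p, h]) with r | r
      · exact Or.inr (Or.inr (Or.inl r))
      · exact Or.inr (Or.inr (Or.inr r))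
  · have hf : (supp p (p k)).map (d.act ⟨x, hx.mem⟩).toEmbedding = supp p (p k) := by
      rw [d.supp_p, Finset.map_erase, Finset.map_univ_equiv]
      simp [hk]
    have hinv := d.inverts hx (d.mem k) hf
    rw [d.inv_p] at hinv
    calc p k * x = (x * x) * p k * x := by rw [hx.1, one_mul]
      _ = x * (x * p k * x) := by group
      _ = x * p k := by rw [hinv]

theorem card_centralizer_outer {x : G} (hx : Outer z Q x) :
    Nat.card (Subgroup.centralizer ({z} : Set G) ⊓ Subgroup.centralizer ({x} : Set G) : Subgroup G) = 16 := by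
  classical
  set C := Subgroup.centralizer ({z} : Set G) with hC
  set E := C ⊓ Subgroup.centralizer ({x} : Set G) with hE
  let f : E →* Equiv.Perm (Fin 5) := d.act.comp (Subgroup.inclusion inf_le_left)
  have hker : Nat.card f.ker = 4 := by
    obtain ⟨k, -, hfix, hkx⟩ := d.fixed_in_Q hx
    have hzE : z ∈ E := ⟨Hyp.mem_C.2 rfl, Subgroup.mem_centralizer_singleton_iff.2 hx.2.1.symm⟩
    have hkE : p k ∈ E := ⟨d.hyp.ci.le_centralizer (d.mem k), Subgroup.mem_centralizer_singleton_iff.2 hkx⟩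
    let ι : Fin 4 → f.ker := ![1, ⟨⟨z, hzE⟩, (d.mem_ker_iff _).2 d.hyp.ci.mem⟩,
      ⟨⟨p k, hkE⟩, (d.mem_ker_iff _).2 (d.mem k)⟩,
      ⟨⟨p k * z, mul_mem hkE hzE⟩, (d.mem_ker_iff _).2 (mul_mem (d.mem k) d.hyp.ci.mem)⟩]
    have hinj : Function.Injective ι := by
      intro a b h
      have h' := congrArg (fun w : f.ker => ((w : E) : G)) h
      have n1 := d.ne_one k
      have n2 := d.ne_z k
      have n3 := d.hyp.ci.ne_one
      have n4 : p k * z ≠ 1 := fun e => n2 (by rw [eq_inv_of_mul_eq_one_left e, d.hyp.ci.inv_eq])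
      fin_cases a <;> fin_cases b <;> simp [ι, n1, n2, n3, n4, n1.symm, n2.symm, n3.symm, n4.symm] at h' ⊢
    have hsurj : Function.Surjective ι := by
      rintro ⟨⟨w, hw⟩, hwk⟩
      have hwQ : w ∈ Q := (d.mem_ker_iff _).1 hwk
      rcases (hfix w hwQ (Subgroup.mem_centralizer_singleton_iff.1 hw.2)).2 with r | r | r | r
      · exact ⟨0, Subtype.ext (Subtype.ext r.symm)⟩
      · exact ⟨1, Subtype.ext (Subtype.ext r.symm)⟩
      · exact ⟨2, Subtype.ext (Subtype.ext r.symm)⟩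
      · exact ⟨3, Subtype.ext (Subtype.ext r.symm)⟩
    rw [← Nat.card_congr (Equiv.ofBijective ι ⟨hinj, hsurj⟩), Nat.card_fin]
  obtain ⟨h1, h2⟩ := d.act_outer hx
  have hrange : Nat.card f.range = 4 := by
    rw [← Fin5.centralizer_card _ h1 h2 (d.sign_act _)]
    rw [← Nat.card_eq_finsetCard]
    refine Nat.card_congr (Equiv.subtypeEquivRight fun σ => ?_)
    simp only [Finset.mem_filter, Finset.mem_univ, true_and]
    constructor
    · rintro ⟨⟨w, hw⟩, rfl⟩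
      refine ⟨d.sign_act _, ?_⟩
      show d.act ⟨w, hw.1⟩ * d.act ⟨x, hx.mem⟩ = d.act ⟨x, hx.mem⟩ * d.act ⟨w, hw.1⟩
      rw [← map_mul, ← map_mul]
      exact congrArg d.act (Subtype.ext (Subgroup.mem_centralizer_singleton_iff.1 hw.2))
    · rintro ⟨hs, hc⟩
      obtain ⟨c, rfl⟩ := d.exists_lift hs
      have hy := d.outer_conj_outer hx c.2
      have hact : d.act ⟨(c : G) * x * (c : G)⁻¹, hy.mem⟩ = d.act ⟨x, hx.mem⟩ := by
        rw [show (⟨(c : G) * x * (c : G)⁻¹, hy.mem⟩ : C) = c * ⟨x, hx.mem⟩ * c⁻¹ from rfl, map_mul,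
          map_mul, map_inv, hc, mul_inv_cancel_right]
      have hq : x * ((c : G) * x * (c : G)⁻¹) ∈ Q := (d.mem_ker_iff ⟨_, mul_mem hx.mem hy.mem⟩).1 (by
        rw [show (⟨x * ((c : G) * x * (c : G)⁻¹), mul_mem hx.mem hy.mem⟩ : C) = ⟨x, hx.mem⟩ * ⟨_, hy.mem⟩
          from rfl, map_mul, hact, h1])
      have e : x * (x * ((c : G) * x * (c : G)⁻¹)) = (c : G) * x * (c : G)⁻¹ := by
        rw [← mul_assoc, hx.1, one_mul]
      obtain ⟨r, hr, hr'⟩ := d.coset_conj hx hq (by rw [e]; exact hy.1)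
      rw [e] at hr'
      have hrC := d.hyp.ci.le_centralizer hr
      have hrc : r⁻¹ * (c : G) ∈ C := mul_mem (inv_mem hrC) c.2
      refine ⟨⟨r⁻¹ * c, hrc, Subgroup.mem_centralizer_singleton_iff.2 ?_⟩, ?_⟩
      · calc r⁻¹ * (c : G) * x = r⁻¹ * ((c : G) * x * (c : G)⁻¹) * c := by group
          _ = x * (r⁻¹ * c) := by rw [← hr']; group
      · show d.act ((⟨r, hrC⟩ : C)⁻¹ * c) = d.act c
        rw [map_mul, map_inv, (d.mem_ker_iff ⟨r, hrC⟩).2 hr, inv_one, one_mul]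
  have := Subgroup.card_mul_index f.ker
  rw [Subgroup.index_ker, hker, hrange] at this
  exact this.symm

theorem p_conj_z (i : Fin 5) : IsConj z (p i) ∧ IsConj z (p i * z) := by
  have key : ∀ j, IsConj (p i) (p j) ∧ IsConj (p i) (p j * z) := by
    intro j
    obtain ⟨σ, hσ, hij⟩ := Fin5.transitive i j
    obtain ⟨c, rfl⟩ := d.exists_lift hσ
    obtain ⟨q, hq, hqe⟩ := d.hyp.ci.exists_swap (d.mem j) (d.ne_one j) (d.ne_z j)
    have hsw : IsConj (p j) (p j * z) := isConj_iff.2 ⟨q, hqe⟩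
    have := d.act_spec c i
    rw [hij] at this
    rcases this with h | h
    · exact ⟨isConj_iff.2 ⟨_, h⟩, (isConj_iff.2 ⟨_, h⟩ : IsConj (p i) (p j)).trans hsw⟩
    · exact ⟨(isConj_iff.2 ⟨_, h⟩ : IsConj (p i) (p j * z)).trans hsw.symm, isConj_iff.2 ⟨_, h⟩⟩
  obtain ⟨g, hg, hgz⟩ := d.hyp.nwc
  have hs : g * z * g⁻¹ * (g * z * g⁻¹) = 1 := by
    calc g * z * g⁻¹ * (g * z * g⁻¹) = g * (z * z) * g⁻¹ := by group
      _ = 1 := by rw [d.hyp.ci.sq]; group
  have hzi : IsConj z (p i) := by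
    obtain ⟨j, hj⟩ := d.involution_cases hg hs (fun e => d.hyp.ci.ne_one (conj_eq_one_iff.1 e)) hgz
    rcases hj with e | e
    · exact (e ▸ Invol.isConj_conj g z).trans (key j).1.symm
    · exact (e ▸ Invol.isConj_conj g z).trans (key j).2.symm
  exact ⟨hzi, hzi.trans (key i).2⟩

theorem isConj_z_of_mem {q : G} (hq : q ∈ Q) (h2 : q * q = 1) (h1 : q ≠ 1) : IsConj z q := by
  by_cases hz : q = z
  · exact hz ▸ IsConj.refl z
  · obtain ⟨i, hi | hi⟩ := d.involution_cases hq h2 h1 hz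
    · exact hi ▸ (d.p_conj_z i).1
    · exact hi ▸ (d.p_conj_z i).2

end Data

end Cfsg.Agent.J2Type
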