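import Cfsg.Agent.LargeExtra.Large
import Mathlib.GroupTheory.Perm.Cycle.Type
import Mathlib.GroupTheory.SpecificGroups.Alternating

/-!
The extraspecial group `2^{1+4}` of minus type inside an involution centraliser with quotient of order 60:
five pairwise non-commuting involutions and the action on them.
-/

set_option autoImplicit false

namespace Cfsg.Agent.J2Type

open Cfsg Cfsg.Agent.LargeExtra
open scoped symmDiff

variable {G : Type*} [Group G]

/-- The hypotheses of Hall–Janko type at `z`. -/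
structure Hyp (z : G) (Q : Subgroup G) : Prop where
  ci : CentralInvolution Q z
  cent : Subgroup.centralizer (Q : Set G) ≤ Subgroup.zpowers z
  norm : Subgroup.centralizer ({z} : Set G) ≤ Subgroup.normalizer (Q : Set G)
  cardQ : Nat.card Q = 32
  cardC : Nat.card (Subgroup.centralizer ({z} : Set G)) = 1920
  nwc : ∃ g : G, g * z * g⁻¹ ∈ Q ∧ g * z * g⁻¹ ≠ z

theorem Hyp.mem_C {z : G} {c : G} : c ∈ Subgroup.centralizer ({z} : Set G) ↔ c * z = z * c :=
  Subgroup.mem_centralizer_singleton_iff

theorem Hyp.conj_mem {z : G} {Q : Subgroup G} (h : Hyp z Q) {c : G}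
    (hc : c ∈ Subgroup.centralizer ({z} : Set G)) {q : G} (hq : q ∈ Q) : c * q * c⁻¹ ∈ Q :=
  (Subgroup.mem_normalizer_iff.1 (h.norm hc) q).1 hq

theorem Hyp.conj [Finite G] {z : G} {Q : Subgroup G} (h : Hyp z Q) (g : G) :
    Hyp (g * z * g⁻¹) (Q.map (MulAut.conj g).toMonoidHom) := by
  have hC : Subgroup.centralizer ({g * z * g⁻¹} : Set G) =
      (Subgroup.centralizer ({z} : Set G)).map (MulAut.conj g).toMonoidHom := by
    ext x
    rw [Subgroup.mem_map_equiv, Hyp.mem_C, Hyp.mem_C]
    simp only [MulAut.conj_symm_apply]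
    constructor <;> intro e
    · calc g⁻¹ * x * g * z = g⁻¹ * (x * (g * z * g⁻¹)) * g := by group
        _ = z * (g⁻¹ * x * g) := by rw [e]; group
    · calc x * (g * z * g⁻¹) = g * (g⁻¹ * x * g * z) * g⁻¹ := by group
        _ = g * z * g⁻¹ * x := by rw [e]; group
  refine ⟨h.ci.conj g, ?_, ?_, ?_, ?_, ?_⟩
  · intro x hx
    have : g⁻¹ * x * g ∈ Subgroup.zpowers z := h.cent fun q hq => by
      have e := hx (g * q * g⁻¹) ⟨q, hq, rfl⟩
      calc q * (g⁻¹ * x * g) = g⁻¹ * (g * q * g⁻¹ * x) * g := by group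
        _ = g⁻¹ * x * g * q := by rw [e]; group
    rcases h.ci.mem_zpowers_iff.1 this with e | e
    · have : x = 1 := by
        calc x = g * (g⁻¹ * x * g) * g⁻¹ := by group
          _ = 1 := by rw [e]; group
      exact this ▸ one_mem _
    · have : x = g * z * g⁻¹ := by
        calc x = g * (g⁻¹ * x * g) * g⁻¹ := by group
          _ = _ := by rw [e]
      exact this ▸ Subgroup.mem_zpowers _
  · rw [hC]
    exact le_trans (Subgroup.map_mono h.norm) (Subgroup.le_normalizer_map _)
  · rw [Subgroup.card_map_of_injective (MulAut.conj g).injective, h.cardQ]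
  · rw [hC, Subgroup.card_map_of_injective (MulAut.conj g).injective, h.cardC]
  · obtain ⟨a, ha, hne⟩ := h.nwc
    refine ⟨g * a * g⁻¹, ⟨_, ha, ?_⟩, fun e => hne ?_⟩
    · show g * (a * z * a⁻¹) * g⁻¹ = _
      group
    · calc a * z * a⁻¹ = g⁻¹ * (g * a * g⁻¹ * (g * z * g⁻¹) * (g * a * g⁻¹)⁻¹) * g := by group
        _ = z := by rw [e]; group

theorem commute_conj_iff {g a b : G} : Commute (g * a * g⁻¹) (g * b * g⁻¹) ↔ Commute a b := by
  constructor <;> intro h
  · have := h.map (MulAut.conj g⁻¹).toMonoidHom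
    simpa [mul_assoc] using this
  · exact h.map (MulAut.conj g).toMonoidHom

theorem conj_conj' (g h a : G) : g * (h * a * h⁻¹) * g⁻¹ = g * h * a * (g * h)⁻¹ := by group

/-- Five pairwise non-commuting involutions of `Q`. -/
structure Data (z : G) (Q : Subgroup G) (p : Fin 5 → G) : Prop where
  hyp : Hyp z Q
  mem : ∀ i, p i ∈ Q
  sq : ∀ i, p i * p i = 1
  nc : ∀ i j, i ≠ j → ¬ Commute (p i) (p j)

theorem card_fixed_dvd {A : Subgroup G} [Finite G] {f : G} (hf : orderOf f = 5)
    (hfA : ∀ a ∈ A, f * a * f⁻¹ ∈ A) :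
    ∃ F : Subgroup G, F ≤ A ∧ (∀ a, a ∈ F ↔ a ∈ A ∧ f * a = a * f) ∧
      Nat.card A ≡ Nat.card F [MOD 5] := by
  classical
  refine ⟨A ⊓ Subgroup.centralizer ({f} : Set G), inf_le_left, fun a => ?_, ?_⟩
  · rw [Subgroup.mem_inf, Subgroup.mem_centralizer_singleton_iff]
    exact and_congr_right fun _ => eq_comm
  · have hN : f ∈ Subgroup.normalizer (A : Set G) := by
      refine Subgroup.mem_normalizer_iff.2 fun a => ⟨hfA a, fun ha => ?_⟩
      have h4 : ∀ n : ℕ, ∀ b ∈ A, f ^ n * b * (f ^ n)⁻¹ ∈ A := by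
        intro n
        induction n with
        | zero => intro b hb; simpa using hb
        | succ n ih =>
          intro b hb
          have := ih _ (hfA b hb)
          simpa [pow_succ, mul_assoc] using this
      have hf5 : f ^ 4 = f⁻¹ := eq_inv_of_mul_eq_one_left (by rw [← pow_succ, show (4 : ℕ) + 1 = orderOf f by omega, pow_orderOf_eq_one])
      have := h4 4 _ ha
      simpa [hf5, mul_assoc] using this
    let H : Subgroup G := Subgroup.zpowers f
    letI : MulAction H A :=
      { smul := fun k a => ⟨k * a * (k : G)⁻¹,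
          (Subgroup.mem_normalizer_iff.1 (Subgroup.zpowers_le.2 hN k.2) a).1 a.2⟩
        one_smul := fun a => Subtype.ext (show ((1 : H) : G) * a * ((1 : H) : G)⁻¹ = a by simp)
        mul_smul := fun k l a => Subtype.ext
          (show ((k * l : H) : G) * a * ((k * l : H) : G)⁻¹ = k * (l * a * (l : G)⁻¹) * (k : G)⁻¹ by
            simp [mul_assoc]) }
    have hP : IsPGroup 5 H := IsPGroup.of_card (n := 1) (by rw [Nat.card_zpowers, hf, pow_one])
    haveI : Fact (Nat.Prime 5) := ⟨by norm_num⟩
    have e : Nat.card (MulAction.fixedPoints H A) =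
        Nat.card (A ⊓ Subgroup.centralizer ({f} : Set G) : Subgroup G) := by
      refine Nat.card_congr
        { toFun := fun a => ⟨a.1, a.1.2, ?_⟩
          invFun := fun a => ⟨⟨a, a.2.1⟩, ?_⟩
          left_inv := fun _ => rfl
          right_inv := fun _ => rfl }
      · show (a.1 : G) ∈ Subgroup.centralizer ({f} : Set G)
        rw [Subgroup.mem_centralizer_singleton_iff]
        have := congrArg Subtype.val (a.2 ⟨f, Subgroup.mem_zpowers f⟩)
        exact (mul_inv_eq_iff_eq_mul.1 this).symm
      · rintro ⟨k, n, rfl⟩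
        refine Subtype.ext (show f ^ n * (a : G) * (f ^ n)⁻¹ = a from mul_inv_eq_iff_eq_mul.2 ?_)
        exact ((show Commute (a : G) f from Subgroup.mem_centralizer_singleton_iff.1 a.2.2).zpow_right n).eq.symm
    have := hP.card_modEq_card_fixedPoints A
    rwa [e] at this

theorem Hyp.not_fixed [Finite G] {z : G} {Q : Subgroup G} (h : Hyp z Q) {f s : G} (hf : orderOf f = 5)
    (hfC : f ∈ Subgroup.centralizer ({z} : Set G)) (hs : s ∈ Q) (hs1 : s ≠ 1) (hsz : s ≠ z) :
    f * s ≠ s * f := by
  intro e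
  obtain ⟨F, hFQ, hF, hmod⟩ := card_fixed_dvd hf (A := Q) fun a ha => h.conj_mem hfC ha
  have hzF : z ∈ F := (hF z).2 ⟨h.ci.mem, Hyp.mem_C.1 hfC⟩
  have hsF : s ∈ F := (hF s).2 ⟨hs, e⟩
  have h3 : 3 ≤ Nat.card F := by
    classical
    haveI : Fintype F := Fintype.ofFinite _
    rw [Nat.card_eq_fintype_card]
    refine Fintype.two_lt_card_iff.2 ⟨1, ⟨z, hzF⟩, ⟨s, hsF⟩, ?_, ?_, ?_⟩
    · exact fun e => h.ci.ne_one (congrArg Subtype.val e).symm
    · exact fun e => hs1 (congrArg Subtype.val e).symm
    · exact fun e => hsz (congrArg Subtype.val e).symm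
  have hdvd : Nat.card F ∣ 32 := h.cardQ ▸ Subgroup.card_dvd_of_le hFQ
  rw [h.cardQ] at hmod
  have : Nat.card F = 32 := by
    have hle := Nat.le_of_dvd (by norm_num) hdvd
    rw [Nat.ModEq] at hmod
    interval_cases (Nat.card F) <;> first | rfl | omega
  have hFe : F = Q := Subgroup.eq_of_le_of_card_ge hFQ (by rw [this, h.cardQ])
  have hfQ : f ∈ Subgroup.centralizer (Q : Set G) := fun q hq => ((hF q).1 (hFe ▸ hq)).2.symm
  rcases h.ci.mem_zpowers_iff.1 (h.cent hfQ) with e' | e'
  · rw [e', orderOf_one] at hf; norm_num at hf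
  · rw [e', h.ci.order_two] at hf; norm_num at hf

theorem comm_xor {z : G} {Q : Subgroup G} (h : Hyp z Q) {a b c : G} (ha : a ∈ Q) (hb : b ∈ Q)
    (hc : c ∈ Q) : Commute a (b * c) ↔ (Commute a b ↔ Commute a c) := by
  have cases : ∀ x ∈ Q, (Commute a x ∧ a * x * a⁻¹ = x) ∨ (¬ Commute a x ∧ a * x * a⁻¹ = x * z) := by
    intro x hx
    rcases h.ci.conj_cases ha hx with e | e
    · exact Or.inl ⟨mul_inv_eq_iff_eq_mul.1 e, e⟩
    · refine Or.inr ⟨fun hcm => h.ci.ne_one ?_, e⟩
      rw [hcm.eq, mul_inv_cancel_right] at e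
      exact mul_eq_left.1 e.symm
  have hm : a * (b * c) * a⁻¹ = (a * b * a⁻¹) * (a * c * a⁻¹) := by group
  have hiff : Commute a (b * c) ↔ a * (b * c) * a⁻¹ = b * c := mul_inv_eq_iff_eq_mul.symm
  have hzc : z * c = c * z := (h.ci.comm c hc).symm
  rcases cases b hb with ⟨cb, eb⟩ | ⟨cb, eb⟩ <;> rcases cases c hc with ⟨cc, ec⟩ | ⟨cc, ec⟩ <;>
    simp only [cb, cc, iff_true, iff_false, not_true_eq_false, not_false_eq_true, hiff, hm, eb, ec]
  · rw [← mul_assoc]
    exact fun e => h.ci.ne_one (mul_eq_left.1 e)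
  · rw [mul_assoc b z c, hzc, ← mul_assoc]
    exact fun e => h.ci.ne_one (mul_eq_left.1 e)
  · calc b * z * (c * z) = b * (z * c) * z := by simp only [mul_assoc]
      _ = b * c := by rw [hzc]; simp only [mul_assoc, h.ci.sq, mul_one]

theorem exists_data [Finite G] {z : G} {Q : Subgroup G} (h : Hyp z Q) :
    ∃ p : Fin 5 → G, Data z Q p := by
  obtain ⟨g, hsQ, hsz⟩ := h.nwc
  have hss : g * z * g⁻¹ * (g * z * g⁻¹) = 1 := by
    calc g * z * g⁻¹ * (g * z * g⁻¹) = g * (z * z) * g⁻¹ := by group
      _ = 1 := by rw [h.ci.sq]; group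
  have hs1 : g * z * g⁻¹ ≠ 1 := fun e => h.ci.ne_one (conj_eq_one_iff.1 e)
  generalize g * z * g⁻¹ = s at hsQ hsz hss hs1
  haveI : Fact (Nat.Prime 5) := ⟨by norm_num⟩
  obtain ⟨⟨f, hfC⟩, hf⟩ := exists_prime_orderOf_dvd_card' (G := Subgroup.centralizer ({z} : Set G)) 5
    (by rw [h.cardC]; norm_num)
  rw [Subgroup.orderOf_mk] at hf
  -- from a seed whose first two translates do not commute
  have build : ∀ (t : G), t ∈ Q → t * t = 1 → ∀ (f : G), orderOf f = 5 →
      f ∈ Subgroup.centralizer ({z} : Set G) → ¬ Commute t (f * t * f⁻¹) →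
      ¬ Commute t (f ^ 2 * t * (f ^ 2)⁻¹) → ∃ p : Fin 5 → G, Data z Q p := by
    intro t ht htt f hf hfC h1 h2
    have hf5 : f ^ 5 = 1 := by rw [← hf, pow_orderOf_eq_one]
    let p : Fin 5 → G := fun i => f ^ (i : ℕ) * t * (f ^ (i : ℕ))⁻¹
    have key : ∀ i : ℕ, ∀ a b : G, Commute (f ^ i * a * (f ^ i)⁻¹) (f ^ i * b * (f ^ i)⁻¹) → Commute a b :=
      fun i a b hc => commute_conj_iff.1 hc
    have hshift : ∀ i d : ℕ, ¬ Commute t (f ^ d * t * (f ^ d)⁻¹) →
        ¬ Commute (f ^ i * t * (f ^ i)⁻¹) (f ^ (i + d) * t * (f ^ (i + d))⁻¹) := by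
      intro i d hd hc
      apply hd
      apply key i
      rw [conj_conj', ← pow_add]
      exact hc
    have hmod : ∀ n : ℕ, f ^ (n + 5) = f ^ n := fun n => by rw [pow_add, hf5, mul_one]
    have h3 : ¬ Commute t (f ^ 3 * t * (f ^ 3)⁻¹) := fun hc => by
      have := hshift 3 2 h2
      rw [hf5, one_mul, inv_one, mul_one] at this
      exact this hc.symm
    have h4 : ¬ Commute t (f ^ 4 * t * (f ^ 4)⁻¹) := fun hc => by
      have := hshift 4 1 (by simpa using h1)
      rw [hf5, one_mul, inv_one, mul_one] at this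
      exact this hc.symm
    have h1' : ¬ Commute t (f ^ 1 * t * (f ^ 1)⁻¹) := by simpa using h1
    refine ⟨p, h, fun i => h.conj_mem (pow_mem hfC _) ht, fun i => ?_, fun i j hij hc => ?_⟩
    · calc f ^ (i : ℕ) * t * (f ^ (i : ℕ))⁻¹ * (f ^ (i : ℕ) * t * (f ^ (i : ℕ))⁻¹)
          = f ^ (i : ℕ) * (t * t) * (f ^ (i : ℕ))⁻¹ := by group
        _ = 1 := by rw [htt]; group
    · rcases lt_or_gt_of_ne (fun e => hij (Fin.ext e) : (i : ℕ) ≠ (j : ℕ)) with hlt | hlt
      · obtain ⟨d, hd⟩ : ∃ d, (j : ℕ) = i + d := ⟨(j : ℕ) - i, by omega⟩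
        refine hshift i d ?_ (hd ▸ hc)
        have : d = 1 ∨ d = 2 ∨ d = 3 ∨ d = 4 := by omega
        rcases this with rfl | rfl | rfl | rfl <;> assumption
      · obtain ⟨d, hd⟩ : ∃ d, (i : ℕ) = j + d := ⟨(i : ℕ) - j, by omega⟩
        refine hshift j d ?_ (hd ▸ hc.symm)
        have : d = 1 ∨ d = 2 ∨ d = 3 ∨ d = 4 := by omega
        rcases this with rfl | rfl | rfl | rfl <;> assumption
  have hfQ : ∀ n : ℕ, f ^ n * s * (f ^ n)⁻¹ ∈ Q := fun n => h.conj_mem (pow_mem hfC _) hsQ
  by_cases h1 : Commute s (f * s * f⁻¹)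
  · by_cases h2 : Commute s (f ^ 2 * s * (f ^ 2)⁻¹)
    · -- all translates commute: impossible
      exfalso
      have hf5 : f ^ 5 = 1 := by rw [← hf, pow_orderOf_eq_one]
      have step : ∀ i d : ℕ, Commute s (f ^ d * s * (f ^ d)⁻¹) →
          Commute (f ^ i * s * (f ^ i)⁻¹) (f ^ (i + d) * s * (f ^ (i + d))⁻¹) := by
        intro i d hd
        have := commute_conj_iff (g := f ^ i).2 hd
        rwa [conj_conj', ← pow_add] at this
      have hall : ∀ d : ℕ, d < 5 → Commute s (f ^ d * s * (f ^ d)⁻¹) := by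
        intro d hd
        interval_cases d
        · simp
        · simpa using h1
        · exact h2
        · have := (step 3 2 h2).symm
          rwa [hf5, one_mul, inv_one, mul_one] at this
        · have := (step 4 1 (by simpa using h1)).symm
          rwa [hf5, one_mul, inv_one, mul_one] at this
      let S : Set G := insert z (Set.range fun i : Fin 5 => f ^ (i : ℕ) * s * (f ^ (i : ℕ))⁻¹)
      have hSQ : S ⊆ Q := by
        rintro x (rfl | ⟨i, rfl⟩)
        · exact h.ci.mem
        · exact hfQ _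
      have hcomm : ∀ x ∈ S, ∀ y ∈ S, x * y = y * x := by
        rintro x (rfl | ⟨i, rfl⟩) y (rfl | ⟨j, rfl⟩)
        · rfl
        · exact (h.ci.comm _ (hfQ _)).symm
        · exact h.ci.comm _ (hfQ _)
        · rcases le_total (i : ℕ) (j : ℕ) with hle | hle
          · obtain ⟨d, hd⟩ := Nat.exists_eq_add_of_le hle
            show Commute (f ^ (i : ℕ) * s * (f ^ (i : ℕ))⁻¹) (f ^ (j : ℕ) * s * (f ^ (j : ℕ))⁻¹)
            rw [hd]
            exact step _ _ (hall d (by omega))
          · obtain ⟨d, hd⟩ := Nat.exists_eq_add_of_le hle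
            show Commute (f ^ (i : ℕ) * s * (f ^ (i : ℕ))⁻¹) (f ^ (j : ℕ) * s * (f ^ (j : ℕ))⁻¹)
            rw [hd]
            exact (step _ _ (hall d (by omega))).symm
      set A := Subgroup.closure S with hA
      have hAQ : A ≤ Q := (Subgroup.closure_le _).2 hSQ
      have habA : IsMulCommutative A := by
        rw [hA]
        exact Subgroup.isMulCommutative_closure hcomm
      haveI : Fact (Nat.Prime 2) := ⟨Nat.prime_two⟩
      have h8 : Nat.card A ≤ 2 ^ (2 + 1) := by
        have := Cfsg.Agent.PGroup.extraspecial_card_abelian_le h.ci.extra (n := 2)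
          (by rw [h.cardQ]; norm_num) (A := A.subgroupOf Q)
          ⟨⟨fun a b => by
            have e := habA.is_comm.comm (⟨((a : ↥Q) : G), a.2⟩ : A) ⟨((b : ↥Q) : G), b.2⟩
            exact Subtype.ext (Subtype.ext (Subtype.ext_iff.1 e :))⟩⟩
        rwa [Nat.card_congr (Subgroup.subgroupOfEquivOfLe hAQ).toEquiv] at this
      have hfA : ∀ a ∈ A, f * a * f⁻¹ ∈ A := by
        intro a ha
        induction ha using Subgroup.closure_induction with
        | mem x hx =>
          rcases hx with rfl | ⟨i, rfl⟩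
          · rw [Hyp.mem_C.1 hfC, mul_inv_cancel_right]
            exact Subgroup.subset_closure (Or.inl rfl)
          · refine Subgroup.subset_closure (Or.inr ⟨i + 1, ?_⟩)
            have e : f ^ ((i + 1 : Fin 5) : ℕ) = f * f ^ (i : ℕ) := by
              rw [← pow_succ', Fin.val_add]
              exact (pow_eq_pow_mod _ hf5).symm
            simp only [e]
            group
        | one => simp
        | mul x y _ _ hx hy => simpa [mul_assoc] using mul_mem hx hy
        | inv x _ hx => simpa [mul_assoc] using inv_mem hx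
      obtain ⟨F, hFA, hF, hmod⟩ := card_fixed_dvd hf hfA
      have hsA : s ∈ A := Subgroup.subset_closure (Or.inr ⟨0, by simp⟩)
      have hzA : z ∈ A := Subgroup.subset_closure (Or.inl rfl)
      have hdA : Nat.card A ∣ 32 := h.cardQ ▸ Subgroup.card_dvd_of_le hAQ
      have hdF : Nat.card F ∣ Nat.card A := Subgroup.card_dvd_of_le hFA
      have hzF : z ∈ F := (hF z).2 ⟨hzA, Hyp.mem_C.1 hfC⟩
      have hF2 : 2 ≤ Nat.card F := by
        classical
        haveI : Fintype F := Fintype.ofFinite _
        rw [Nat.card_eq_fintype_card]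
        exact Fintype.one_lt_card_iff.2 ⟨1, ⟨z, hzF⟩, fun e => h.ci.ne_one (congrArg Subtype.val e).symm⟩
      have hle : Nat.card F ≤ Nat.card A := Nat.le_of_dvd Nat.card_pos hdF
      have hEq : Nat.card F = Nat.card A := by
        rw [Nat.ModEq] at hmod
        norm_num at h8
        interval_cases (Nat.card A) <;> interval_cases (Nat.card F) <;>
          first | rfl | omega
      have := Subgroup.eq_of_le_of_card_ge hFA hEq.ge
      exact h.not_fixed hf hfC hsQ hs1 hsz (((hF s).1 (this.symm ▸ hsA)).2)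
    · -- adjacent translates commute
      set u := f * s * f⁻¹ with hu
      have huQ : u ∈ Q := h.conj_mem hfC hsQ
      refine build (s * u) (mul_mem hsQ huQ) ?_ f hf hfC ?_ ?_
      · calc s * u * (s * u) = s * (u * s) * u := by group
          _ = (s * s) * (u * u) := by rw [← h1.eq]; group
          _ = 1 := by
            rw [hss, one_mul, hu]
            calc f * s * f⁻¹ * (f * s * f⁻¹) = f * (s * s) * f⁻¹ := by group
              _ = 1 := by rw [hss]; group
      · set v := f ^ 2 * s * (f ^ 2)⁻¹ with hv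
        have hvQ : v ∈ Q := hfQ 2
        have e : f * (s * u) * f⁻¹ = u * v := by rw [hu, hv, pow_two]; group
        have huv : Commute u v := by
          have := commute_conj_iff (g := f).2 h1
          rw [hu, conj_conj', ← pow_two] at this
          rw [hu, hv]
          exact this
        rw [e]
        intro hc
        have a1 := (comm_xor h (mul_mem hsQ huQ) huQ hvQ).1 hc
        have b1 : Commute (s * u) u := h1.mul_left (Commute.refl u)
        have b2 : Commute v s → False := fun hx => h2 hx.symm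
        have b3 := (comm_xor h hvQ hsQ huQ).1 (a1.1 b1).symm
        exact b2 (b3.2 huv.symm)
      · set v := f ^ 2 * s * (f ^ 2)⁻¹ with hv
        set w := f ^ 3 * s * (f ^ 3)⁻¹ with hw
        have hvQ : v ∈ Q := hfQ 2
        have hwQ : w ∈ Q := hfQ 3
        have e : f ^ 2 * (s * u) * (f ^ 2)⁻¹ = v * w := by
          rw [hu, hv, hw, pow_succ f 2]; group
        have huv : Commute u v := by
          have := commute_conj_iff (g := f).2 h1
          rw [hu, conj_conj', ← pow_two] at this
          rw [hu, hv]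
          exact this
        have hsw : ¬ Commute s w := fun hx => h2 (by
          have hf5 : f ^ 5 = 1 := by rw [← hf, pow_orderOf_eq_one]
          have := commute_conj_iff (g := f ^ 2).2 hx
          rw [hw] at this
          have e5 : f ^ 2 * (f ^ 3 * s * (f ^ 3)⁻¹) * (f ^ 2)⁻¹ = s := by
            calc f ^ 2 * (f ^ 3 * s * (f ^ 3)⁻¹) * (f ^ 2)⁻¹ = f ^ (2 + 3) * s * (f ^ (2 + 3))⁻¹ := by
                  rw [pow_add]; group
              _ = s := by norm_num [hf5]
          rw [e5] at this
          exact this.symm)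
        have huw : ¬ Commute u w := fun hx => h2 (by
          refine commute_conj_iff (g := f).1 ?_
          rw [hu, hw] at hx
          rw [hv, conj_conj', ← pow_succ']
          exact hx)
        rw [e]
        intro hc
        have a1 := (comm_xor h (mul_mem hsQ huQ) hvQ hwQ).1 hc
        have hw' : Commute (s * u) w :=
          ((comm_xor h hwQ hsQ huQ).2 ⟨fun hx => absurd hx.symm hsw, fun hx => absurd hx.symm huw⟩).symm
        have hv' := (comm_xor h hvQ hsQ huQ).1 (a1.2 hw').symm
        exact h2 (hv'.2 huv.symm).symm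
  · by_cases h2 : Commute s (f ^ 2 * s * (f ^ 2)⁻¹)
    · -- translates at distance two commute: replace f by its square
      set u := f ^ 2 * s * (f ^ 2)⁻¹ with hu
      have huQ : u ∈ Q := hfQ 2
      have hf2 : orderOf (f ^ 2) = 5 := by
        rw [orderOf_pow' f (by norm_num), hf]; norm_num
      have hf5 : f ^ 5 = 1 := by rw [← hf, pow_orderOf_eq_one]
      have h14 : ¬ Commute s (f ^ 4 * s * (f ^ 4)⁻¹) := fun hx => h1 (by
        have := commute_conj_iff (g := f).2 hx
        have e5 : f * (f ^ 4 * s * (f ^ 4)⁻¹) * f⁻¹ = s := by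
          calc f * (f ^ 4 * s * (f ^ 4)⁻¹) * f⁻¹ = f ^ 5 * s * (f ^ 5)⁻¹ := by rw [pow_succ' f 4]; group
            _ = s := by rw [hf5]; group
        rw [e5] at this
        exact this.symm)
      refine build (s * u) (mul_mem hsQ huQ) ?_ (f ^ 2) hf2 (pow_mem hfC 2) ?_ ?_
      · calc s * u * (s * u) = s * (u * s) * u := by group
          _ = (s * s) * (u * u) := by rw [← h2.eq]; group
          _ = 1 := by
            rw [hss, one_mul, hu]
            calc f ^ 2 * s * (f ^ 2)⁻¹ * (f ^ 2 * s * (f ^ 2)⁻¹) = f ^ 2 * (s * s) * (f ^ 2)⁻¹ := by group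
              _ = 1 := by rw [hss]; group
      · set v := f ^ 4 * s * (f ^ 4)⁻¹ with hv
        have hvQ : v ∈ Q := hfQ 4
        have e : f ^ 2 * (s * u) * (f ^ 2)⁻¹ = u * v := by
          rw [hu, hv, show (4 : ℕ) = 2 + 2 from rfl, pow_add]; group
        have huv : Commute u v := by
          have := commute_conj_iff (g := f ^ 2).2 h2
          rw [hu, conj_conj', ← pow_add] at this
          rw [hu, hv]
          exact this
        rw [e]
        intro hc
        have a1 := (comm_xor h (mul_mem hsQ huQ) huQ hvQ).1 hc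
        have b1 : Commute (s * u) u := h2.mul_left (Commute.refl u)
        have b3 := (comm_xor h hvQ hsQ huQ).1 (a1.1 b1).symm
        exact h14 (b3.2 huv.symm).symm
      · set v := f ^ 4 * s * (f ^ 4)⁻¹ with hv
        set w := f ^ 6 * s * (f ^ 6)⁻¹ with hw
        have hvQ : v ∈ Q := hfQ 4
        have hwQ : w ∈ Q := hfQ 6
        have e6 : f ^ 6 = f := by rw [pow_succ' f 5, hf5, mul_one]
        have e : (f ^ 2) ^ 2 * (s * u) * ((f ^ 2) ^ 2)⁻¹ = v * w := by
          rw [hu, hv, hw, ← pow_mul, show (6 : ℕ) = 4 + 2 from rfl, pow_add]; group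
        have huv : Commute u v := by
          have := commute_conj_iff (g := f ^ 2).2 h2
          rw [hu, conj_conj', ← pow_add] at this
          rw [hu, hv]
          exact this
        have hsw : ¬ Commute s w := by rw [hw, e6]; exact h1
        have huw : ¬ Commute u w := by
          rw [hw, e6, hu]
          intro hx
          apply h1
          refine (commute_conj_iff (g := f).1 ?_).symm
          rw [conj_conj', ← pow_two]
          exact hx
        rw [e]
        intro hc
        have a1 := (comm_xor h (mul_mem hsQ huQ) hvQ hwQ).1 hc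
        have hw' : Commute (s * u) w :=
          ((comm_xor h hwQ hsQ huQ).2 ⟨fun hx => absurd hx.symm hsw, fun hx => absurd hx.symm huw⟩).symm
        have hv' := (comm_xor h hvQ hsQ huQ).1 (a1.2 hw').symm
        exact h14 (hv'.2 huv.symm).symm
    · exact build s hsQ hss f hf hfC h1 h2

end Cfsg.Agent.J2Type
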