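import Cfsg.Agent.J2Type.SecondNorm
import Cfsg.Agent.BSWall.Small
import Mathlib.GroupTheory.PGroup

/-!
The centraliser of an element of order 5 in the complement of the second class is `5 × A₅`.
-/

set_option autoImplicit false

namespace Cfsg.Agent.J2Type

open Cfsg Cfsg.Agent.LargeExtra

/-- a permutation of five points -/
def zp5 : Equiv.Perm (Fin 5) := ⟨![1, 0, 3, 2, 4], ![1, 0, 3, 2, 4], by decide, by decide⟩

/-- a permutation of five points -/
def sp5 : Equiv.Perm (Fin 5) := ⟨![2, 3, 0, 1, 4], ![2, 3, 0, 1, 4], by decide, by decide⟩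

/-- a permutation of five points -/
def fp5 : Equiv.Perm (Fin 5) := ⟨![1, 2, 4, 0, 3], ![3, 0, 1, 4, 2], by decide, by decide⟩

/-- a permutation of five points -/
def rp5 : Equiv.Perm (Fin 5) := ⟨![1, 2, 0, 3, 4], ![2, 0, 1, 3, 4], by decide, by decide⟩

/-- a permutation of five points -/
def yp5 : Equiv.Perm (Fin 5) := ⟨![1, 0, 2, 4, 3], ![1, 0, 2, 4, 3], by decide, by decide⟩

set_option synthInstance.maxSize 4000 in
set_option synthInstance.maxHeartbeats 400000 in
theorem four_standard : ∀ a : Equiv.Perm (Fin 5), a * a = 1 → a ≠ 1 → Equiv.Perm.sign a = 1 →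
    ∀ b : Equiv.Perm (Fin 5), b * b = 1 → b ≠ 1 → Equiv.Perm.sign b = 1 → a * b = b * a → a ≠ b →
    ∃ σ : Equiv.Perm (Fin 5), σ * a = zp5 * σ ∧ σ * b = sp5 * σ := by
  decide +kernel

theorem five_centralizer : ∀ g : Equiv.Perm (Fin 5), Equiv.Perm.sign g = 1 → g * fp5 = fp5 * g →
    ∃ j : Fin 5, g = fp5 ^ (j : ℕ) := by
  decide +kernel

theorem four_stab_centralizer : ∀ π : Equiv.Perm (Fin 5), π 4 = 4 → π * zp5 = zp5 * π →
    π * rp5 = rp5 * π → π = 1 := by
  decide +kernel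

variable {G : Type*} [Group G] [Finite G]

/-- The common centraliser of two elements. -/
abbrev CL {G : Type*} [Group G] (f z : G) : Subgroup G :=
  Subgroup.centralizer ({f} : Set G) ⊓ Subgroup.centralizer ({z} : Set G)

namespace Cfg

variable {z : G} {Q : Subgroup G} {p : Fin 5 → G} {x : G} (c : Cfg z Q p x) {K W : Subgroup G}

theorem exists_std (hK : Comp c K) : ∃ k, p k ∈ K ∧ ∃ F : K →* Equiv.Perm (Fin 5),
    Function.Injective F ∧ F.range = alternatingGroup (Fin 5) ∧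
    (∀ hz : z ∈ K, F ⟨z, hz⟩ = zp5) ∧ ∀ hp : p k ∈ K, F ⟨p k, hp⟩ = sp5 := by
  obtain ⟨f, -, hinj, hrange, -⟩ :=
    c.exists_act hK le_rfl fun a ha _ hk => mul_mem (mul_mem ha hk) (inv_mem ha)
  set F : K →* Equiv.Perm (Fin 5) := f.comp (Subgroup.inclusion (le_refl K))
  obtain ⟨k, hk, -, -⟩ := c.exists_four
  have hpK : p k ∈ K := c.V_le hK ⟨hk, c.d.mem k⟩
  refine ⟨k, hpK, ?_⟩
  let a : K := ⟨z, c.V_le hK c.z_mem_V⟩
  let b : K := ⟨p k, hpK⟩
  have hsign : ∀ g : K, Equiv.Perm.sign (F g) = 1 := fun g =>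
    Equiv.Perm.mem_alternatingGroup.1 (hrange ▸ ⟨g, rfl⟩)
  have ha : a * a = 1 := Subtype.ext c.d.hyp.ci.sq
  have hb : b * b = 1 := Subtype.ext (c.d.sq k)
  have ha1 : F a ≠ 1 := fun h => c.d.hyp.ci.ne_one (congrArg Subtype.val (hinj (h.trans (map_one F).symm)) :)
  have hb1 : F b ≠ 1 := fun h => c.d.ne_one k (congrArg Subtype.val (hinj (h.trans (map_one F).symm)) :)
  have hab : F a ≠ F b := fun h => c.d.ne_z k (congrArg Subtype.val (hinj h) :).symm
  obtain ⟨σ, h1, h2⟩ := four_standard (F a) (by rw [← map_mul, ha, map_one]) ha1 (hsign a) (F b)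
      (by rw [← map_mul, hb, map_one]) hb1 (hsign b)
      (by rw [← map_mul, ← map_mul]; exact congrArg F (Subtype.ext (c.E_comm c.z_mem_E hk))) hab
  refine ⟨(MulAut.conj σ).toMonoidHom.comp F, (MulAut.conj σ).injective.comp hinj, ?_, ?_, ?_⟩
  · rw [MonoidHom.range_comp, hrange]
    ext g
    rw [Subgroup.mem_map_equiv]
    simp [Equiv.Perm.mem_alternatingGroup, mul_comm (Equiv.Perm.sign σ * Equiv.Perm.sign g), ← mul_assoc, Int.units_mul_self]
  · intro _
    show σ * F a * σ⁻¹ = zp5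
    rw [h1, mul_inv_cancel_right]
  · intro _
    show σ * F b * σ⁻¹ = sp5
    rw [h2, mul_inv_cancel_right]

theorem exists_D (hK : Comp c K) (hW : Four c K W) :
    ∃ D : Subgroup G, D ≤ Subgroup.normalizer (W : Set G) ∧ Nat.card D = 12 ∧ W ≤ D ∧
      (∀ a ∈ D, ∀ b ∈ K, a * b = b * a) ∧ (∀ g ∈ D, g ∈ K → g = 1) ∧
      ∀ g ∈ Subgroup.normalizer (W : Set G), ∃ a ∈ D, ∃ b ∈ K, g = a * b := by
  set N := Subgroup.normalizer (W : Set G) with hN
  have hKN : K ≤ N := hK.le.trans (c.H_le_normalizer hW)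
  have hnK := c.normalizer_K hK hW
  obtain ⟨f, hker, hinj, hrange, -⟩ := c.exists_act hK hKN hnK
  let D : Subgroup G := f.ker.map N.subtype
  have hDN : D ≤ N := Subgroup.map_subtype_le _
  have hnD : ∀ g ∈ N, ∀ d ∈ D, g * d * g⁻¹ ∈ D := by
    rintro g hg _ ⟨d, hd, rfl⟩
    exact ⟨⟨g, hg⟩ * d * ⟨g, hg⟩⁻¹, (MonoidHom.normal_ker f).conj_mem d hd _, rfl⟩
  have hdisj : ∀ g ∈ D, g ∈ K → g = 1 := by
    rintro _ ⟨w, hw, rfl⟩ hwK
    have e : (⟨(w : G), hwK⟩ : K) = 1 := hinj (by rw [map_one]; exact hw)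
    exact congrArg Subtype.val e
  have hcomm := commute_of_disjoint (fun b hb => hnD b (hKN hb)) (fun a ha => hnK a (hDN ha)) hdisj
  have hWD : W ≤ D := by
    haveI : (W.subgroupOf N).Normal :=
      ⟨fun w hw a => (Subgroup.mem_normalizer_iff.1 a.2 (w : G)).1 hw⟩
    have hle : W.subgroupOf N ≤ f.ker := by
      rw [hker]
      refine Subgroup.normal_le_normalCore.2 fun w hw => ⟨w.2, mem_normalizer_of_conj fun v hv => ?_⟩
      show (w : G) * v * (w : G)⁻¹ ∈ c.V
      rw [hW.comm (w : G) hw v (c.V_le hK hv), mul_inv_cancel_right]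
      exact hv
    exact fun w hw => ⟨⟨w, Subgroup.le_normalizer hw⟩, hle hw, rfl⟩
  have hD12 : Nat.card D = 12 := by
    have h1 := Subgroup.card_mul_index f.ker
    rw [Subgroup.index_ker, c.card_normalizer hK hW,
      show Nat.card f.ker = Nat.card D from (Subgroup.card_map_of_injective N.subtype_injective).symm] at h1
    have h2 : alternatingGroup (Fin 5) ≤ f.range := by
      rw [← hrange]; rintro _ ⟨k, rfl⟩; exact ⟨_, rfl⟩
    have h3 : 60 ∣ Nat.card f.range := by
      have := Subgroup.card_dvd_of_le h2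
      rwa [show Nat.card (alternatingGroup (Fin 5)) = 60 by
        rw [nat_card_alternatingGroup, Nat.card_fin]; rfl] at this
    have h4 : Nat.card f.range ∣ 120 := by
      have := Subgroup.card_subgroup_dvd_card f.range
      rwa [Nat.card_perm, Nat.card_fin] at this
    have h5 : 4 ∣ Nat.card D := hW.card ▸ Subgroup.card_dvd_of_le hWD
    obtain ⟨m, hm⟩ := h3
    have hle : Nat.card f.range ≤ 120 := Nat.le_of_dvd (by norm_num) h4
    have : m ≤ 2 := by omega
    rcases m with _ | _ | _ | m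
    · rw [hm, mul_zero, mul_zero] at h1; omega
    · rw [hm] at h1; omega
    · rw [hm] at h1; omega
    · omega
  obtain ⟨-, hdec⟩ := prod_equiv hDN hKN hcomm hdisj (by rw [c.card_normalizer hK hW, hD12, hK.card])
  exact ⟨D, hDN, hD12, hWD, hcomm, hdisj, hdec⟩

theorem two_element_mem (hW : Four c K W) {D : Subgroup G}
    (hDN : D ≤ Subgroup.normalizer (W : Set G)) (hWD : W ≤ D) (hD : Nat.card D = 12)
    {d : G} (hd : d ∈ D) {n : ℕ} (h : d ^ 2 ^ n = 1) : d ∈ W := by
  haveI : (W.subgroupOf D).Normal :=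
    ⟨fun w hw a => (Subgroup.mem_normalizer_iff.1 (hDN a.2) (w : G)).1 hw⟩
  have hidx : (W.subgroupOf D).index = 3 := by
    have := Subgroup.card_mul_index (W.subgroupOf D)
    rw [Nat.card_congr (Subgroup.subgroupOfEquivOfLe hWD).toEquiv, hW.card, hD] at this
    omega
  have h1 : orderOf (QuotientGroup.mk' (W.subgroupOf D) ⟨d, hd⟩) ∣ 2 ^ n :=
    orderOf_dvd_of_pow_eq_one (by rw [← map_pow, show (⟨d, hd⟩ : D) ^ 2 ^ n = 1 from Subtype.ext h, map_one])
  have h2 : orderOf (QuotientGroup.mk' (W.subgroupOf D) ⟨d, hd⟩) ∣ 3 := hidx ▸ by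
    rw [Subgroup.index_eq_card]; exact orderOf_dvd_natCard _
  have h3 := Nat.dvd_gcd h1 h2
  rw [Nat.Coprime.gcd_eq_one ((by norm_num : Nat.Coprime 2 3).pow_left n), Nat.dvd_one,
    orderOf_eq_one_iff] at h3
  have h4 : (⟨d, hd⟩ : D) ∈ W.subgroupOf D := by
    rw [← QuotientGroup.ker_mk' (W.subgroupOf D)]; exact h3
  exact h4

/-- The hypotheses on the element of order five. -/
structure Five (K : Subgroup G) (f : G) : Prop where
  mem : f ∈ K
  order : orderOf f = 5
  inverts : z * f * z = f⁻¹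
  cent : ∀ g ∈ K, g * f = f * g → g ∈ Subgroup.zpowers f

variable {f : G}

theorem Five.pow_eq_one {f : G} (hf : Five (z := z) K f) {b : G} (hb : b ∈ Subgroup.zpowers f) :
    b ^ 5 = 1 := by
  obtain ⟨n, rfl⟩ := hb
  rw [← zpow_natCast, ← zpow_mul, mul_comm, zpow_mul, zpow_natCast, ← hf.order, pow_orderOf_eq_one, one_zpow]

theorem sylow_five_cent (hK : Comp c K) (hW : Four c K W) (hf : Five (z := z) K f) {D : Subgroup G}
    (hDN : D ≤ Subgroup.normalizer (W : Set G)) (hWD : W ≤ D) (hD : Nat.card D = 12)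
    (hcomm : ∀ a ∈ D, ∀ b ∈ K, a * b = b * a)
    (hdisj : ∀ g ∈ D, g ∈ K → g = 1)
    (hdec : ∀ g ∈ Subgroup.normalizer (W : Set G), ∃ a ∈ D, ∃ b ∈ K, g = a * b)
    {v : G} (hv : v * v = 1) (hv1 : v ≠ 1) (hvf : v * f = f * v) :
    ∃ g, g * f = f * g ∧ g * x * g⁻¹ = v := by
  haveI : Fact (Nat.Prime 2) := ⟨Nat.prime_two⟩
  set C := Subgroup.centralizer ({f} : Set G) with hC
  have hmemC : ∀ {g : G}, g ∈ C ↔ g * f = f * g := fun {g} => Subgroup.mem_centralizer_singleton_iff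
  have hWC : W ≤ C := fun w hw => hmemC.2 (hcomm w (hWD hw) f hf.mem)
  have hp : IsPGroup 2 W := IsPGroup.of_card (n := 2) (by rw [hW.card]; norm_num)
  have hpC : IsPGroup 2 (W.subgroupOf C) := hp.of_equiv (Subgroup.subgroupOfEquivOfLe hWC).symm
  obtain ⟨S, hS⟩ := hpC.exists_le_sylow
  have hSW : (S : Subgroup C) = W.subgroupOf C := by
    refine le_antisymm ?_ hS
    by_contra hne
    have hlt : (W.subgroupOf C).subgroupOf (S : Subgroup C) < ⊤ := by
      refine lt_top_iff_ne_top.2 fun e => hne ?_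
      rwa [Subgroup.subgroupOf_eq_top] at e
    have := S.isPGroup'.isNilpotent
    have hnc : NormalizerCondition (S : Subgroup C) := Group.normalizerCondition_of_isNilpotent
    obtain ⟨g, hgN, hgW⟩ := SetLike.exists_of_lt (hnc _ hlt)
    have hgW' : ((g : C) : G) ∈ Subgroup.normalizer (W : Set G) := mem_normalizer_of_conj fun v hv =>
      (Subgroup.mem_normalizer_iff.1 hgN ⟨⟨v, hWC hv⟩, hS hv⟩).1 hv
    obtain ⟨a, ha, b, hb, e⟩ := hdec _ hgW'
    have hbf : b * f = f * b := by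
      have h1 := hmemC.1 (g : C).2
      rw [e, mul_assoc, ← mul_assoc f, ← hcomm a ha f hf.mem, mul_assoc] at h1
      exact mul_left_cancel h1
    have hb5 := hf.pow_eq_one (hf.cent b hb hbf)
    obtain ⟨n, hn⟩ := S.isPGroup' g
    have hn' : (a * b) ^ 2 ^ n = 1 := by
      rw [← e]
      exact congrArg (fun t : (S : Subgroup C) => ((t : C) : G)) hn
    rw [(show Commute a b from hcomm a ha b hb).mul_pow] at hn'
    have hb2 : b ^ 2 ^ n = 1 := hdisj _ (by
      rw [show b ^ 2 ^ n = (a ^ 2 ^ n)⁻¹ from eq_inv_of_mul_eq_one_right hn']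
      exact inv_mem (pow_mem ha _)) (pow_mem hb _)
    have hb1 : b = 1 := by
      rw [← orderOf_eq_one_iff]
      exact Nat.eq_one_of_dvd_coprimes ((by norm_num : Nat.Coprime 2 5).pow_left n)
        (orderOf_dvd_of_pow_eq_one hb2) (orderOf_dvd_of_pow_eq_one hb5)
    rw [hb2, mul_one] at hn'
    refine hgW ?_
    show ((g : C) : G) ∈ W
    rw [e, hb1, mul_one]
    exact c.two_element_mem hW hDN hWD hD ha hn'
  -- into `W`
  have hup : IsPGroup 2 (Subgroup.zpowers (⟨v, hmemC.2 hvf⟩ : C)) :=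
    IsPGroup.of_card (n := 1) (by
      rw [Nat.card_zpowers, ← orderOf_injective C.subtype C.subtype_injective]
      exact orderOf_two hv hv1)
  obtain ⟨S₂, hS₂⟩ := hup.exists_le_sylow
  obtain ⟨g, hg⟩ := MulAction.exists_smul_eq C S₂ S
  have hgv : (g : G) * v * (g : G)⁻¹ ∈ W := by
    have h1 : g * ⟨v, hmemC.2 hvf⟩ * g⁻¹ ∈ (S : Subgroup C) := by
      rw [← hg, Sylow.coe_subgroup_smul, Subgroup.mem_pointwise_smul_iff_inv_smul_mem]
      simpa [MulAut.smul_def, MulAut.conj_apply, mul_assoc] using hS₂ (Subgroup.mem_zpowers _)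
    rw [hSW] at h1
    exact h1
  have hne : (g : G) * v * (g : G)⁻¹ ≠ 1 := fun e => hv1 (conj_eq_one_iff.1 e)
  obtain ⟨k, hk⟩ := isConj_iff.1 (c.centralizer_of_mem_W hK hW hgv hne).1
  obtain ⟨a, ha, b, hb, e⟩ := hdec k (c.four_normalizer hK hW (hk ▸ hgv))
  have hk' : a * x * a⁻¹ = (g : G) * v * (g : G)⁻¹ := by
    rw [← hk, e]
    have hbx : b * x = x * b := Subgroup.mem_centralizer_singleton_iff.1 (hK.le hb)
    calc a * x * a⁻¹ = a * (x * b) * b⁻¹ * a⁻¹ := by group
      _ = a * (b * x) * b⁻¹ * a⁻¹ := by rw [hbx]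
      _ = a * b * x * (a * b)⁻¹ := by group
  refine ⟨(g : G)⁻¹ * a, hmemC.1 (mul_mem (inv_mem g.2) (hmemC.2 (hcomm a ha f hf.mem))), ?_⟩
  calc (g : G)⁻¹ * a * x * ((g : G)⁻¹ * a)⁻¹ = (g : G)⁻¹ * (a * x * a⁻¹) * g := by group
    _ = v := by rw [hk']; group

theorem mem_zpowers_two {A : Type*} [Group A] {t u : A} (ht : t * t = 1) (hu : u ∈ Subgroup.zpowers t) :
    u = 1 ∨ u = t := by
  obtain ⟨i, rfl⟩ := hu
  rcases Int.even_or_odd' i with ⟨m, rfl | rfl⟩
  · left
    show t ^ (2 * m) = 1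
    rw [zpow_mul, zpow_two, ht, one_zpow]
  · right
    show t ^ (2 * m + 1) = t
    rw [zpow_add_one, zpow_mul, zpow_two, ht, one_zpow, one_mul]

theorem four_elements (hW : Four c K W) (hxW : x ∈ W) {w : G} (hw : w ∈ W) (hw1 : w ≠ 1) (hwx : w ≠ x)
    {a : G} (ha : a ∈ W) : a = 1 ∨ a = x ∨ a = w ∨ a = x * w := by
  classical
  have h1 : x * w ≠ 1 := fun e => hwx ((eq_inv_of_mul_eq_one_right e).trans
    (inv_eq_of_mul_eq_one_right c.outer.1))
  have h2 : x * w ≠ x := fun e => hw1 (mul_eq_left.1 e)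
  have h3 : x * w ≠ w := fun e => c.x_ne_one (mul_eq_right.1 e)
  have hcard : ({1, x, w, x * w} : Finset G).card = 4 := by
    simp [c.x_ne_one.symm, hw1.symm, h1.symm, Ne.symm hwx, h2.symm, h3.symm]
  haveI : Fintype (W : Set G) := Fintype.ofFinite _
  have hfin : (W : Set G).toFinset = ({1, x, w, x * w} : Finset G) := by
    symm
    refine Finset.eq_of_subset_of_card_le ?_ ?_
    · intro u hu
      simp only [Finset.mem_insert, Finset.mem_singleton] at hu
      rw [Set.mem_toFinset]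
      rcases hu with rfl | rfl | rfl | rfl
      exacts [one_mem W, hxW, hw, mul_mem hxW hw]
    · rw [hcard, ← hW.card, Set.toFinset_card, Nat.card_eq_fintype_card]
      exact le_of_eq (by simp)
  have := (Set.mem_toFinset (s := (W : Set G))).2 ha
  rw [hfin] at this
  simpa using this

theorem twentyfive_dvd (hK : Comp c K) (hf : Five (z := z) K f) :
    25 ∣ Nat.card (Subgroup.centralizer ({f} : Set G)) := by
  haveI : Fact (Nat.Prime 5) := ⟨by norm_num⟩
  obtain ⟨P, hP, hfP⟩ := Sylow.exists_subgroup_card_pow_prime_le 5 (G := G) (n := 1) (m := 2)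
    (by rw [c.card_G]; norm_num) (Subgroup.zpowers f) (by rw [Nat.card_zpowers, hf.order, pow_one])
    (by norm_num)
  have hle : P ≤ Subgroup.centralizer ({f} : Set G) := fun g hg => Subgroup.mem_centralizer_singleton_iff.2
    (congrArg (fun t : P => (t : G))
      (IsPGroup.commutative_of_card_eq_prime_sq hP ⟨g, hg⟩ ⟨f, hfP (Subgroup.mem_zpowers f)⟩))
  have h := Subgroup.card_dvd_of_le hle
  rwa [hP] at h

theorem exists_L (hK : Comp c K) (hW : Four c K W) (hf : Five (z := z) K f) :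
    ∃ D : Subgroup G, Nat.card D = 12 ∧ (∀ a ∈ D, ∀ b ∈ K, a * b = b * a) ∧
      ∃ σ : (CL f z) →*
          Equiv.Perm (Fin 5),
        Function.Injective σ ∧ σ.range = alternatingGroup (Fin 5) ∧
        D ≤ CL f z ∧
        (∀ g, σ g 4 = 4 ↔ (g : G) ∈ D) ∧
        ∀ v : (CL f z),
          v * v = 1 → v ≠ 1 → IsConj x (v : G) := by
  obtain ⟨D, hDN, hD, hWD, hcomm, hdisj, hdec⟩ := c.exists_D hK hW
  have hxW := c.x_mem_W hK hW
  have hzK : z ∈ K := c.V_le hK c.z_mem_V
  set C := Subgroup.centralizer ({f} : Set G) with hC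
  have hmemC : ∀ {g : G}, g ∈ C ↔ g * f = f * g := fun {g} => Subgroup.mem_centralizer_singleton_iff
  have hDC : D ≤ C := fun d hd => hmemC.2 (hcomm d hd f hf.mem)
  have hDz : D ≤ Subgroup.centralizer ({z} : Set G) := fun d hd =>
    Subgroup.mem_centralizer_singleton_iff.2 (hcomm d hd z hzK)
  let F : Subgroup C := (Subgroup.zpowers f).subgroupOf C
  have hFK : ∀ {b : C}, b ∈ F → (b : G) ∈ K := fun {b} hb => Subgroup.zpowers_le.2 hf.mem hb
  haveI : F.Normal := ⟨fun b hb g => by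
    obtain ⟨i, hi⟩ := hb
    refine ⟨i, ?_⟩
    show f ^ i = (g : G) * (b : G) * (g : G)⁻¹
    rw [show (b : G) = f ^ i from hi.symm,
      ((show Commute (g : G) f from hmemC.1 g.2).zpow_right i).eq, mul_inv_cancel_right]⟩
  let q : C →* C ⧸ F := QuotientGroup.mk' F
  have hq : ∀ g : C, q g = 1 ↔ (g : G) ∈ Subgroup.zpowers f := fun g =>
    (QuotientGroup.eq_one_iff g)
  have hcentx : ∀ g : C, q g * q ⟨x, hDC (hWD hxW)⟩ = q ⟨x, hDC (hWD hxW)⟩ * q g →
      ∃ a : C, (a : G) ∈ W ∧ q g = q a := by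
    intro g hg
    have h1 : q (g * ⟨x, hDC (hWD hxW)⟩ * g⁻¹ * ⟨x, hDC (hWD hxW)⟩⁻¹) = 1 := by
      rw [map_mul, map_mul, map_mul, map_inv, map_inv, hg]; group
    rw [hq] at h1
    set b := (g : G) * x * (g : G)⁻¹ * x⁻¹ with hb
    change b ∈ Subgroup.zpowers f at h1
    have hbx : b * x = x * b := Subgroup.mem_centralizer_singleton_iff.1
      (hK.le (Subgroup.zpowers_le.2 hf.mem h1))
    have hgx : (g : G) * x * (g : G)⁻¹ = b * x := by rw [hb]; group
    have hb2 : b * b = 1 := by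
      calc b * b = b * (x * x) * b := by rw [c.outer.1, mul_one]
        _ = (b * x) * (x * b) := by group
        _ = (b * x) * (b * x) := by rw [hbx]
        _ = (g : G) * (x * x) * (g : G)⁻¹ := by rw [← hgx]; group
        _ = 1 := by rw [c.outer.1]; group
    have hb1 : b = 1 := by
      rw [← orderOf_eq_one_iff]
      exact Nat.eq_one_of_dvd_coprimes (by norm_num : Nat.Coprime 2 5)
        (orderOf_dvd_of_pow_eq_one (by rw [pow_two, hb2])) (orderOf_dvd_of_pow_eq_one (hf.pow_eq_one h1))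
    rw [hb1, one_mul] at hgx
    obtain ⟨a, ha, k, hk, e⟩ := (c.split hK hW).2 (g : G)
      (Subgroup.mem_centralizer_singleton_iff.2 (mul_inv_eq_iff_eq_mul.1 hgx))
    have hkf : k * f = f * k := by
      have h2 := hmemC.1 g.2
      rw [e, mul_assoc, ← mul_assoc f, ← hW.comm a ha f hf.mem, mul_assoc] at h2
      exact mul_left_cancel h2
    refine ⟨⟨a, hDC (hWD ha)⟩, ha, ?_⟩
    rw [← inv_mul_eq_one, ← map_inv, ← map_mul, hq]
    show (g : G)⁻¹ * a ∈ Subgroup.zpowers f
    rw [e, mul_inv_rev, mul_assoc, inv_mul_cancel, mul_one]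
    exact inv_mem (hf.cent k hk hkf)
  obtain ⟨w, hw, hw1, hwx⟩ : ∃ w ∈ W, w ≠ 1 ∧ w ≠ x := by
    by_contra hcon
    push Not at hcon
    classical
    have hle : Nat.card W ≤ ({1, x} : Finset G).card := by
      rw [← Nat.card_eq_finsetCard]
      refine Nat.card_le_card_of_injective (fun u => ⟨u.1, ?_⟩)
        fun a b h => Subtype.ext (congrArg Subtype.val h :)
      simp only [Finset.mem_insert, Finset.mem_singleton]
      exact or_iff_not_imp_left.2 (hcon u.1 u.2)
    rw [hW.card] at hle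
    exact absurd hle (by have := (Finset.card_le_two (a := (1 : G)) (b := x)); omega)
  let x' : C := ⟨x, hDC (hWD hxW)⟩
  let w' : C := ⟨w, hDC (hWD hw)⟩
  have hWone : ∀ a : C, (a : G) ∈ W → q a = 1 → (a : G) = 1 := fun a ha h =>
    hW.disj _ ha (Subgroup.zpowers_le.2 hf.mem ((hq a).1 h))
  have hWsq : ∀ a : C, (a : G) ∈ W → q a * q a = 1 := fun a ha => by
    rw [← map_mul, show a * a = 1 from Subtype.ext (c.E_sq (hW.le ha)), map_one]
  have hx1 : q x' ≠ 1 := fun h => c.x_ne_one (hWone x' hxW h)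
  have hw1' : q w' ≠ 1 := fun h => hw1 (hWone w' hw h)
  have hts : q w' * q x' = q x' * q w' := by
    rw [← map_mul, ← map_mul]
    exact congrArg q (Subtype.ext (c.E_comm (hW.le hw) (hW.le hxW)))
  have hWH : ∀ a : C, (a : G) ∈ W → q a = 1 ∨ q a = q x' ∨ q a = q w' ∨ q a = q x' * q w' := by
    intro a ha
    rcases c.four_elements hW hxW hw hw1 hwx ha with e | e | e | e
    · exact Or.inl (by rw [show a = 1 from Subtype.ext e, map_one])
    · exact Or.inr (Or.inl (by rw [show a = x' from Subtype.ext e]))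
    · exact Or.inr (Or.inr (Or.inl (by rw [show a = w' from Subtype.ext e])))
    · exact Or.inr (Or.inr (Or.inr (by rw [show a = x' * w' from Subtype.ext e, map_mul])))
  have hconj : ∀ v : C ⧸ F, orderOf v = 2 → IsConj (q x') v := by
    intro v hv
    obtain ⟨y, rfl⟩ := QuotientGroup.mk'_surjective F v
    have hv2 : q y * q y = 1 := sq_of_orderOf hv
    have hyF : ((y * y : C) : G) ∈ Subgroup.zpowers f := (hq _).1 (by rw [map_mul, hv2])
    have hy5 : q (y ^ 5) = q y := by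
      rw [map_pow, show (5 : ℕ) = 2 + 2 + 1 from rfl, pow_succ, pow_add, pow_two, hv2, one_mul, one_mul]
    have hsq : ((y ^ 5 : C) : G) * ((y ^ 5 : C) : G) = 1 := by
      rw [← Subgroup.coe_mul, ← pow_two, ← pow_mul, mul_comm 5 2, pow_mul, Subgroup.coe_pow, pow_two]
      exact hf.pow_eq_one hyF
    have hne : ((y ^ 5 : C) : G) ≠ 1 := fun e => by
      rw [← hy5, show y ^ 5 = 1 from Subtype.ext e, map_one, orderOf_one] at hv
      norm_num at hv
    obtain ⟨g, hg, hgx⟩ := c.sylow_five_cent hK hW hf hDN hWD hD hcomm hdisj hdec hsq hne (hmemC.1 (y ^ 5).2)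
    refine isConj_iff.2 ⟨q ⟨g, hmemC.2 hg⟩, ?_⟩
    rw [← map_inv, ← map_mul, ← map_mul, show q y = q (y ^ 5) from hy5.symm]
    exact congrArg q (Subtype.ext hgx)
  have ht : q x' * q x' = 1 := hWsq x' hxW
  have hhyp : BSWall.Hyp (q x') (Subgroup.zpowers (q x')) (q w') := by
    refine ⟨orderOf_two ht hx1, ?_, ?_, Subgroup.mem_zpowers _, orderOf_two (hWsq w' hw) hw1',
      Subgroup.mem_centralizer_singleton_iff.2 hts, ?_, ?_, ?_, ?_, ?_, ?_⟩
    · intro a ha b hb
      rcases mem_zpowers_two ht ha with rfl | rfl <;> rcases mem_zpowers_two ht hb with rfl | rfl <;> simp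
    · exact Subgroup.zpowers_le.2 (Subgroup.mem_centralizer_singleton_iff.2 rfl)
    · intro h
      rcases mem_zpowers_two ht h with e | e
      · exact hw1' e
      · refine hwx ?_
        have h2 := hWone (w'⁻¹ * x') (mul_mem (inv_mem hw) hxW) (by rw [map_mul, map_inv, e, inv_mul_cancel])
        exact inv_mul_eq_one.1 h2
    · refine le_antisymm (sup_le (Subgroup.zpowers_le.2 (Subgroup.mem_centralizer_singleton_iff.2 rfl))
        (Subgroup.zpowers_le.2 (Subgroup.mem_centralizer_singleton_iff.2 hts))) ?_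
      intro v hv
      obtain ⟨g, rfl⟩ := QuotientGroup.mk'_surjective F v
      obtain ⟨a, ha, e⟩ := hcentx g (Subgroup.mem_centralizer_singleton_iff.1 hv)
      show q g ∈ _
      rw [e]
      have h1 := Subgroup.mem_sup_left (T := Subgroup.zpowers (q w')) (Subgroup.mem_zpowers (q x'))
      have h2 := Subgroup.mem_sup_right (S := Subgroup.zpowers (q x')) (Subgroup.mem_zpowers (q w'))
      rcases hWH a ha with e | e | e | e <;> rw [e]
      exacts [one_mem _, h1, h2, mul_mem h1 h2]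
    · refine le_antisymm inf_le_left (Subgroup.zpowers_le.2 ⟨Subgroup.mem_zpowers _, ?_⟩)
      exact Subgroup.mem_centralizer_singleton_iff.2 hts.symm
    · intro v hv
      rcases mem_zpowers_two ht hv with rfl | rfl
      · simp
      · rw [hts, mul_inv_cancel_right, inv_eq_of_mul_eq_one_right ht]
    · intro g hg
      refine (Subgroup.eq_bot_iff_forall _).2 ?_
      rintro u ⟨hu, v, hv, hvu⟩
      rcases mem_zpowers_two ht hu with e | e
      · exact e
      exfalso
      rcases mem_zpowers_two ht hv with rfl | rfl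
      · exact hx1 (by rw [← e, ← hvu, map_one])
      · refine hg (Subgroup.mem_centralizer_singleton_iff.2 (mul_inv_eq_iff_eq_mul.1 ?_))
        exact hvu.trans e
    · intro a b ha hb
      exact (hconj a ha).symm.trans (hconj b hb)
  have hkc : Nat.card (Subgroup.zpowers (q x')) = 2 := by rw [Nat.card_zpowers, orderOf_two ht hx1]
  have hcardF : Nat.card F = 5 := by
    rw [Nat.card_congr (Subgroup.subgroupOfEquivOfLe (Subgroup.zpowers_le.2 (hmemC.2 rfl))).toEquiv,
      Nat.card_zpowers, hf.order]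
  have hcardC : Nat.card C = Nat.card (C ⧸ F) * 5 := by
    rw [← hcardF]; exact Subgroup.card_eq_card_quotient_mul_card_subgroup F
  have hI : BSWall.nInv (C ⧸ F) = 15 ∧ Nat.card (C ⧸ F) = 60 := by
    have h25 := c.twentyfive_dvd hK hf
    rw [hcardC] at h25
    have hg := hhyp.card_G
    rw [hkc] at hg
    rcases hhyp.small hkc with ⟨h3, -, -⟩ | ⟨h15, -, -⟩
    · rw [hg, h3] at h25; norm_num at h25
    · exact ⟨h15, by rw [hg, h15]⟩
  -- the image of `D`
  let M : Subgroup (C ⧸ F) := (D.subgroupOf C).map q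
  have hMinj : Function.Injective (fun d : D.subgroupOf C => q d) := fun a b h => by
    refine Subtype.ext (Subtype.ext (inv_mul_eq_one.1 ?_))
    refine hdisj _ (mul_mem (inv_mem a.2) b.2) (hFK ((QuotientGroup.eq).1 h))
  have hM : Nat.card M = 12 := by
    rw [← hD, ← Nat.card_congr (Subgroup.subgroupOfEquivOfLe hDC).toEquiv]
    exact (Nat.card_congr (Equiv.ofBijective (fun d : D.subgroupOf C => (⟨q d, d, d.2, rfl⟩ : M))
      ⟨fun a b h => hMinj (congrArg Subtype.val h), fun ⟨_, d, hd, e⟩ => ⟨⟨d, hd⟩, Subtype.ext e⟩⟩)).symm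
  have hMi : M.index = 5 := by
    have := Subgroup.card_mul_index M
    rw [hM, hI.2] at this
    omega
  let e0 : ((C ⧸ F) ⧸ M) ≃ Fin 5 := Finite.equivFinOfCardEq (by rw [← Subgroup.index_eq_card, hMi])
  let e : ((C ⧸ F) ⧸ M) ≃ Fin 5 := e0.trans (Equiv.swap (e0 ((1 : C ⧸ F) : (C ⧸ F) ⧸ M)) 4)
  have he : e.symm 4 = ((1 : C ⧸ F) : (C ⧸ F) ⧸ M) := by
    rw [Equiv.symm_apply_eq]; simp [e]
  let ρ : (C ⧸ F) →* Equiv.Perm (Fin 5) :=
    e.permCongrHom.toMonoidHom.comp (MulAction.toPermHom (C ⧸ F) ((C ⧸ F) ⧸ M))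
  have hρ : ∀ h, ρ h 4 = 4 ↔ h ∈ M := fun h => by
    show e (h • e.symm 4) = 4 ↔ _
    rw [← Equiv.eq_symm_apply, he, MulAction.Quotient.smul_coe, smul_eq_mul, mul_one]
    constructor
    · intro hh
      have := QuotientGroup.eq.1 hh
      simpa using this
    · intro hh
      exact QuotientGroup.eq.2 (by simpa using hh)
  have hρinj : Function.Injective ρ := by
    rw [injective_iff_map_eq_one]
    intro n hn
    have hker : ∀ {m}, ρ m = 1 → m ∈ M := fun {m} hm => (hρ m).1 (by rw [hm]; rfl)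
    have hno : ∀ m, ρ m = 1 → m * m = 1 → m = 1 := fun m hm hm2 => by
      by_contra hm1
      have hle : BSWall.nInv (C ⧸ F) ≤ Nat.card M := by
        refine Nat.card_le_card_of_injective (fun u => (⟨u.1, hker ?_⟩ : M))
          fun a b h => Subtype.ext (congrArg Subtype.val h :)
        obtain ⟨g, hg⟩ := isConj_iff.1 ((hconj m (orderOf_two hm2 hm1)).symm.trans (hconj u.1 u.2))
        rw [← hg, map_mul, map_mul, hm, mul_one, ← map_mul, mul_inv_cancel, map_one]
      rw [hI.1, hM] at hle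
      norm_num at hle
    obtain ⟨d, hd, rfl⟩ := hker hn
    have hwW : (d : G) * x * (d : G)⁻¹ * x⁻¹ ∈ W :=
      mul_mem ((Subgroup.mem_normalizer_iff.1 (hDN hd) x).1 hxW) (inv_mem hxW)
    have hcm : q (d * x' * d⁻¹ * x'⁻¹) = 1 := hno _ (by
      rw [map_mul q, map_mul q, map_mul q, map_mul ρ, map_mul ρ, map_mul ρ, hn, one_mul, map_inv q,
        map_inv ρ, hn, inv_one, mul_one, map_inv q, map_inv ρ, mul_inv_cancel]) (hWsq _ hwW)
    rw [map_mul, map_mul, map_mul, map_inv, map_inv, mul_inv_eq_one, mul_inv_eq_iff_eq_mul] at hcm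
    obtain ⟨a, ha, e'⟩ := hcentx d hcm
    exact hno _ hn (by rw [e', hWsq a ha])
  have hρrange : ρ.range = alternatingGroup (Fin 5) :=
    (range_alternating ρ hρinj (by rw [hI.2]; rfl)).1
  -- conjugation by `z`
  have hzC : ∀ g : C, z * (g : G) * z ∈ C := fun g => by
    rw [hmemC]
    have hg := hmemC.1 g.2
    have h1 : f * z = z * f⁻¹ := by
      rw [← hf.inverts, ← mul_assoc, ← mul_assoc, c.d.hyp.ci.sq, one_mul]
    have h2 : (g : G) * f⁻¹ = f⁻¹ * g := (show Commute (g : G) f from hg).inv_right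
    have h3 : z * f = f⁻¹ * z := by
      rw [← hf.inverts, mul_assoc, c.d.hyp.ci.sq, mul_one]
    calc z * (g : G) * z * f = z * (g : G) * (f⁻¹ * z) := by rw [mul_assoc, h3]
      _ = z * (f⁻¹ * g) * z := by rw [← h2]; group
      _ = f * z * g * z := by rw [h1]; group
      _ = f * (z * g * z) := by group
  let cz : C →* C := MonoidHom.mk' (fun g => ⟨z * (g : G) * z, hzC g⟩) fun a b => Subtype.ext <| by
    show z * ((a : G) * b) * z = z * a * z * (z * b * z)
    calc z * ((a : G) * b) * z = z * a * (z * z) * b * z := by rw [c.d.hyp.ci.sq]; group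
      _ = _ := by group
  have hcz2 : ∀ g, cz (cz g) = g := fun g => Subtype.ext <| by
    show z * (z * (g : G) * z) * z = g
    calc z * (z * (g : G) * z) * z = (z * z) * g * (z * z) := by group
      _ = g := by rw [c.d.hyp.ci.sq, one_mul, mul_one]
  have hczF : ∀ b ∈ F, cz b = b⁻¹ := by
    rintro b ⟨i, hi'⟩
    have hi : f ^ i = (b : G) := hi'
    refine Subtype.ext ?_
    show z * (b : G) * z = (b : G)⁻¹
    have hf' : z * f * z⁻¹ = f⁻¹ := by rw [c.d.hyp.ci.inv_eq]; exact hf.inverts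
    rw [← hi, show z * f ^ i * z = z * f ^ i * z⁻¹ by rw [c.d.hyp.ci.inv_eq], ← conj_zpow, hf', inv_zpow]
  let θ : (C ⧸ F) →* (C ⧸ F) := QuotientGroup.lift F (q.comp cz) fun b hb => by
    show q (cz b) = 1
    rw [hczF b hb, map_inv, (hq b).2 hb, inv_one]
  have hθq : ∀ g, θ (q g) = q (cz g) := fun g => rfl
  have hθ2 : ∀ v, θ (θ v) = v := fun v => by
    obtain ⟨g, rfl⟩ := QuotientGroup.mk'_surjective F v
    show θ (θ (q g)) = q g
    rw [hθq, hθq, hcz2]
  have hθM : ∀ v ∈ M, θ v = v := by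
    rintro _ ⟨d, hd, rfl⟩
    show θ (q d) = q d
    rw [hθq]
    refine congrArg q (Subtype.ext ?_)
    show z * (d : G) * z = d
    rw [← hcomm (d : G) hd z hzK, mul_assoc, c.d.hyp.ci.sq, mul_one]
  have htrans : ∀ i : Fin 5, ∃ h, ρ h 4 = i := by
    intro i
    obtain ⟨v, hv, hvi⟩ := Fin5.transitive 4 i
    obtain ⟨h, rfl⟩ : v ∈ ρ.range := hρrange ▸ Equiv.Perm.mem_alternatingGroup.2 hv
    exact ⟨h, hvi⟩
  choose rep hrep using htrans
  have hπ : ∀ h i, ρ h 4 = i → ρ (θ h) 4 = ρ (θ (rep i)) 4 := by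
    intro h i hi
    have hm : (rep i)⁻¹ * h ∈ M := (hρ _).1 (by
      rw [map_mul, map_inv, Equiv.Perm.mul_apply, hi, Equiv.Perm.inv_eq_iff_eq]
      exact (hrep i).symm)
    have := (hρ _).2 hm
    calc ρ (θ h) 4 = ρ (θ (rep i) * θ ((rep i)⁻¹ * h)) 4 := by
          rw [← map_mul θ, mul_inv_cancel_left]
      _ = _ := by rw [hθM _ hm, map_mul, Equiv.Perm.mul_apply, this]
  have hπbij : Function.Bijective (fun i => ρ (θ (rep i)) 4) := Finite.surjective_iff_bijective.1 fun i =>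
    ⟨ρ (θ (rep i)) 4, by
      show ρ (θ (rep _)) 4 = i
      rw [← hπ (θ (rep i)) _ rfl, hθ2, hrep]⟩
  let π : Equiv.Perm (Fin 5) := Equiv.ofBijective _ hπbij
  have hπρ : ∀ h, π * ρ h = ρ (θ h) * π := fun h => Equiv.ext fun j => by
    show ρ (θ (rep (ρ h j))) 4 = ρ (θ h) (ρ (θ (rep j)) 4)
    rw [← hπ (h * rep j) _ (by rw [map_mul, Equiv.Perm.mul_apply, hrep]), map_mul, map_mul,
      Equiv.Perm.mul_apply]
  have hπ1 : π = 1 := by
    have hpre : ∀ g : Equiv.Perm (Fin 5), Equiv.Perm.sign g = 1 → g 4 = 4 → π * g = g * π := by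
      intro g hg hg4
      obtain ⟨h, rfl⟩ : g ∈ ρ.range := hρrange ▸ Equiv.Perm.mem_alternatingGroup.2 hg
      rw [hπρ, hθM h ((hρ h).1 hg4)]
    refine four_stab_centralizer π ?_ (hpre zp5 (by decide) rfl) (hpre rp5 (by decide) rfl)
    show ρ (θ (rep 4)) 4 = 4
    have h4 : rep 4 ∈ M := (hρ _).1 (hrep 4)
    rw [hθM _ h4]
    exact hrep 4
  have hθ : ∀ h, θ h = h := fun h => hρinj (by
    have := hπρ h
    rw [hπ1, one_mul, mul_one] at this
    exact this.symm)
  -- the fixed points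
  let L : Subgroup G := CL f z
  let ι : L →* C ⧸ F := q.comp (Subgroup.inclusion inf_le_left)
  have hιinj : Function.Injective ι := by
    rw [injective_iff_map_eq_one]
    intro g hg
    have hgF : Subgroup.inclusion inf_le_left g ∈ F := (QuotientGroup.eq_one_iff _).1 hg
    have h1 : z * (g : G) * z = g := by
      rw [← Subgroup.mem_centralizer_singleton_iff.1 g.2.2, mul_assoc, c.d.hyp.ci.sq, mul_one]
    have h2 : z * (g : G) * z = (g : G)⁻¹ := congrArg Subtype.val (hczF _ hgF)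
    have h3 : (g : G) * g = 1 := by
      nth_rewrite 1 [h1.symm.trans h2]; rw [inv_mul_cancel]
    refine Subtype.ext ((orderOf_eq_one_iff).1 ?_)
    exact Nat.eq_one_of_dvd_coprimes (by norm_num : Nat.Coprime 2 5)
      (orderOf_dvd_of_pow_eq_one (by rw [pow_two, h3]))
      (orderOf_dvd_of_pow_eq_one (hf.pow_eq_one hgF))
  have hιsurj : Function.Surjective ι := by
    intro v
    obtain ⟨g, rfl⟩ := QuotientGroup.mk'_surjective F v
    have h1 : g⁻¹ * cz g ∈ F := QuotientGroup.eq.1 (hθ (q g)).symm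
    set b := g⁻¹ * cz g with hb
    have hb5 : b ^ 5 = 1 := Subtype.ext (hf.pow_eq_one h1)
    have hfix : cz (g * b ^ 3) = g * b ^ 3 := by
      rw [map_mul, map_pow, hczF b h1, show cz g = g * b by rw [hb, mul_inv_cancel_left],
        mul_assoc, mul_right_inj, inv_pow]
      refine mul_inv_eq_iff_eq_mul.2 ?_
      rw [← pow_add, show (3 : ℕ) + 3 = 5 + 1 from rfl, pow_succ, hb5, one_mul]
    have hz : (g * b ^ 3 : C).1 * z = z * (g * b ^ 3 : C).1 := by
      have := congrArg (fun t : C => z * (t : G)) hfix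
      change z * (z * ((g * b ^ 3 : C) : G) * z) = z * ((g * b ^ 3 : C) : G) at this
      rwa [← mul_assoc, ← mul_assoc, c.d.hyp.ci.sq, one_mul] at this
    refine ⟨⟨(g * b ^ 3 : C), (g * b ^ 3 : C).2, Subgroup.mem_centralizer_singleton_iff.2 hz⟩, ?_⟩
    show q (g * b ^ 3) = q g
    rw [map_mul, map_pow, (hq b).2 h1, one_pow, mul_one]
  refine ⟨D, hD, hcomm, ρ.comp ι, hρinj.comp hιinj, ?_, le_inf hDC hDz, fun g => ?_, fun v hv hv1 => ?_⟩
  · rw [MonoidHom.range_comp, MonoidHom.range_eq_top.2 hιsurj, ← MonoidHom.range_eq_map, hρrange]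
  · show ρ (ι g) 4 = 4 ↔ _
    rw [hρ]
    constructor
    · rintro ⟨d, hd, e'⟩
      have : ι ⟨(d : G), hDC hd, hDz hd⟩ = ι g := e'
      rw [← hιinj this]
      exact hd
    · intro hg
      exact ⟨Subgroup.inclusion inf_le_left g, hg, rfl⟩
  · obtain ⟨g, hg, hgx⟩ := c.sylow_five_cent hK hW hf hDN hWD hD hcomm hdisj hdec
      (v := (v : G)) (congrArg (fun t : L => (t : G)) hv) (fun e => hv1 (Subtype.ext e)) (hmemC.1 v.2.1)
    exact isConj_iff.2 ⟨g, hgx⟩

end Cfg

end Cfsg.Agent.J2Type
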