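import Cfsg.Agent.J2Type.Order
import Cfsg.Agent.FusionCrit.CentricGen

/-!
The 2-fusion system of a group with an involution centraliser of Hall–Janko shape is simple.
-/

set_option autoImplicit false

namespace Cfsg.Agent.J2Type

open Cfsg Cfsg.Agent.LargeExtra

theorem alt_five_invol_prod : ∀ π : Equiv.Perm (Fin 5), Equiv.Perm.sign π = 1 →
    ∃ a : Equiv.Perm (Fin 5), a * a = 1 ∧ Equiv.Perm.sign a = 1 ∧ a * π * (a * π) = 1 := by
  decide +kernel

theorem alt_five_exponent : ∀ π : Equiv.Perm (Fin 5), Equiv.Perm.sign π = 1 → π ^ 5 = 1 ∨ π ^ 6 = 1 := by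
  decide +kernel

theorem sq_of_two_pow {π : Equiv.Perm (Fin 5)} (hs : Equiv.Perm.sign π = 1) {k : ℕ} (hk : π ^ 2 ^ k = 1) :
    π * π = 1 := by
  rcases alt_five_exponent π hs with h | h
  · have hd : orderOf π ∣ Nat.gcd (2 ^ k) 5 :=
      Nat.dvd_gcd (orderOf_dvd_of_pow_eq_one hk) (orderOf_dvd_of_pow_eq_one h)
    have hco : Nat.gcd (2 ^ k) 5 = 1 := Nat.Coprime.pow_left k (by norm_num)
    rw [hco, Nat.dvd_one, orderOf_eq_one_iff] at hd
    rw [hd, one_mul]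
  · have hd : orderOf π ∣ Nat.gcd (2 ^ k) 6 :=
      Nat.dvd_gcd (orderOf_dvd_of_pow_eq_one hk) (orderOf_dvd_of_pow_eq_one h)
    have h3 : Nat.gcd (2 ^ k) 6 ∣ 2 := by
      have hco : Nat.Coprime (Nat.gcd (2 ^ k) 6) 3 :=
        (Nat.Coprime.pow_left k (by norm_num : Nat.Coprime 2 3)).coprime_dvd_left (Nat.gcd_dvd_left _ _)
      exact hco.dvd_of_dvd_mul_right (Nat.gcd_dvd_right (2 ^ k) 6)
    rw [← pow_two]
    exact orderOf_dvd_iff_pow_eq_one.1 (hd.trans h3)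

variable {G : Type*} [Group G] [Finite G]

theorem Hyp.exists_at {z : G} {Q : Subgroup G} (h : Hyp z Q) (S : Sylow 2 G) :
    ∃ (z' : G) (Q' : Subgroup G), Hyp z' Q' ∧ Q' ≤ (S : Subgroup G) ∧
      (S : Subgroup G) ≤ Subgroup.centralizer ({z'} : Set G) := by
  haveI : Fact (Nat.Prime 2) := ⟨Nat.prime_two⟩
  set C := Subgroup.centralizer ({z} : Set G)
  have hQp : IsPGroup 2 Q := IsPGroup.of_card (n := 5) (by rw [h.cardQ]; rfl)
  obtain ⟨T, hT⟩ := (hQp.of_equiv (Subgroup.subgroupOfEquivOfLe h.ci.le_centralizer).symm).exists_le_sylow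
  obtain ⟨S0, hS0⟩ := (T.isPGroup'.map C.subtype).exists_le_sylow
  have hQS : Q ≤ (S0 : Subgroup G) := fun q hq => hS0 ⟨⟨q, h.ci.le_centralizer hq⟩, hT hq, rfl⟩
  haveI : Nontrivial (S0 : Subgroup G) :=
    ⟨⟨⟨z, hQS h.ci.mem⟩, 1, fun e => h.ci.ne_one (congrArg Subtype.val e)⟩⟩
  haveI := S0.isPGroup'.center_nontrivial
  obtain ⟨⟨c, hc⟩, hc1⟩ := exists_ne (1 : Subgroup.center (S0 : Subgroup G))
  have hcz : (c : G) = z := by
    have hcQ : (c : G) ∈ Subgroup.centralizer (Q : Set G) := fun q hq =>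
      congrArg Subtype.val (Subgroup.mem_center_iff.1 hc ⟨q, hQS hq⟩)
    refine (h.ci.mem_zpowers_iff.1 (h.cent hcQ)).resolve_left fun e => hc1 ?_
    exact Subtype.ext (Subtype.ext e)
  have hSC : (S0 : Subgroup G) ≤ C := fun w hw => Hyp.mem_C.2 (by
    have := congrArg Subtype.val (Subgroup.mem_center_iff.1 hc ⟨w, hw⟩)
    simpa [hcz] using this)
  obtain ⟨g, hg⟩ := MulAction.exists_smul_eq G S0 S
  have hmem : ∀ w, w ∈ (S : Subgroup G) ↔ g⁻¹ * w * g ∈ (S0 : Subgroup G) := by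
    intro w
    rw [← hg, Sylow.coe_subgroup_smul, Subgroup.mem_pointwise_smul_iff_inv_smul_mem]
    simp [MulAut.smul_def, MulAut.conj_apply, mul_assoc]
  refine ⟨_, _, h.conj g, ?_, ?_⟩
  · rintro _ ⟨q, hq, rfl⟩
    rw [hmem]
    show g⁻¹ * (g * q * g⁻¹) * g ∈ (S0 : Subgroup G)
    rw [show g⁻¹ * (g * q * g⁻¹) * g = q by group]
    exact hQS hq
  · intro w hw
    refine Hyp.mem_C.2 ?_
    have := Hyp.mem_C.1 (hSC ((hmem w).1 hw))
    calc w * (g * z * g⁻¹) = g * (g⁻¹ * w * g * z) * g⁻¹ := by group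
      _ = g * z * g⁻¹ * w := by rw [this]; group

variable {z : G} {Q : Subgroup G} {p : Fin 5 → G} (d : Data z Q p)
include d

/-- Some element fused from `Q` lies outside `Q`. -/
theorem Data.exists_fused_outside :
    ∃ a g : G, a ∈ Q ∧ g * a * g⁻¹ ∈ Subgroup.centralizer ({z} : Set G) ∧ g * a * g⁻¹ ∉ Q := by
  by_contra hcon
  push Not at hcon
  obtain ⟨g, hg⟩ := isConj_iff.1 (d.p_conj_z 0).1
  let w := g⁻¹ * z * g
  have hgw : g * w * g⁻¹ = z := by show g * (g⁻¹ * z * g) * g⁻¹ = z; group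
  have hwz : w * z = z * w := by
    have h1 : Commute (g * w * g⁻¹) (g * z * g⁻¹) := by
      rw [hgw, hg]; exact (d.hyp.ci.comm _ (d.mem 0)).symm
    exact (commute_conj_iff.1 h1).eq
  have hw2 : w * w = 1 := by
    calc w * w = g⁻¹ * (z * z) * g := by show g⁻¹ * z * g * (g⁻¹ * z * g) = _; group
      _ = 1 := by rw [d.hyp.ci.sq]; group
  by_cases hwQ : w ∈ Q
  · have hne : w ≠ z := fun e => d.ne_z 0 (by rw [← hg]; rw [e] at hgw; exact hgw)
    have hw1 : w ≠ 1 := fun e => d.hyp.ci.ne_one (by rw [← hgw, e]; group)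
    obtain ⟨j, hj⟩ := d.involution_cases hwQ hw2 hw1 hne
    have five : ∀ j : Fin 5, ∃ k l m : Fin 5, k ≠ j ∧ l ≠ j ∧ m ≠ j ∧ k ≠ l ∧ k ≠ m ∧ l ≠ m := by decide
    obtain ⟨k, l, m, hkj, hlj, hmj, hkl, hkm, hlm⟩ := five j
    have hz : ∀ a ∈ Q, Commute z a := fun a ha => (d.hyp.ci.comm a ha).symm
    have hcw : ∀ a b : Fin 5, a ≠ j → b ≠ j → Commute (p a * p b) w := by
      intro a b ha hb
      have h1 : Commute (p j) (p a * p b) :=
        (comm_xor d.hyp (d.mem j) (d.mem a) (d.mem b)).2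
          (iff_of_false (d.nc j a ha.symm) (d.nc j b hb.symm))
      rcases hj with e | e
      · rw [e]; exact h1.symm
      · rw [e]; exact h1.symm.mul_right (hz _ (mul_mem (d.mem a) (d.mem b))).symm
    have hnc : ¬ Commute (p k * p l) (p k * p m) := by
      intro hc
      have h1 : ¬ Commute (p k) (p k * p m) := fun h =>
        d.nc k m hkm (((comm_xor d.hyp (d.mem k) (d.mem k) (d.mem m)).1 h).1 (Commute.refl _))
      have h2 : Commute (p l) (p k * p m) :=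
        (comm_xor d.hyp (d.mem l) (d.mem k) (d.mem m)).2 (iff_of_false (d.nc l k hkl.symm) (d.nc l m hlm))
      have h3 := (comm_xor d.hyp (mul_mem (d.mem k) (d.mem m)) (d.mem k) (d.mem l)).1 hc.symm
      exact h1 (h3.2 h2.symm).symm
    have ha : p k * p l ∈ Q := mul_mem (d.mem k) (d.mem l)
    have hb : p k * p m ∈ Q := mul_mem (d.mem k) (d.mem m)
    have hin : ∀ a ∈ Q, Commute a w → g * a * g⁻¹ ∈ Q := by
      intro a ha hc
      refine hcon a g ha (Hyp.mem_C.2 ?_)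
      have := (commute_conj_iff (g := g)).2 hc
      rwa [hgw] at this
    set a := p k * p l with hadef
    set b := p k * p m with hbdef
    have hga := hin a ha (hcw k l hkj hlj)
    have hgb := hin b hb (hcw k m hkj hmj)
    rcases d.hyp.ci.conj_cases ha hb with e | e
    · exact hnc (mul_inv_eq_iff_eq_mul.1 e)
    · have e' : (g * a * g⁻¹) * (g * b * g⁻¹) * (g * a * g⁻¹)⁻¹ = (g * b * g⁻¹) * (g * z * g⁻¹) := by
        calc (g * a * g⁻¹) * (g * b * g⁻¹) * (g * a * g⁻¹)⁻¹ = g * (a * b * a⁻¹) * g⁻¹ := by group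
          _ = _ := by rw [e]; group
      rcases d.hyp.ci.conj_cases hga hgb with e2 | e2
      · rw [e2] at e'
        exact d.hyp.ci.ne_one (conj_eq_one_iff.1 (mul_eq_left.1 e'.symm))
      · rw [e2, hg] at e'
        exact d.ne_z 0 (mul_left_cancel e').symm
  · refine hwQ ?_
    have h := hcon z g⁻¹ d.hyp.ci.mem (by rw [inv_inv]; exact Hyp.mem_C.2 hwz)
    rw [inv_inv] at h
    exact h

theorem Data.isSimple_fusion (S : Sylow 2 G) (hQS : Q ≤ (S : Subgroup G))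
    (hSC : (S : Subgroup G) ≤ Subgroup.centralizer ({z} : Set G)) :
    (Cfsg.groupFusionSystem (S : Subgroup G)).IsSimple 2 := by
  haveI : Fact (Nat.Prime 2) := ⟨Nat.prime_two⟩
  set C := Subgroup.centralizer ({z} : Set G) with hC
  let S' : Sylow 2 C := S.subtype hSC
  have hS' : ∀ {w : C}, w ∈ (S' : Subgroup C) ↔ (w : G) ∈ (S : Subgroup G) := fun {w} => Iff.rfl
  have hS1 : (S : Subgroup G) ≠ ⊥ := fun e =>
    d.hyp.ci.ne_one ((Subgroup.eq_bot_iff_forall _).1 e z (hQS d.hyp.ci.mem))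
  have two_elt : ∀ {c : C} {k : ℕ}, (d.act c) ^ 2 ^ k = 1 → ∃ n, orderOf (c : G) = 2 ^ n := by
    intro c k hk
    have hq : ((c ^ 2 ^ k : C) : G) ∈ Q := (d.mem_ker_iff _).1 (by rw [map_pow]; exact hk)
    have h32 : (((c ^ 2 ^ k : C) : G)) ^ 32 = 1 := by
      have h : (⟨_, hq⟩ : Q) ^ Nat.card Q = 1 := pow_card_eq_one'
      rw [d.hyp.cardQ] at h
      exact congrArg Subtype.val h
    have hdvd : orderOf (c : G) ∣ 2 ^ (k + 5) := by
      refine orderOf_dvd_of_pow_eq_one ?_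
      rw [pow_add, pow_mul]
      exact h32
    obtain ⟨n, -, hn⟩ := (Nat.dvd_prime_pow Nat.prime_two).1 hdvd
    exact ⟨n, hn⟩
  have to_S : ∀ {c : C} {n : ℕ}, orderOf (c : G) = 2 ^ n → ∃ a : C, (a : G) * c * (a : G)⁻¹ ∈ (S : Subgroup G) := by
    intro c n hn
    have hp : IsPGroup 2 (Subgroup.zpowers c) :=
      IsPGroup.of_card (n := n) (by rw [Nat.card_zpowers, ← Subgroup.orderOf_coe, hn])
    obtain ⟨S₂, hS₂⟩ := hp.exists_le_sylow
    obtain ⟨a, ha⟩ := MulAction.exists_smul_eq C S₂ S'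
    refine ⟨a, ?_⟩
    have : a * c * a⁻¹ ∈ (S' : Subgroup C) := by
      rw [← ha, Sylow.coe_subgroup_smul, Subgroup.mem_pointwise_smul_iff_inv_smul_mem]
      simpa [MulAut.smul_def, MulAut.conj_apply, mul_assoc] using hS₂ (Subgroup.mem_zpowers c)
    exact hS'.1 this
  have act_S : ∀ {c : C}, (c : G) ∈ (S : Subgroup G) → d.act c * d.act c = 1 := by
    intro c hc
    obtain ⟨k, hk⟩ := IsPGroup.iff_orderOf.1 S.isPGroup' ⟨(c : G), hc⟩
    rw [Subgroup.orderOf_mk, Subgroup.orderOf_coe] at hk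
    refine sq_of_two_pow (d.sign_act c) (k := k) ?_
    rw [← map_pow, ← hk, pow_orderOf_eq_one, map_one]
  refine FusionCrit.isSimple_of_centric_generation S hS1 (fun T hT => ?_) ?_
  · by_cases hTb : T = ⊥
    · exact Or.inl hTb
    refine Or.inr (le_antisymm hT.1 ?_)
    have hcl : ∀ a ∈ T, ∀ g : G, g * a * g⁻¹ ∈ (S : Subgroup G) → g * a * g⁻¹ ∈ T := by
      intro a ha g hg
      have h := hT.2 (Subgroup.zpowers a) (Subgroup.zpowers_le.2 ha)
        ((MulAut.conj g).toMonoidHom.comp (Subgroup.zpowers a).subtype) ?_ ⟨a, Subgroup.mem_zpowers a⟩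
      · exact h
      · refine FusionCrit.mem_groupHom_iff.2 ⟨Subgroup.zpowers_le.2 (hT.1 ha), ?_, g, fun _ => rfl⟩
        rintro ⟨b, i, rfl⟩
        show g * a ^ i * g⁻¹ ∈ (S : Subgroup G)
        rw [← conj_zpow]
        exact zpow_mem hg i
    have hn : ∀ a ∈ T, ∀ s ∈ (S : Subgroup G), s * a * s⁻¹ ∈ T := fun a ha s hs =>
      hcl a ha s (mul_mem (mul_mem hs (hT.1 ha)) (inv_mem hs))
    have hzT : z ∈ T := by
      obtain ⟨t, htT, ht1⟩ : ∃ t ∈ T, t ≠ 1 := by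
        by_contra hcon; push Not at hcon; exact hTb ((Subgroup.eq_bot_iff_forall _).2 hcon)
      obtain ⟨t', ht', htQ, ht1'⟩ : ∃ t ∈ T, t ∈ Q ∧ t ≠ 1 := by
        by_contra hcon
        push Not at hcon
        refine ht1 (hcon t htT ?_)
        have hc : t ∈ Subgroup.centralizer (Q : Set G) := by
          intro q hq
          have h2 : t * q * t⁻¹ ∈ Q := d.hyp.conj_mem (hSC (hT.1 htT)) hq
          have h3 : q⁻¹ * (t * q * t⁻¹) ∈ T := by
            rw [show q⁻¹ * (t * q * t⁻¹) = (q⁻¹ * t * q⁻¹⁻¹) * t⁻¹ by group]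
            exact mul_mem (hn t htT _ (inv_mem (hQS hq))) (inv_mem htT)
          exact (mul_inv_eq_iff_eq_mul.1 (inv_mul_eq_one.1 (hcon _ h3 (mul_mem (inv_mem hq) h2))).symm).symm
        exact (Subgroup.zpowers_le.2 d.hyp.ci.mem) (d.hyp.cent hc)
      by_cases hz : t' = z
      · exact hz ▸ ht'
      · obtain ⟨q, hq, hqe⟩ := d.hyp.ci.exists_swap htQ ht1' hz
        have := hn t' ht' q (hQS hq)
        rw [hqe] at this
        simpa using mul_mem (inv_mem ht') this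
    have hQT : Q ≤ T := by
      rw [← d.closure_eq, Subgroup.closure_le]
      rintro _ ⟨i, rfl⟩
      obtain ⟨g, hg⟩ := isConj_iff.1 (d.p_conj_z i).1
      exact hg ▸ hcl z hzT g (hg ▸ hQS (d.mem i))
    obtain ⟨a, g, ha, hgC, hgQ⟩ := d.exists_fused_outside
    have hord : ∃ n, orderOf (g * a * g⁻¹) = 2 ^ n := by
      obtain ⟨k, hk⟩ := IsPGroup.iff_orderOf.1 S.isPGroup' ⟨a, hQS ha⟩
      rw [Subgroup.orderOf_mk] at hk
      exact ⟨k, by rw [← hk]; exact orderOf_injective (MulAut.conj g).toMonoidHom (MulAut.conj g).injective a⟩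
    obtain ⟨n, hn'⟩ := hord
    obtain ⟨c₀, hc₀⟩ := to_S (c := ⟨_, hgC⟩) hn'
    rw [conj_conj'] at hc₀
    have htT : (c₀ : G) * g * a * ((c₀ : G) * g)⁻¹ ∈ T := hcl a (hQT ha) _ hc₀
    have htQ : (c₀ : G) * g * a * ((c₀ : G) * g)⁻¹ ∉ Q := fun h => hgQ (by
      have := d.hyp.conj_mem (inv_mem c₀.2) h
      rwa [show (c₀ : G)⁻¹ * ((c₀ : G) * g * a * ((c₀ : G) * g)⁻¹) * (c₀ : G)⁻¹⁻¹ = g * a * g⁻¹ by group] at this)
    generalize (c₀ : G) * g * a * ((c₀ : G) * g)⁻¹ = t at htT htQ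
    have htS := hT.1 htT
    intro s hs
    by_cases hsQ : s ∈ Q
    · exact hQT hsQ
    let tc : C := ⟨t, hSC htS⟩
    let sc : C := ⟨s, hSC hs⟩
    obtain ⟨σ, hσ, hσe⟩ := Fin5.exists_conj (d.act tc) (d.act sc) (act_S (c := tc) htS)
      (fun e => htQ ((d.mem_ker_iff tc).1 e)) (d.sign_act tc) (act_S (c := sc) hs)
      (fun e => hsQ ((d.mem_ker_iff sc).1 e)) (d.sign_act sc)
    obtain ⟨c, hc⟩ := d.exists_lift hσ
    have hker : d.act (sc⁻¹ * (c * tc * c⁻¹)) = 1 := by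
      rw [map_mul, map_mul, map_mul, map_inv, map_inv, hc, hσe, mul_inv_cancel_right, inv_mul_cancel]
    have hq : s⁻¹ * ((c : G) * t * (c : G)⁻¹) ∈ Q := (d.mem_ker_iff _).1 hker
    have hcS : (c : G) * t * (c : G)⁻¹ ∈ (S : Subgroup G) := by
      rw [show (c : G) * t * (c : G)⁻¹ = s * (s⁻¹ * ((c : G) * t * (c : G)⁻¹)) by group]
      exact mul_mem hs (hQS hq)
    rw [show s = ((c : G) * t * (c : G)⁻¹) * (s⁻¹ * ((c : G) * t * (c : G)⁻¹))⁻¹ by group]
    exact mul_mem (hcl t htT _ hcS) (inv_mem (hQT hq))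
  · intro g hg
    refine Subgroup.subset_closure ⟨hg, Q, ?_, ?_⟩
    · exact FusionCrit.isCentric_of_centralizer_le S hQS
        (d.hyp.cent.trans (Subgroup.zpowers_le.2 d.hyp.ci.mem))
    · set L := Subgroup.closure {x : G | x ∈ Subgroup.normalizer (Q : Set G) ∧ ∃ k : ℕ, orderOf x = 2 ^ k}
      have gen : ∀ {c : C} {k : ℕ}, (d.act c) ^ 2 ^ k = 1 → (c : G) ∈ L := fun {c k} hk =>
        Subgroup.subset_closure ⟨d.hyp.norm c.2, two_elt hk⟩
      have hgC : g ∈ C := by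
        have hgz : g * z * g⁻¹ ∈ (S : Subgroup G) :=
          (Subgroup.mem_normalizer_iff.1 hg z).1 (hQS d.hyp.ci.mem)
        have hc : g * z * g⁻¹ ∈ Subgroup.centralizer (Q : Set G) := by
          intro q hq
          have hq' : g⁻¹ * q * g ∈ (S : Subgroup G) := by
            simpa using (Subgroup.mem_normalizer_iff.1 (inv_mem hg) q).1 (hQS hq)
          have h := (commute_conj_iff (g := g)).2 (show Commute (g⁻¹ * q * g) z from Hyp.mem_C.1 (hSC hq'))
          rw [show g * (g⁻¹ * q * g) * g⁻¹ = q by group] at h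
          exact h.eq
        rcases d.hyp.ci.mem_zpowers_iff.1 (d.hyp.cent hc) with e | e
        · exact absurd (conj_eq_one_iff.1 e) d.hyp.ci.ne_one
        · exact Hyp.mem_C.2 (mul_inv_eq_iff_eq_mul.1 e)
      obtain ⟨a, ha2, has, hb2⟩ := alt_five_invol_prod _ (d.sign_act ⟨g, hgC⟩)
      obtain ⟨c, hc⟩ := d.exists_lift has
      have h1 : (c : G) ∈ L := gen (k := 1) (by rw [pow_one, pow_two, hc, ha2])
      have h2 : ((c * ⟨g, hgC⟩ : C) : G) ∈ L := gen (k := 1) (by rw [pow_one, pow_two, map_mul, hc, hb2])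
      have := mul_mem (inv_mem h1) h2
      simpa using this

end Cfsg.Agent.J2Type
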