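import Cfsg.Agent.J2Type.Order
import Cfsg.Agent.Janko2.Centralizer

/-!
The Hall–Janko group satisfies the hypotheses of Hall–Janko type.
-/

set_option autoImplicit false

namespace Cfsg.Agent.J2Type

open Cfsg Cfsg.Agent.LargeExtra Cfsg.Agent.Janko2

/-- A word fusing the central element of the kernel with another kernel element. -/
theorem fuse_table :
    ((tL 0).any fun v => v.all (fun k => Nat.blt k 32) && (List.finRange 32).any fun i =>
      !agree (kWord i) (kWord 13) && agree (v ++ kWord 13) (kWord i ++ v)) = true := by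
  decide +kernel

/-- A generator moving some coset of the centre of the kernel. -/
theorem move_table :
    ((sL 1).any fun a => (List.finRange 32).any fun i =>
      !agree ([a] ++ kWord i) (kWord i ++ [a]) &&
        !agree ([a] ++ kWord i) (kWord i ++ kWord 13 ++ [a])) = true := by
  decide +kernel

theorem tp_zero_mem : tp 0 ∈ levelGrp 1 := by
  refine mem_level_one (tp_mem 0) (tp_injective ?_)
  rw [← tp_conj (tp_mem 0) 0, mul_inv_cancel_right]

theorem tp_zero_ne : tp 0 ≠ 1 := by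
  intro h
  have := tp_axis
  rw [h, one_mul] at this
  have e : tp 305 = tp 314 := by
    calc tp 305 = tp 305 * (tp 314 * tp 314) := by rw [tp_mul_self, mul_one]
      _ = tp 314 := by rw [← mul_assoc, this, one_mul]
  exact absurd (tp_injective e) (by decide)

theorem tp_zero_comm {g : Equiv.Perm (Fin 315)} (hg : g ∈ levelGrp 1) : g * tp 0 = tp 0 * g := by
  have := tp_conj (levelGrp_le 1 hg) 0
  rw [level_one_fix hg] at this
  exact mul_inv_eq_iff_eq_mul.1 this

theorem five_tp_zero : five ⟨tp 0, tp_zero_mem⟩ = 1 := by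
  have hsimple : ∀ π : Equiv.Perm (Fin 5), Equiv.Perm.sign π = 1 →
      (∀ σ : Equiv.Perm (Fin 5), Equiv.Perm.sign σ = 1 → σ * π = π * σ) → π = 1 := by decide +kernel
  refine hsimple _ (Equiv.Perm.mem_alternatingGroup.1 (five_spec _).1) fun σ hσ => ?_
  obtain ⟨g, rfl⟩ : σ ∈ five.range := five_range ▸ Equiv.Perm.mem_alternatingGroup.2 hσ
  rw [← map_mul, ← map_mul]
  exact congrArg five (Subtype.ext (tp_zero_comm g.2))

theorem kEl_thirteen : (kEl 13).1.1 = tp 0 := by
  have hc : (⟨⟨tp 0, tp_zero_mem⟩, five_tp_zero⟩ : ↥five.ker) ∈ Subgroup.center ↥five.ker :=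
    Subgroup.mem_center_iff.2 fun g => kEl_ext (tp_zero_comm g.1.2)
  rw [← SetLike.mem_coe, center_five_ker] at hc
  rcases hc with h | h
  · exact absurd (congrArg (fun g : ↥five.ker => g.1.1) h) tp_zero_ne
  · exact (congrArg (fun g : ↥five.ker => g.1.1) h).symm

/-- The subgroup `Q` of the model. -/
noncomputable def modelQ : Subgroup ↥K :=
  ((five.ker.map (levelGrp 1).subtype).subgroupOf K)

theorem mem_modelQ {g : ↥K} : g ∈ modelQ ↔ ∃ h : (g : Equiv.Perm (Fin 315)) ∈ levelGrp 1, five ⟨g, h⟩ = 1 := by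
  constructor
  · rintro ⟨w, hw, e⟩
    have e' : (w : Equiv.Perm (Fin 315)) = g := e
    exact ⟨e' ▸ w.2, by rw [← hw]; exact congrArg five (Subtype.ext e'.symm)⟩
  · rintro ⟨h, h5⟩
    exact ⟨⟨g, h⟩, h5, rfl⟩

theorem mem_centralizer_model {g : ↥K} :
    g ∈ Subgroup.centralizer ({⟨tp 0, tp_mem 0⟩} : Set ↥K) ↔ (g : Equiv.Perm (Fin 315)) ∈ levelGrp 1 := by
  rw [Subgroup.mem_centralizer_singleton_iff]
  constructor
  · intro h
    refine mem_level_one g.2 (tp_injective ?_)
    rw [← tp_conj g.2, show (g : Equiv.Perm (Fin 315)) * tp 0 = tp 0 * g from congrArg Subtype.val h,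
      mul_inv_cancel_right]
  · intro h
    exact Subtype.ext (tp_zero_comm h)

theorem hyp_model : Hyp (⟨tp 0, tp_mem 0⟩ : ↥K) modelQ := by
  classical
  set z : ↥K := ⟨tp 0, tp_mem 0⟩
  have hle : five.ker.map (levelGrp 1).subtype ≤ K :=
    (Subgroup.map_subtype_le _).trans (levelGrp_le 1)
  let eQ : ↥five.ker ≃* ↥modelQ :=
    (five.ker.equivMapOfInjective _ (levelGrp 1).subtype_injective).trans
      (Subgroup.subgroupOfEquivOfLe hle).symm
  have hcard : Nat.card ↥modelQ = 32 := by rw [← Nat.card_congr eQ.toEquiv, card_five_ker]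
  have : Finite ↥five.ker := Nat.finite_of_card_ne_zero (by rw [card_five_ker]; norm_num)
  have hex : Cfsg.IsExtraspecial 2 ↥modelQ := isExtraspecial_map_equiv extraspecial_five_ker eQ
  have hzQ : z ∈ modelQ := mem_modelQ.2 ⟨tp_zero_mem, five_tp_zero⟩
  have hcomm : ∀ q ∈ modelQ, q * z = z * q := fun q hq =>
    Subtype.ext (tp_zero_comm (mem_modelQ.1 hq).1)
  obtain ⟨y, hy⟩ := exists_centralInvolution hex
  obtain rfl : z = y :=
    (hy.of_central z hzQ hcomm).resolve_left fun e => tp_zero_ne (congrArg Subtype.val e)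
  have hQn : ∀ g : ↥K, (g : Equiv.Perm (Fin 315)) ∈ levelGrp 1 → ∀ q ∈ modelQ, g * q * g⁻¹ ∈ modelQ := by
    intro g hg q hq
    obtain ⟨hq1, hq5⟩ := mem_modelQ.1 hq
    refine mem_modelQ.2 ⟨mul_mem (mul_mem hg hq1) (inv_mem hg), ?_⟩
    show five (⟨(g : Equiv.Perm (Fin 315)), hg⟩ * ⟨_, hq1⟩ * ⟨(g : Equiv.Perm (Fin 315)), hg⟩⁻¹) = 1
    rw [map_mul, map_mul, map_inv, hq5, mul_one, mul_inv_cancel]
  have hword : ∀ {w : List ℕ}, elW w ∈ K := fun {w} => elW_mem w
  have hkQ : ∀ i : Fin 32, (⟨elW (kWord i), elW_mem _⟩ : ↥K) ∈ modelQ := fun i => by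
    refine ⟨(kEl i).1, (kEl i).2, ?_⟩
    exact (kEl_val i)
  refine ⟨hy, fun g hg => ?_, fun g hg => mem_normalizer_of_conj' hQn (mem_centralizer_model.1 hg), hcard, ?_, ?_⟩
  · -- the centraliser of `Q` is the centre
    have hg1 : (g : Equiv.Perm (Fin 315)) ∈ levelGrp 1 :=
      mem_centralizer_model.1 (Subgroup.mem_centralizer_singleton_iff.2 (hg z hzQ).symm)
    by_cases hgQ : g ∈ modelQ
    · exact hy.mem_zpowers_iff.2 (hy.of_central g hgQ fun q hq => hg q hq)
    exfalso
    -- the image of the centraliser would be the whole alternating group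
    let M : Subgroup ↥(levelGrp 1) :=
      { carrier := {h | ∀ q ∈ modelQ, (⟨h.1, levelGrp_le 1 h.2⟩ : ↥K) * q = q * ⟨h.1, levelGrp_le 1 h.2⟩}
        one_mem' := fun q _ => (show Commute (1 : ↥K) q from Commute.one_left q)
        mul_mem' := fun {a b} ha hb q hq =>
          ((show Commute (⟨a.1, levelGrp_le 1 a.2⟩ : ↥K) q from ha q hq).mul_left (hb q hq)).eq
        inv_mem' := fun {a} ha q hq =>
          ((show Commute (⟨a.1, levelGrp_le 1 a.2⟩ : ↥K) q from ha q hq).inv_left).eq }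
    haveI hMn : M.Normal := ⟨fun m hm a q hq => by
      have h' := hQn ⟨a.1, levelGrp_le 1 a.2⟩⁻¹ (inv_mem a.2) q hq
      have e := hm _ h'
      generalize hA : (⟨a.1, levelGrp_le 1 a.2⟩ : ↥K) = A at e
      have hM' : (⟨(a * m * a⁻¹ : ↥(levelGrp 1)).1, levelGrp_le 1 (a * m * a⁻¹).2⟩ : ↥K) =
          A * ⟨m.1, levelGrp_le 1 m.2⟩ * A⁻¹ := by
        rw [← hA]; exact Subtype.ext rfl
      rw [hM']
      generalize (⟨m.1, levelGrp_le 1 m.2⟩ : ↥K) = B at e
      calc A * B * A⁻¹ * q = A * (B * (A⁻¹ * q * A⁻¹⁻¹)) * A⁻¹ := by group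
        _ = A * (A⁻¹ * q * A⁻¹⁻¹ * B) * A⁻¹ := by rw [e]
        _ = q * (A * B * A⁻¹) := by group⟩
    have hgM : (⟨g.1, hg1⟩ : ↥(levelGrp 1)) ∈ M := fun q hq => (hg q hq).symm
    have htop : M.map five = alternatingGroup (Fin 5) := by
      let f' : ↥(levelGrp 1) →* ↥(alternatingGroup (Fin 5)) := five.codRestrict _ fun h => (five_spec h).1
      have hf' : Function.Surjective f' := fun σ => by
        obtain ⟨h, hh⟩ : (σ : Equiv.Perm (Fin 5)) ∈ five.range := by rw [five_range]; exact σ.2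
        exact ⟨h, Subtype.ext hh⟩
      haveI : IsSimpleGroup (alternatingGroup (Fin 5)) := alternatingGroup.isSimpleGroup (by simp)
      rcases (hMn.map f' hf').eq_bot_or_eq_top with h | h
      · exfalso
        have := (Subgroup.eq_bot_iff_forall _).1 h _ ⟨_, hgM, rfl⟩
        exact hgQ (mem_modelQ.2 ⟨hg1, congrArg Subtype.val this⟩)
      · refine le_antisymm (fun σ hσ => ?_) fun σ hσ => ?_
        · obtain ⟨h, -, rfl⟩ := hσ; exact (five_spec h).1
        · have : (⟨σ, hσ⟩ : ↥(alternatingGroup (Fin 5))) ∈ M.map f' := h ▸ Subgroup.mem_top _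
          obtain ⟨m, hm, hme⟩ := this
          exact ⟨m, hm, congrArg Subtype.val hme⟩
    obtain ⟨a, ha, hai⟩ := List.any_eq_true.1 move_table
    obtain ⟨i, -, hi⟩ := List.any_eq_true.1 hai
    simp only [Bool.and_eq_true, Bool.not_eq_true'] at hi
    have ha32 : a < 32 := (sL_one_facts a ha).1
    have hav : ∀ k ∈ [a], k < 32 := by simpa using ha32
    have hA1 : elW [a] ∈ levelGrp 1 := elW_mem_level (by simpa using ha)
    obtain ⟨m, hm, hme⟩ : five ⟨elW [a], hA1⟩ ∈ M.map five := by rw [htop]; exact (five_spec _).1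
    let A : ↥K := ⟨elW [a], elW_mem _⟩
    let B : ↥K := ⟨m.1, levelGrp_le 1 m.2⟩
    have hq0 : B⁻¹ * A ∈ modelQ := by
      refine mem_modelQ.2 ⟨mul_mem (inv_mem m.2) hA1, ?_⟩
      show five (m⁻¹ * ⟨elW [a], hA1⟩) = 1
      rw [map_mul, map_inv, hme, inv_mul_cancel]
    let W : ↥K := ⟨elW (kWord i), elW_mem _⟩
    have hW := hkQ i
    have key : A * W * A⁻¹ = W ∨ A * W * A⁻¹ = W * z := by
      have e : A * W * A⁻¹ = B * ((B⁻¹ * A) * W * (B⁻¹ * A)⁻¹) * B⁻¹ := by group
      have hBz : ∀ q ∈ modelQ, B * q * B⁻¹ = q := fun q hq => mul_inv_eq_iff_eq_mul.2 (hm q hq)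
      rcases hy.conj_cases hq0 hW with h | h
      · left; rw [e, h, hBz _ hW]
      · right; rw [e, h, hBz _ (mul_mem hW hzQ)]
    rcases key with h | h
    · have h' : agree ([a] ++ kWord i) (kWord i ++ [a]) = true := by
        rw [agree_iff (append_lt hav (kWord_lt i)) (append_lt (kWord_lt i) hav), elW_append, elW_append]
        exact congrArg Subtype.val (mul_inv_eq_iff_eq_mul.1 h)
      exact Bool.noConfusion (hi.1.symm.trans h')
    · have h' : agree ([a] ++ kWord i) (kWord i ++ kWord 13 ++ [a]) = true := by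
        rw [agree_iff (append_lt hav (kWord_lt i)) (append_lt (append_lt (kWord_lt i) (kWord_lt 13)) hav),
          elW_append, elW_append, elW_append, ← kEl_val 13, kEl_thirteen]
        exact congrArg Subtype.val (mul_inv_eq_iff_eq_mul.1 h)
      exact Bool.noConfusion (hi.2.symm.trans h')
  · rw [← card_level_one]
    exact Nat.card_congr
      { toFun := fun g => ⟨(g : ↥K).1, mem_centralizer_model.1 g.2⟩
        invFun := fun g => ⟨⟨g.1, levelGrp_le 1 g.2⟩, mem_centralizer_model.2 g.2⟩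
        left_inv := fun _ => rfl
        right_inv := fun _ => rfl }
  · obtain ⟨v, -, hv⟩ := List.any_eq_true.1 fuse_table
    simp only [Bool.and_eq_true, List.all_eq_true, Nat.blt_eq] at hv
    obtain ⟨hv32, hv'⟩ := hv
    obtain ⟨i, -, hi⟩ := List.any_eq_true.1 hv'
    simp only [Bool.and_eq_true, Bool.not_eq_true'] at hi
    refine ⟨⟨elW v, elW_mem v⟩, ?_, ?_⟩
    · have e : (⟨elW v, elW_mem v⟩ : ↥K) * z * (⟨elW v, elW_mem v⟩ : ↥K)⁻¹ = ⟨elW (kWord i), elW_mem _⟩ := by
        refine mul_inv_eq_iff_eq_mul.2 (Subtype.ext ?_)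
        show elW v * tp 0 = elW (kWord i) * elW v
        rw [← kEl_thirteen, kEl_val, ← elW_append, ← elW_append]
        exact (agree_iff (append_lt hv32 (kWord_lt 13)) (append_lt (kWord_lt i) hv32)).1 hi.2
      rw [e]; exact hkQ i
    · intro e
      have e1 : elW v * tp 0 = tp 0 * elW v := congrArg Subtype.val (mul_inv_eq_iff_eq_mul.1 e)
      have e2 : elW v * tp 0 = elW (kWord i) * elW v := by
        rw [← kEl_thirteen, kEl_val, ← elW_append, ← elW_append]
        exact (agree_iff (append_lt hv32 (kWord_lt 13)) (append_lt (kWord_lt i) hv32)).1 hi.2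
      have e3 : elW (kWord i) = elW (kWord 13) := by
        rw [← kEl_val 13, kEl_thirteen]
        exact mul_right_cancel (e2.symm.trans e1)
      have := (agree_iff (kWord_lt i) (kWord_lt 13)).2 e3
      exact Bool.noConfusion (hi.1.symm.trans this)
where
  mem_normalizer_of_conj' {H : Subgroup ↥K} {L : Subgroup (Equiv.Perm (Fin 315))}
      (h : ∀ g : ↥K, (g : Equiv.Perm (Fin 315)) ∈ L → ∀ q ∈ H, g * q * g⁻¹ ∈ H) {g : ↥K}
      (hg : (g : Equiv.Perm (Fin 315)) ∈ L) : g ∈ Subgroup.normalizer (H : Set ↥K) :=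
    Subgroup.mem_normalizer_iff.2 fun q => ⟨h g hg q, fun hq => by
      have := h g⁻¹ (inv_mem hg) _ hq
      simpa [mul_assoc] using this⟩

/-- Transport along an isomorphism. -/
theorem Hyp.map_equiv {G H : Type*} [Group G] [Group H] [Finite G] {z : G} {Q : Subgroup G}
    (h : Hyp z Q) (e : G ≃* H) : Hyp (e z) (Q.map e.toMonoidHom) := by
  haveI : Finite H := Finite.of_equiv G e.toEquiv
  have hC : Subgroup.centralizer ({e z} : Set H) =
      (Subgroup.centralizer ({z} : Set G)).map e.toMonoidHom := by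
    ext w
    rw [Subgroup.mem_map_equiv, Hyp.mem_C, Hyp.mem_C]
    refine (e.symm.injective.eq_iff.symm.trans ?_)
    simp only [map_mul, MulEquiv.symm_apply_apply]
  refine ⟨?_, ?_, ?_, ?_, ?_, ?_⟩
  · have hex : Cfsg.IsExtraspecial 2 ↥(Q.map e.toMonoidHom) :=
      isExtraspecial_map_equiv h.ci.extra (Q.equivMapOfInjective _ e.injective)
    obtain ⟨y, hy⟩ := exists_centralInvolution hex
    have hne : e z ≠ 1 := fun h1 => h.ci.ne_one (e.injective (h1.trans (map_one e).symm))
    obtain rfl : e z = y := (hy.of_central (e z) ⟨z, h.ci.mem, rfl⟩ (by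
      rintro _ ⟨q, hq, rfl⟩
      show e q * e z = e z * e q
      rw [← map_mul, ← map_mul, h.ci.comm q hq])).resolve_left hne
    exact hy
  · intro w hw
    have h1 : e.symm w ∈ Subgroup.zpowers z := h.cent fun q hq => e.injective (by
      rw [map_mul, map_mul, e.apply_symm_apply]
      exact hw (e q) ⟨q, hq, rfl⟩)
    obtain ⟨n, hn⟩ := h1
    refine ⟨n, ?_⟩
    show e z ^ n = w
    rw [← map_zpow, show z ^ n = e.symm w from hn, e.apply_symm_apply]
  · rw [hC]
    exact le_trans (Subgroup.map_mono h.norm) (Subgroup.le_normalizer_map _)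
  · rw [Subgroup.card_map_of_injective e.injective, h.cardQ]
  · rw [hC, Subgroup.card_map_of_injective e.injective, h.cardC]
  · obtain ⟨g, hg, hne⟩ := h.nwc
    refine ⟨e g, ⟨_, hg, ?_⟩, fun h' => hne (e.injective ?_)⟩
    · show e (g * z * g⁻¹) = _
      simp
    · rw [← h']; simp

theorem exists_hyp_of_iso {G : Type*} [Group G] [Finite G] (e : G ≃* Cfsg.Spor.J2) :
    ∃ (z : G) (Q : Subgroup G), Hyp z Q :=
  ⟨_, _, hyp_model.map_equiv (e.trans j2Equiv).symm⟩

end Cfsg.Agent.J2Type
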