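import Cfsg.Agent.J2Type.Cent

/-!
The normal subgroup of order 60 in the centraliser of the second class and the order of the group.
-/

set_option autoImplicit false

namespace Cfsg.Agent.J2Type

open Cfsg Cfsg.Agent.LargeExtra

variable {G : Type*} [Group G] [Finite G]

/-- A normal subgroup of order 60 with complement `E` modulo `Q` inside the centraliser of `x`. -/
structure Comp {z : G} {Q : Subgroup G} {p : Fin 5 → G} {x : G} (c : Cfg z Q p x) (K : Subgroup G) : Prop where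
  le : K ≤ Subgroup.centralizer ({x} : Set G)
  normal : ∀ h ∈ Subgroup.centralizer ({x} : Set G), ∀ k ∈ K, h * k * h⁻¹ ∈ K
  card : Nat.card K = 60
  inf_E : ∀ w ∈ c.E, (w ∈ K ↔ w ∈ Q)
  cover : ∀ h ∈ Subgroup.centralizer ({x} : Set G), ∃ e ∈ c.E, e * h ∈ K
  conj_z : ∀ u ∈ K, u * u = 1 → u ≠ 1 → ∃ k ∈ K, k * z * k⁻¹ = u

namespace Cfg

variable {z : G} {Q : Subgroup G} {p : Fin 5 → G} {x : G} (c : Cfg z Q p x)
include c

theorem card_E_inf_Q : Nat.card {w : G // w ∈ c.E ∧ w ∈ Q} = 4 := by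
  classical
  obtain ⟨k, hk, hkz, hiff⟩ := c.exists_four
  have hset : ∀ w : G, w ∈ c.E ∧ w ∈ Q ↔ w ∈ ({1, z, p k, p k * z} : Finset G) := by
    intro w
    simp only [Finset.mem_insert, Finset.mem_singleton]
    by_cases hw1 : w = 1
    · subst hw1; simp [one_mem]
    · constructor
      · intro h; exact Or.inr ((hiff w).1 ⟨h.1, (c.conj_z_iff h.1).2 ⟨h.2, hw1⟩⟩)
      · intro h
        have h' := (hiff w).2 (h.resolve_left hw1)
        exact ⟨h'.1, ((c.conj_z_iff h'.1).1 h'.2).1⟩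
  rw [Nat.card_congr (Equiv.subtypeEquivRight hset), Nat.card_eq_finsetCard]
  have n1 := c.d.ne_one k
  have n2 := c.d.ne_z k
  have n3 := c.d.hyp.ci.ne_one
  have n4 : p k * z ≠ 1 := fun e => n2 (by rw [eq_inv_of_mul_eq_one_left e, c.d.hyp.ci.inv_eq])
  have n5 : z ≠ p k * z := fun e => n1 (mul_eq_right.1 e.symm)
  have n6 : p k ≠ p k * z := fun e => n3 (mul_eq_left.1 e.symm)
  simp [n1.symm, n2.symm, n3.symm, n4.symm, n5, n6]

/-- The kernel of the transfer into the Sylow 2-subgroup modulo `Q`. -/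
theorem exists_transfer_ker : ∃ K' : Subgroup (Subgroup.centralizer ({x} : Set G)), K'.Normal ∧
    K'.index = 4 ∧ (∀ w : Subgroup.centralizer ({x} : Set G), (w : G) ∈ c.E → (w ∈ K' ↔ (w : G) ∈ Q)) ∧
    ∀ h : Subgroup.centralizer ({x} : Set G), ∃ e : Subgroup.centralizer ({x} : Set G),
      (e : G) ∈ c.E ∧ e * h ∈ K' := by
  classical
  haveI : Fact (Nat.Prime 2) := ⟨Nat.prime_two⟩
  set H := Subgroup.centralizer ({x} : Set G) with hH
  obtain ⟨S, hS⟩ := c.exists_sylow
  have memS : ∀ {w : H}, w ∈ (S : Subgroup H) ↔ (w : G) ∈ c.E := fun {w} => by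
    rw [hS, Subgroup.mem_subgroupOf]
  haveI hScomm : IsMulCommutative (S : Subgroup H) :=
    ⟨⟨fun a b => Subtype.ext (Subtype.ext (c.E_comm (memS.1 a.2) (memS.1 b.2)))⟩⟩
  letI : CommGroup (S : Subgroup H) :=
    { (inferInstance : Group (S : Subgroup H)) with mul_comm := fun a b => hScomm.is_comm.comm a b }
  let V' : Subgroup (S : Subgroup H) := Q.comap (H.subtype.comp (S : Subgroup H).subtype)
  let φ : (S : Subgroup H) →* (S : Subgroup H) ⧸ V' := QuotientGroup.mk' V'
  have hφ : ∀ a b : (S : Subgroup H), IsConj (a : H) (b : H) → φ a = φ b := by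
    intro a b hab
    obtain ⟨g, hg⟩ := isConj_iff.1 hab
    obtain ⟨n, hn, hne⟩ := S.conj_eq_normalizer_conj_of_mem (a : H) g⁻¹ a.2 (by
      rw [inv_inv, hg]; exact b.2)
    rw [inv_inv, hg] at hne
    refine QuotientGroup.eq.2 ?_
    show ((a : H) : G)⁻¹ * ((b : H) : G) ∈ Q
    rw [hne, inv_eq_of_mul_eq_one_right (c.E_sq (memS.1 a.2))]
    have hgN : ∀ w ∈ c.E, (n : G)⁻¹ * w * ((n : G)⁻¹)⁻¹ ∈ c.E := fun w hw => by
      have := (Subgroup.mem_normalizer_iff.1 (inv_mem hn) ⟨w, c.E_le hw⟩).1 (memS.2 hw)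
      exact memS.1 this
    have h1 := c.conj_mul_mem_Q hgN (Subgroup.mem_centralizer_singleton_iff.1 (n⁻¹).2) (memS.1 a.2)
    rw [inv_inv] at h1
    have hE : (n : G)⁻¹ * ((a : H) : G) * (n : G) ∈ c.E := by
      have := hgN _ (memS.1 a.2); rwa [inv_inv] at this
    rw [c.E_comm hE (memS.1 a.2)] at h1
    exact h1
  haveI : (S : Subgroup H).FiniteIndex := ⟨Subgroup.index_ne_zero_of_finite⟩
  let τ : H →* (S : Subgroup H) ⧸ V' := MonoidHom.transfer φ
  have hsq : ∀ q : (S : Subgroup H) ⧸ V', q * q = 1 := by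
    intro q
    induction q using QuotientGroup.induction_on with | _ a => ?_
    rw [← QuotientGroup.mk_mul, show a * a = 1 from Subtype.ext (Subtype.ext (c.E_sq (memS.1 a.2)))]
    rfl
  have hodd : Odd (S : Subgroup H).index := by
    rw [← Nat.not_even_iff_odd, even_iff_two_dvd]; exact S.not_dvd_index
  have hτ : ∀ a : (S : Subgroup H), τ (a : H) = φ a := by
    intro a
    letI := (S : Subgroup H).fintypeQuotientOfFiniteIndex
    have key : ∀ (k : ℕ) (g₀ : H) (hk : g₀⁻¹ * (a : H) ^ k * g₀ ∈ (S : Subgroup H)),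
        φ ⟨g₀⁻¹ * (a : H) ^ k * g₀, hk⟩ = φ a ^ k := by
      intro k g₀ hk
      rw [← map_pow]
      refine (hφ _ _ (isConj_iff.2 ⟨g₀, ?_⟩))
      show g₀ * (g₀⁻¹ * (a : H) ^ k * g₀) * g₀⁻¹ = ((a ^ k : (S : Subgroup H)) : H)
      push_cast; group
    show MonoidHom.transfer φ (a : H) = φ a
    rw [MonoidHom.transfer_eq_prod_quotient_orbitRel_zpowers_quot]
    simp only [key, Finset.prod_pow_eq_pow_sum, ← Subgroup.index_eq_sum_minimalPeriod]
    obtain ⟨m, hm⟩ := hodd
    rw [hm, pow_succ, pow_mul, pow_two, hsq, one_pow, one_mul]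
  have hτs : Function.Surjective τ := fun q => by
    induction q using QuotientGroup.induction_on with | _ a => exact ⟨a, hτ a⟩
  have hcardV : Nat.card V' = 4 := by
    have e : Nat.card V' = Nat.card {w : G // w ∈ c.E ∧ w ∈ Q} := Nat.card_congr
      { toFun := fun v => ⟨((v : (S : Subgroup H)) : H), memS.1 (v : (S : Subgroup H)).2, v.2⟩
        invFun := fun w => ⟨⟨⟨w, c.E_le w.2.1⟩, memS.2 w.2.1⟩, w.2.2⟩
        left_inv := fun _ => rfl
        right_inv := fun _ => rfl }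
    rw [e, c.card_E_inf_Q]
  have hcardS : Nat.card (S : Subgroup H) = 16 := by
    rw [hS, Nat.card_congr (Subgroup.subgroupOfEquivOfLe c.E_le).toEquiv, c.card_E]
  set K' := τ.ker with hK'
  have hidx : K'.index = 4 := by
    rw [hK', Subgroup.index_ker, MonoidHom.range_eq_top.2 hτs, Subgroup.card_top]
    have h := Subgroup.card_eq_card_quotient_mul_card_subgroup V'
    rw [hcardS, hcardV] at h
    omega
  have memK : ∀ {w : H}, (w : G) ∈ c.E → (w ∈ K' ↔ (w : G) ∈ Q) := by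
    intro w hw
    rw [hK', MonoidHom.mem_ker, show τ w = φ ⟨w, memS.2 hw⟩ from hτ ⟨w, memS.2 hw⟩]
    exact QuotientGroup.eq_one_iff _
  have hcover : ∀ h : H, ∃ e : H, (e : G) ∈ c.E ∧ e * h ∈ K' := by
    intro h
    obtain ⟨a, ha⟩ := QuotientGroup.mk_surjective (τ h)
    refine ⟨(a : H), memS.1 a.2, ?_⟩
    rw [hK', MonoidHom.mem_ker, map_mul, hτ, show φ a = τ h from ha, hsq]
  exact ⟨K', inferInstance, hidx, fun w hw => memK hw, hcover⟩

theorem exists_comp : ∃ K : Subgroup G, Comp c K := by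
  classical
  haveI : Fact (Nat.Prime 2) := ⟨Nat.prime_two⟩
  set H := Subgroup.centralizer ({x} : Set G) with hH
  obtain ⟨S, hS⟩ := c.exists_sylow
  have memS : ∀ {w : H}, w ∈ (S : Subgroup H) ↔ (w : G) ∈ c.E := fun {w} => by
    rw [hS, Subgroup.mem_subgroupOf]
  obtain ⟨K', hKn, hidx, memK', hcover⟩ := c.exists_transfer_ker
  have memK : ∀ {w : H}, (w : G) ∈ c.E → (w ∈ K' ↔ (w : G) ∈ Q) := fun {w} => memK' w
  have hcardS : Nat.card (S : Subgroup H) = 16 := by
    rw [hS, Nat.card_congr (Subgroup.subgroupOfEquivOfLe c.E_le).toEquiv, c.card_E]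
  -- the Sylow subgroup of `K'`
  let V₀ : Subgroup K' := (S : Subgroup H).subgroupOf K'
  have hV0card : Nat.card V₀ = 4 := by
    rw [← c.card_E_inf_Q]
    exact Nat.card_congr
      { toFun := fun v => ⟨(((v : K') : H) : G), memS.1 v.2, (memK (memS.1 v.2)).1 (v : K').2⟩
        invFun := fun w => ⟨⟨⟨w, c.E_le w.2.1⟩, (memK (w := ⟨w, c.E_le w.2.1⟩) w.2.1).2 w.2.2⟩,
          memS.2 w.2.1⟩
        left_inv := fun _ => rfl
        right_inv := fun _ => rfl }
  have hKm : Nat.card K' = 4 * (S : Subgroup H).index := by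
    have h1 := Subgroup.card_mul_index K'
    have h2 := Subgroup.card_mul_index (S : Subgroup H)
    rw [hidx] at h1
    rw [hcardS, ← h1] at h2
    omega
  have hV0idx : ¬ 2 ∣ V₀.index := by
    have h1 := Subgroup.card_mul_index V₀
    rw [hV0card, hKm] at h1
    rw [show V₀.index = (S : Subgroup H).index by omega]
    exact S.not_dvd_index
  let T : Sylow 2 K' :=
    (IsPGroup.of_card (n := 2) (by rw [hV0card]; norm_num) : IsPGroup 2 V₀).toSylow hV0idx
  have memT : ∀ {w : K'}, w ∈ (T : Subgroup K') ↔ ((w : H) : G) ∈ c.E := fun {w} => memS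
  have hTsq : ∀ w : (T : Subgroup K'), w * w = 1 := fun w =>
    Subtype.ext (Subtype.ext (Subtype.ext (c.E_sq (memT.1 w.2))))
  have hTz : ∀ w : K', w ∈ (T : Subgroup K') → w ≠ 1 → IsConj z ((w : H) : G) := fun w hw hw1 =>
    (c.conj_z_iff (memT.1 hw)).2 ⟨(memK (memT.1 hw)).1 w.2, fun e => hw1 (Subtype.ext (Subtype.ext e))⟩
  have hncyc : ¬ IsCyclic (T : Subgroup K') := by
    intro hc
    have h1 := hc.exponent_eq_card
    have h2 : Monoid.exponent (T : Subgroup K') ∣ 2 :=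
      Monoid.exponent_dvd_of_forall_pow_eq_one fun w => by rw [pow_two]; exact hTsq w
    rw [h1, show Nat.card (T : Subgroup K') = 4 from hV0card] at h2
    norm_num at h2
  have hnn : ¬ (T : Subgroup K').Normal := by
    intro hn
    refine c.false_of_normal fun h hh u hu huz => ?_
    obtain ⟨e, he, hk⟩ := hcover ⟨h, hh⟩
    have huK : (⟨u, c.E_le hu⟩ : H) ∈ K' := (memK (w := ⟨u, c.E_le hu⟩) hu).2 ((c.conj_z_iff hu).1 huz).1
    have h1 := memT.1 (hn.conj_mem ⟨_, huK⟩ (memT.2 hu) ⟨_, hk⟩)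
    have h1' : (e : G) * h * u * ((e : G) * h)⁻¹ ∈ c.E := h1
    have h2 : h * u * h⁻¹ = (e : G)⁻¹ * ((e : G) * h * u * ((e : G) * h)⁻¹) * e := by group
    rw [h2]
    exact mul_mem (mul_mem (inv_mem he) h1') he
  have hcent : ∀ t : K', orderOf t = 2 →
      IsMulCommutative (Subgroup.centralizer ({t} : Set K')) ∧
        ∀ w ∈ Subgroup.centralizer ({t} : Set K'), w ^ 2 = 1 := by
    intro t ht
    have htp : IsPGroup 2 (Subgroup.zpowers t) :=
      IsPGroup.of_card (n := 1) (by rw [Nat.card_zpowers, ht, pow_one])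
    obtain ⟨T₂, hT₂⟩ := htp.exists_le_sylow
    obtain ⟨g, hg⟩ := MulAction.exists_smul_eq K' T₂ T
    have hgt : g * t * g⁻¹ ∈ (T : Subgroup K') := by
      rw [← hg, Sylow.coe_subgroup_smul, Subgroup.mem_pointwise_smul_iff_inv_smul_mem]
      simpa [MulAut.smul_def, MulAut.conj_apply, mul_assoc] using hT₂ (Subgroup.mem_zpowers t)
    have hne : g * t * g⁻¹ ≠ 1 := fun e => by
      rw [conj_eq_one_iff.1 e, orderOf_one] at ht; norm_num at ht
    have huz := hTz _ hgt hne
    have hle : ∀ w ∈ Subgroup.centralizer ({t} : Set K'), g * w * g⁻¹ ∈ (T : Subgroup K') := by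
      intro w hw
      refine memT.2 ?_
      rw [← c.inf_centralizer_eq (memT.1 hgt) huz]
      refine ⟨Subgroup.mem_centralizer_singleton_iff.2 ?_, ((g * w * g⁻¹ : K') : H).2⟩
      have h := Subgroup.mem_centralizer_singleton_iff.1 hw
      have h' : g * w * g⁻¹ * (g * t * g⁻¹) = g * t * g⁻¹ * (g * w * g⁻¹) :=
        (commute_conj_iff.2 h : Commute _ _)
      exact congrArg (fun q : K' => ((q : H) : G)) h'
    refine ⟨⟨⟨fun a b => Subtype.ext ?_⟩⟩, fun w hw => ?_⟩
    · have e : Commute (g * (a : K') * g⁻¹) (g * (b : K') * g⁻¹) :=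
        Subtype.ext (Subtype.ext (c.E_comm (memT.1 (hle _ a.2)) (memT.1 (hle _ b.2))))
      exact commute_conj_iff.1 e
    · have e : (g * w * g⁻¹) * (g * w * g⁻¹) = 1 := congrArg Subtype.val (hTsq ⟨_, hle w hw⟩)
      rw [pow_two]
      calc w * w = g⁻¹ * (g * w * g⁻¹ * (g * w * g⁻¹)) * g := by group
        _ = 1 := by rw [e]; group
  have hyp : TwoFusion.BSW.Hyp T := ⟨hncyc, hnn, hcent⟩
  obtain ⟨a, ha⟩ := TwoFusion.BSW.exists_not_mem hyp
  have hTc : Nat.card (T : Subgroup K') = 4 := hV0card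
  have hN12 : Nat.card (TwoFusion.BSW.nT T) = 12 := by
    rw [TwoFusion.BSW.card_nT hyp ha, hTc]
  have h5 : (TwoFusion.BSW.nT T).index = 5 := by
    have h1 := TwoFusion.BSW.card_outside hyp
    haveI : Fintype (K' ⧸ TwoFusion.BSW.nT T) := Fintype.ofFinite _
    have h2 : Nat.card {q : K' ⧸ TwoFusion.BSW.nT T // q ≠ QuotientGroup.mk 1} =
        Nat.card (K' ⧸ TwoFusion.BSW.nT T) - 1 := by
      rw [Nat.card_eq_fintype_card, Nat.card_eq_fintype_card, Fintype.card_subtype_compl,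
        Fintype.card_subtype_eq]
    rw [h2, hTc] at h1
    rw [Subgroup.index_eq_card]
    omega
  have h60 : Nat.card K' = 60 := by
    rw [← Subgroup.card_mul_index (TwoFusion.BSW.nT T), hN12, h5]
  refine ⟨K'.map H.subtype, Subgroup.map_subtype_le _, ?_, ?_, fun w hw => ?_, fun h hh => ?_, ?_⟩
  · rintro h hh _ ⟨k, hk, rfl⟩
    exact ⟨⟨h, hh⟩ * k * ⟨h, hh⟩⁻¹, (inferInstance : K'.Normal).conj_mem k hk _, rfl⟩
  · rw [Subgroup.card_map_of_injective H.subtype_injective, h60]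
  · constructor
    · rintro ⟨k, hk, rfl⟩
      exact (memK hw).1 hk
    · intro hwQ
      exact ⟨⟨w, c.E_le hw⟩, (memK (w := ⟨w, c.E_le hw⟩) hw).2 hwQ, rfl⟩
  · obtain ⟨e, he, hk⟩ := hcover ⟨h, hh⟩
    exact ⟨e, he, _, hk, rfl⟩
  · -- one class of involutions
    rintro _ ⟨u, hu, rfl⟩ hu2 hu1
    have hut : orderOf (⟨u, hu⟩ : K') = 2 := by
      refine orderOf_two (Subtype.ext (Subtype.ext hu2)) fun e => hu1 ?_
      exact congrArg (fun q : K' => ((q : H) : G)) e
    have htp : IsPGroup 2 (Subgroup.zpowers (⟨u, hu⟩ : K')) :=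
      IsPGroup.of_card (n := 1) (by rw [Nat.card_zpowers, hut, pow_one])
    obtain ⟨T₂, hT₂⟩ := htp.exists_le_sylow
    obtain ⟨g, hg⟩ := MulAction.exists_smul_eq K' T₂ T
    have hgt : g * ⟨u, hu⟩ * g⁻¹ ∈ (T : Subgroup K') := by
      rw [← hg, Sylow.coe_subgroup_smul, Subgroup.mem_pointwise_smul_iff_inv_smul_mem]
      simpa [MulAut.smul_def, MulAut.conj_apply, mul_assoc] using hT₂ (Subgroup.mem_zpowers _)
    -- an element of the normaliser moving all three
    obtain ⟨n, hnN, hnT⟩ : ∃ n ∈ TwoFusion.BSW.nT T, n ∉ (T : Subgroup K') := by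
      by_contra hcon
      push Not at hcon
      have := Subgroup.card_le_of_le (H := TwoFusion.BSW.nT T) (K := (T : Subgroup K')) hcon
      rw [hN12, hTc] at this
      omega
    have hmove : ∀ w ∈ (T : Subgroup K'), w ≠ 1 → n * w * n⁻¹ ≠ w := by
      intro w hw hw1 e
      apply hnT
      refine memT.2 ?_
      rw [← c.inf_centralizer_eq (memT.1 hw) (hTz w hw hw1)]
      exact ⟨Subgroup.mem_centralizer_singleton_iff.2
        (congrArg (fun q : K' => ((q : H) : G)) (mul_inv_eq_iff_eq_mul.1 e)), (n : H).2⟩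
    have hzH : z ∈ H := c.E_le c.z_mem_E
    let z₀ : K' := ⟨⟨z, hzH⟩, (memK (w := ⟨z, hzH⟩) c.z_mem_E).2 c.d.hyp.ci.mem⟩
    have hz0 : z₀ ∈ (T : Subgroup K') := memT.2 c.z_mem_E
    have hz01 : z₀ ≠ 1 := fun e => c.d.hyp.ci.ne_one (congrArg (fun q : K' => ((q : H) : G)) e)
    have hn' : ∀ w ∈ (T : Subgroup K'), n * w * n⁻¹ ∈ (T : Subgroup K') :=
      fun w hw => (Subgroup.mem_normalizer_iff.1 hnN w).1 hw
    let a₁ : K' := n * z₀ * n⁻¹
    let a₂ : K' := n * a₁ * n⁻¹
    have ha1 : a₁ ≠ 1 := fun e => hz01 (conj_eq_one_iff.1 e)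
    have ha2 : a₂ ≠ 1 := fun e => ha1 (conj_eq_one_iff.1 e)
    have ha1T : a₁ ∈ (T : Subgroup K') := hn' _ hz0
    have ha2T : a₂ ∈ (T : Subgroup K') := hn' _ ha1T
    have d1 : a₁ ≠ z₀ := hmove _ hz0 hz01
    have d2 : a₂ ≠ a₁ := hmove _ ha1T ha1
    have d3 : a₂ ≠ z₀ := by
      intro e
      -- the third non-trivial element would be fixed
      have hb : z₀ * a₁ ∈ (T : Subgroup K') := mul_mem hz0 ha1T
      refine hmove _ hb (fun e' => d1 ?_) ?_
      · have h := hTsq ⟨z₀, hz0⟩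
        have h' : z₀ * z₀ = 1 := congrArg Subtype.val h
        exact mul_left_cancel (e'.trans h'.symm)
      · calc n * (z₀ * a₁) * n⁻¹ = a₁ * a₂ := by simp only [a₁, a₂]; group
          _ = a₁ * z₀ := by rw [e]
          _ = z₀ * a₁ := Subtype.ext (Subtype.ext (c.E_comm (memT.1 ha1T) (memT.1 hz0)))
    have hall : ∀ w ∈ (T : Subgroup K'), w ≠ 1 → ∃ k : K', k * z₀ * k⁻¹ = w := by
      let ι : Fin 4 → (T : Subgroup K') := ![1, ⟨z₀, hz0⟩, ⟨a₁, ha1T⟩, ⟨a₂, ha2T⟩]
      have hinj : Function.Injective ι := by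
        intro i j h
        have h' := congrArg Subtype.val h
        fin_cases i <;> fin_cases j <;> first | rfl | (exfalso; simp [ι] at h'; first
          | exact hz01 h' | exact hz01 h'.symm | exact ha1 h' | exact ha1 h'.symm
          | exact ha2 h' | exact ha2 h'.symm | exact d1 h' | exact d1 h'.symm
          | exact d2 h' | exact d2 h'.symm | exact d3 h' | exact d3 h'.symm)
      have hb := hinj.bijective_of_nat_card_le (by rw [hTc, Nat.card_fin])
      intro w hw hw1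
      obtain ⟨i, hi⟩ := hb.2 ⟨w, hw⟩
      have hi' := congrArg Subtype.val hi
      fin_cases i <;> simp [ι] at hi'
      · exact absurd hi'.symm hw1
      · exact ⟨1, by rw [← hi']; group⟩
      · exact ⟨n, hi'⟩
      · refine ⟨n * n, ?_⟩
        rw [← hi']
        simp only [a₁, a₂]; group
    obtain ⟨k, hk⟩ := hall _ hgt (fun e => by
      rw [conj_eq_one_iff.1 e, orderOf_one] at hut; norm_num at hut)
    refine ⟨(((g⁻¹ * k : K') : H) : G), ⟨_, (g⁻¹ * k).2, rfl⟩, ?_⟩
    have e : g⁻¹ * k * z₀ * (g⁻¹ * k)⁻¹ = ⟨u, hu⟩ := by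
      calc g⁻¹ * k * z₀ * (g⁻¹ * k)⁻¹ = g⁻¹ * (k * z₀ * k⁻¹) * g := by group
        _ = _ := by rw [hk]; group
    exact congrArg (fun q : K' => ((q : H) : G)) e

theorem card_H {K : Subgroup G} (hK : Comp c K) :
    Nat.card (Subgroup.centralizer ({x} : Set G)) = 240 := by
  set H := Subgroup.centralizer ({x} : Set G) with hH
  have hn : (K.subgroupOf H).Normal := ⟨fun k hk h => hK.normal h h.2 k hk⟩
  let f : c.E →* H ⧸ K.subgroupOf H :=
    (QuotientGroup.mk' (K.subgroupOf H)).comp (Subgroup.inclusion c.E_le)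
  have hs : Function.Surjective f := by
    intro q
    induction q using QuotientGroup.induction_on with | _ h => ?_
    obtain ⟨e, he, hk⟩ := hK.cover h h.2
    refine ⟨⟨e, he⟩, QuotientGroup.eq.2 ?_⟩
    show e⁻¹ * (h : G) ∈ K
    rwa [inv_eq_of_mul_eq_one_right (c.E_sq he)]
  have hker : Nat.card f.ker = 4 := by
    obtain ⟨k, hk, hkz, hiff⟩ := c.exists_four
    classical
    have hset : ∀ w : c.E, w ∈ f.ker ↔ (w : G) ∈ ({1, z, p k, p k * z} : Finset G) := by
      intro w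
      rw [MonoidHom.mem_ker]
      show QuotientGroup.mk _ = 1 ↔ _
      rw [QuotientGroup.eq_one_iff]
      show (w : G) ∈ K ↔ _
      rw [hK.inf_E _ w.2]
      simp only [Finset.mem_insert, Finset.mem_singleton]
      by_cases hw1 : (w : G) = 1
      · simp [hw1, one_mem]
      · constructor
        · intro h; exact Or.inr ((hiff w).1 ⟨w.2, (c.conj_z_iff w.2).2 ⟨h, hw1⟩⟩)
        · intro h
          exact ((c.conj_z_iff w.2).1 ((hiff w).2 (h.resolve_left hw1)).2).1
    have hmem : ∀ w ∈ ({1, z, p k, p k * z} : Finset G), w ∈ c.E := by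
      simp [one_mem, c.z_mem_E, hk, hkz]
    rw [Nat.card_congr (Equiv.subtypeEquivRight hset),
      Nat.card_congr (Equiv.subtypeSubtypeEquivSubtype (fun {w} hw => hmem w hw)), Nat.card_eq_finsetCard]
    have n1 := c.d.ne_one k
    have n2 := c.d.ne_z k
    have n3 := c.d.hyp.ci.ne_one
    have n4 : p k * z ≠ 1 := fun e => n2 (by rw [eq_inv_of_mul_eq_one_left e, c.d.hyp.ci.inv_eq])
    have n5 : z ≠ p k * z := fun e => n1 (mul_eq_right.1 e.symm)
    have n6 : p k ≠ p k * z := fun e => n3 (mul_eq_left.1 e.symm)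
    simp [n1.symm, n2.symm, n3.symm, n4.symm, n5, n6]
  have h1 := Subgroup.card_mul_index f.ker
  rw [Subgroup.index_ker, MonoidHom.range_eq_top.2 hs, Subgroup.card_top, hker, c.card_E] at h1
  have h2 := Subgroup.card_eq_card_quotient_mul_card_subgroup (K.subgroupOf H)
  rw [Nat.card_congr (Subgroup.subgroupOfEquivOfLe hK.le).toEquiv, hK.card] at h2
  omega

theorem x_notMem {K : Subgroup G} (hK : Comp c K) : x ∉ K := fun h =>
  c.outer.2.2 ((hK.inf_E x c.x_mem_E).1 h)

theorem card_inv {K : Subgroup G} (hK : Comp c K) :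
    Nat.card {u : G // u ∈ K ∧ u * u = 1 ∧ u ≠ 1} = 15 ∧
    ∀ u ∈ K, u * u = 1 → u ≠ 1 →
      Nat.card (K ⊓ Subgroup.centralizer ({u} : Set G) : Subgroup G) = 4 ∧
      (∀ a ∈ K, ∀ b ∈ K, a * u = u * a → b * u = u * b → a * b = b * a) := by
  have hzK : z ∈ K := (hK.inf_E z c.z_mem_E).2 c.d.hyp.ci.mem
  have hCz : ∀ w : G, w ∈ K ⊓ Subgroup.centralizer ({z} : Set G) ↔ w ∈ K ∧ w ∈ c.E := by
    intro w
    rw [Subgroup.mem_inf, Subgroup.mem_centralizer_singleton_iff]
    exact ⟨fun h => ⟨h.1, c.mem_E.2 ⟨h.2, Subgroup.mem_centralizer_singleton_iff.1 (hK.le h.1)⟩⟩,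
      fun h => ⟨h.1, (c.mem_E.1 h.2).1⟩⟩
  have hz4 : Nat.card (K ⊓ Subgroup.centralizer ({z} : Set G) : Subgroup G) = 4 := by
    classical
    obtain ⟨k, hk, hkz, hiff⟩ := c.exists_four
    have hset : ∀ w : G, w ∈ K ⊓ Subgroup.centralizer ({z} : Set G) ↔ w ∈ ({1, z, p k, p k * z} : Finset G) := by
      intro w
      rw [hCz]
      simp only [Finset.mem_insert, Finset.mem_singleton]
      by_cases hw1 : w = 1
      · subst hw1; simp [one_mem]
      · constructor
        · intro h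
          exact Or.inr ((hiff w).1 ⟨h.2, (c.conj_z_iff h.2).2 ⟨(hK.inf_E w h.2).1 h.1, hw1⟩⟩)
        · intro h
          have h' := (hiff w).2 (h.resolve_left hw1)
          exact ⟨(hK.inf_E w h'.1).2 ((c.conj_z_iff h'.1).1 h'.2).1, h'.1⟩
    rw [Nat.card_congr (Equiv.subtypeEquivRight hset), Nat.card_eq_finsetCard]
    have n1 := c.d.ne_one k
    have n2 := c.d.ne_z k
    have n3 := c.d.hyp.ci.ne_one
    have n4 : p k * z ≠ 1 := fun e => n2 (by rw [eq_inv_of_mul_eq_one_left e, c.d.hyp.ci.inv_eq])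
    have n5 : z ≠ p k * z := fun e => n1 (mul_eq_right.1 e.symm)
    have n6 : p k ≠ p k * z := fun e => n3 (mul_eq_left.1 e.symm)
    simp [n1.symm, n2.symm, n3.symm, n4.symm, n5, n6]
  refine ⟨?_, fun u hu hu2 hu1 => ?_⟩
  · have h := Invol.card_isConj_mul (G := K) ⟨z, hzK⟩
    have e1 : Nat.card {w : K // IsConj (⟨z, hzK⟩ : K) w} = Nat.card {u : G // u ∈ K ∧ u * u = 1 ∧ u ≠ 1} := by
      refine Nat.card_congr (Equiv.ofBijective (fun w => ⟨(w.1 : G), w.1.2, ?_, ?_⟩) ⟨?_, ?_⟩)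
      · obtain ⟨a, ha⟩ := isConj_iff.1 w.2
        rw [← ha]
        show (a : G) * z * (a : G)⁻¹ * ((a : G) * z * (a : G)⁻¹) = 1
        calc (a : G) * z * (a : G)⁻¹ * ((a : G) * z * (a : G)⁻¹) = (a : G) * (z * z) * (a : G)⁻¹ := by group
          _ = 1 := by rw [c.d.hyp.ci.sq]; group
      · obtain ⟨a, ha⟩ := isConj_iff.1 w.2
        rw [← ha]
        exact fun e => c.d.hyp.ci.ne_one (conj_eq_one_iff.1 (show (a : G) * z * (a : G)⁻¹ = 1 from e))
      · intro a b hab
        exact Subtype.ext (Subtype.ext (congrArg Subtype.val hab :))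
      · rintro ⟨u, hu, hu2, hu1⟩
        obtain ⟨k, hk, hku⟩ := hK.conj_z u hu hu2 hu1
        exact ⟨⟨⟨u, hu⟩, isConj_iff.2 ⟨⟨k, hk⟩, Subtype.ext hku⟩⟩, rfl⟩
    have e2 : Nat.card (Subgroup.centralizer ({(⟨z, hzK⟩ : K)} : Set K)) = 4 := by
      rw [← hz4]
      exact Nat.card_congr
        { toFun := fun w => ⟨((w : K) : G), (w : K).2, Subgroup.mem_centralizer_singleton_iff.2
            (congrArg Subtype.val (Subgroup.mem_centralizer_singleton_iff.1 w.2))⟩
          invFun := fun w => ⟨⟨w, w.2.1⟩, Subgroup.mem_centralizer_singleton_iff.2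
            (Subtype.ext (Subgroup.mem_centralizer_singleton_iff.1 w.2.2))⟩
          left_inv := fun _ => rfl
          right_inv := fun _ => rfl }
    rw [e1, e2, hK.card] at h
    omega
  · obtain ⟨k, hk, rfl⟩ := hK.conj_z u hu hu2 hu1
    have hmap : K ⊓ Subgroup.centralizer ({k * z * k⁻¹} : Set G) =
        (K ⊓ Subgroup.centralizer ({z} : Set G)).map (MulAut.conj k).toMonoidHom := by
      ext w
      rw [Subgroup.mem_map_equiv]
      simp only [MulAut.conj_symm_apply, Subgroup.mem_inf, Subgroup.mem_centralizer_singleton_iff]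
      constructor
      · rintro ⟨h1, h2⟩
        refine ⟨mul_mem (mul_mem (inv_mem hk) h1) hk, commute_conj_iff (g := k).1 ?_⟩
        rwa [show k * (k⁻¹ * w * k) * k⁻¹ = w by group]
      · rintro ⟨h1, h2⟩
        refine ⟨?_, ?_⟩
        · have := mul_mem (mul_mem hk h1) (inv_mem hk)
          rwa [show k * (k⁻¹ * w * k) * k⁻¹ = w by group] at this
        · have := commute_conj_iff (g := k).2 h2
          rwa [show k * (k⁻¹ * w * k) * k⁻¹ = w by group] at this
    refine ⟨by rw [hmap, Subgroup.card_map_of_injective (MulAut.conj k).injective, hz4],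
      fun a ha b hb hau hbu => ?_⟩
    have key : ∀ w ∈ K, w * (k * z * k⁻¹) = k * z * k⁻¹ * w → k⁻¹ * w * k ∈ c.E := by
      intro w hw hwu
      refine ((hCz _).1 ⟨show k⁻¹ * w * k ∈ K from mul_mem (mul_mem (inv_mem hk) hw) hk, Subgroup.mem_centralizer_singleton_iff.2 ?_⟩).2
      exact commute_conj_iff (g := k).1 (by rwa [show k * (k⁻¹ * w * k) * k⁻¹ = w by group])
    have := commute_conj_iff (g := k).2 (c.E_comm (key a ha hau) (key b hb hbu))
    rwa [show k * (k⁻¹ * a * k) * k⁻¹ = a by group, show k * (k⁻¹ * b * k) * k⁻¹ = b by group] at this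

theorem pair_x_iff {K : Subgroup G} (hK : Comp c K) (u v : G) :
    (IsConj z u ∧ IsConj x v ∧ x ∈ Subgroup.zpowers (u * v)) ↔
      (u ∈ K ∧ u * u = 1 ∧ u ≠ 1) ∧ (x * v ∈ K ∧ (x * v) * (x * v) = 1 ∧ x * v ≠ 1) ∧
        (x * v = u ∨ ¬ Commute u (x * v)) := by
  set H := Subgroup.centralizer ({x} : Set G) with hH
  have hnorm : (K.subgroupOf H).Normal := ⟨fun k hk h => hK.normal h h.2 k hk⟩
  have hzK : ∀ u, IsConj z u → u * x = x * u → u ∈ K := by
    intro u hu hux
    have hu2 := sq_of_orderOf ((Invol.orderOf_eq_of_isConj hu).symm.trans c.d.hyp.ci.order_two)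
    obtain ⟨h, hh, he⟩ := c.conj_into_E hu2 hux
    have hQ := ((c.conj_z_iff he).1 (hu.trans (Invol.isConj_conj h u))).1
    have := hK.normal h⁻¹ (show h⁻¹ ∈ H from inv_mem (show h ∈ H from hh)) _ ((hK.inf_E _ he).2 hQ)
    simpa [mul_assoc] using this
  constructor
  · rintro ⟨hu, hv, hmem⟩
    have hu2 := sq_of_orderOf ((Invol.orderOf_eq_of_isConj hu).symm.trans c.d.hyp.ci.order_two)
    have hv2 := sq_of_orderOf ((Invol.orderOf_eq_of_isConj hv).symm.trans c.order_x)
    obtain ⟨hux, hvx⟩ := commute_of_pair hu2 hv2 c.outer.1 hmem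
    have hu1 : u ≠ 1 := fun e => c.d.hyp.ci.ne_one (isConj_one_left.1 (e ▸ hu))
    have huK := hzK u hu hux
    have huH : u ∈ H := hK.le huK
    have hvH : v ∈ H := Subgroup.mem_centralizer_singleton_iff.2 hvx
    have hxH : x ∈ H := c.E_le c.x_mem_E
    obtain ⟨n, hn⟩ := hmem
    let π := QuotientGroup.mk' (K.subgroupOf H)
    have e1 : (π ⟨u, huH⟩ * π ⟨v, hvH⟩) ^ n = π ⟨x, hxH⟩ := by
      rw [← map_mul, ← map_zpow]
      exact congrArg π (Subtype.ext hn)
    have hu0 : π ⟨u, huH⟩ = 1 := (QuotientGroup.eq_one_iff (N := K.subgroupOf H) _).2 huK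
    rw [hu0, one_mul] at e1
    have hv2' : π ⟨v, hvH⟩ * π ⟨v, hvH⟩ = 1 := by
      rw [← map_mul, show (⟨v, hvH⟩ * ⟨v, hvH⟩ : H) = 1 from Subtype.ext hv2, map_one]
    have hx0 : π ⟨x, hxH⟩ ≠ 1 := fun e => c.x_notMem hK ((QuotientGroup.eq_one_iff (N := K.subgroupOf H) _).1 e)
    have hbK : x * v ∈ K := by
      rcases Int.even_or_odd' n with ⟨m, rfl | rfl⟩
      · rw [zpow_mul, zpow_two, hv2', one_zpow] at e1
        exact absurd e1.symm hx0
      · rw [zpow_add_one, zpow_mul, zpow_two, hv2', one_zpow, one_mul] at e1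
        have : (π ⟨x, hxH⟩ * π ⟨v, hvH⟩) = 1 := by rw [← e1, hv2']
        rw [← map_mul] at this
        exact (QuotientGroup.eq_one_iff (N := K.subgroupOf H) _).1 this
    have hb2 : (x * v) * (x * v) = 1 := by
      rw [mul_assoc x v, ← mul_assoc v x v, hvx, mul_assoc x v v, hv2, mul_one, c.outer.1]
    have key : Commute u v → v = u * x := by
      intro hc
      have hsq : u * v * (u * v) = 1 := by
        rw [mul_assoc u v, ← mul_assoc v u v, ← hc.eq, mul_assoc u v v, hv2, mul_one, hu2]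
      rcases Int.even_or_odd' n with ⟨m, rfl | rfl⟩
      · exfalso
        apply c.x_ne_one
        rw [← hn]
        show (u * v) ^ (2 * m) = 1
        rw [zpow_mul, zpow_two, hsq, one_zpow]
      · rw [← hn]
        show v = u * (u * v) ^ (2 * m + 1)
        rw [zpow_add_one, zpow_mul, zpow_two, hsq, one_zpow, one_mul, ← mul_assoc, hu2, one_mul]
    have hxb : x * (x * v) = v := by rw [← mul_assoc, c.outer.1, one_mul]
    refine ⟨⟨huK, hu2, hu1⟩, ⟨hbK, hb2, fun e => hu1 ?_⟩, or_iff_not_imp_right.2 fun hc => ?_⟩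
    · have hvx' : v = x := by rw [← hxb, e, mul_one]
      subst hvx'
      exact mul_eq_right.1 (key hux).symm
    · have hc' : Commute u (x * v) := not_not.1 hc
      have hv' : v = u * x := key (by
        have := (show Commute u x from hux).mul_right hc'
        rwa [hxb] at this)
      rw [hv', ← mul_assoc, ← hux, mul_assoc, c.outer.1, mul_one]
  · rintro ⟨⟨huK, hu2, hu1⟩, ⟨hbK, hb2, hb1⟩, hcase⟩
    have hxb : x * (x * v) = v := by rw [← mul_assoc, c.outer.1, one_mul]
    have hux := Subgroup.mem_centralizer_singleton_iff.1 (hK.le huK)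
    have hbx := Subgroup.mem_centralizer_singleton_iff.1 (hK.le hbK)
    obtain ⟨k, -, hku⟩ := hK.conj_z u huK hu2 hu1
    have hvx : v * x = x * v := by
      rw [← hxb]
      calc x * (x * v) * x = x * ((x * v) * x) := by group
        _ = x * (x * (x * v)) := by rw [hbx]
    have hv2 : v * v = 1 := by
      rw [← hxb]
      calc x * (x * v) * (x * (x * v)) = x * ((x * v) * x) * (x * v) := by group
        _ = (x * x) * ((x * v) * (x * v)) := by rw [hbx]; group
        _ = 1 := by rw [c.outer.1, hb2, one_mul]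
    have hvK : v ∉ K := fun h => c.x_notMem hK (by
      have := mul_mem hbK (inv_mem h); simpa using this)
    have hv1 : v ≠ 1 := fun e => hvK (e ▸ one_mem K)
    refine ⟨isConj_iff.2 ⟨k, hku⟩,
      (c.isConj_x_iff (orderOf_two hv2 hv1)).2 fun h => hvK (hzK v h hvx), ?_⟩
    have huv : u * v = x * (u * (x * v)) := by
      calc u * v = u * (x * (x * v)) := by rw [hxb]
        _ = _ := by rw [← mul_assoc, hux, mul_assoc]
    rcases hcase with hb | hnc
    · refine ⟨1, ?_⟩
      show (u * v) ^ (1 : ℤ) = x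
      rw [zpow_one, huv, hb, hu2, mul_one]
    · refine ⟨(orderOf (u * (x * v)) : ℕ), ?_⟩
      show (u * v) ^ ((orderOf (u * (x * v)) : ℕ) : ℤ) = x
      rw [zpow_natCast, huv, Commute.mul_pow
        ((show Commute x u from hux.symm).mul_right (show Commute x (x * v) from hbx.symm)),
        pow_orderOf_eq_one, mul_one]
      have hodd : Odd (orderOf (u * (x * v))) := by
        rw [← Nat.not_even_iff_odd]
        intro he
        apply hnc
        have hr := Invol.pow_half_eq_two (orderOf_pos (u * (x * v))) he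
        set r := (u * (x * v)) ^ (orderOf (u * (x * v)) / 2)
        have hrz : r ∈ Subgroup.zpowers (u * (x * v)) := Subgroup.npow_mem_zpowers _ _
        obtain ⟨h1, h2⟩ := commute_of_pair hu2 hb2 (sq_of_orderOf hr) hrz
        exact ((c.card_inv hK).2 r (pow_mem (mul_mem huK hbK) _) (sq_of_orderOf hr)
          (fun e => by rw [e, orderOf_one] at hr; norm_num at hr)).2 u huK (x * v) hbK h1 h2
      obtain ⟨m, hm⟩ := hodd
      rw [hm, pow_succ, pow_mul, pow_two, c.outer.1, one_pow, one_mul]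

theorem card_pairs_x {K : Subgroup G} (hK : Comp c K) :
    Nat.card {q : G × G // IsConj z q.1 ∧ IsConj x q.2 ∧ x ∈ Subgroup.zpowers (q.1 * q.2)} = 195 := by
  classical
  haveI : Fintype G := Fintype.ofFinite G
  obtain ⟨h15, h4⟩ := c.card_inv hK
  let I := {u : G // u ∈ K ∧ u * u = 1 ∧ u ≠ 1}
  have e : Nat.card {q : G × G // IsConj z q.1 ∧ IsConj x q.2 ∧ x ∈ Subgroup.zpowers (q.1 * q.2)} =
      Nat.card (Σ u : I, {b : G // (b ∈ K ∧ b * b = 1 ∧ b ≠ 1) ∧ (b = u.1 ∨ ¬ Commute u.1 b)}) :=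
    Nat.card_congr
      { toFun := fun q => ⟨⟨q.1.1, ((c.pair_x_iff hK _ _).1 q.2).1⟩, x * q.1.2, ((c.pair_x_iff hK _ _).1 q.2).2⟩
        invFun := fun s => ⟨(s.1.1, x * s.2.1), (c.pair_x_iff hK _ _).2 ⟨s.1.2, by
          rw [← mul_assoc, c.outer.1, one_mul]; exact s.2.2⟩⟩
        left_inv := fun q => Subtype.ext (Prod.ext rfl (by
          show x * (x * q.1.2) = q.1.2
          rw [← mul_assoc, c.outer.1, one_mul]))
        right_inv := fun s => by
          obtain ⟨a, b, hb⟩ := s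
          refine Sigma.ext rfl (heq_of_eq (Subtype.ext ?_))
          show x * (x * b) = b
          rw [← mul_assoc, c.outer.1, one_mul] }
  have hfib : ∀ u : I,
      Nat.card {b : G // (b ∈ K ∧ b * b = 1 ∧ b ≠ 1) ∧ (b = u.1 ∨ ¬ Commute u.1 b)} = 13 := by
    rintro ⟨u, huK, hu2, hu1⟩
    obtain ⟨hc4, hcomm⟩ := h4 u huK hu2 hu1
    have hA : (Finset.univ.filter fun b : G => b ∈ K ∧ b * b = 1 ∧ b ≠ 1).card = 15 := by
      rw [← h15, Nat.card_eq_fintype_card, Fintype.card_subtype]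
    have hB : (Finset.univ.filter fun b : G => b ∈ K ∧ Commute b u).card = 4 := by
      rw [← hc4, Nat.card_eq_fintype_card, ← Fintype.card_subtype]
      exact Fintype.card_congr (Equiv.subtypeEquivRight fun b => by
        rw [Subgroup.mem_inf, Subgroup.mem_centralizer_singleton_iff]; rfl)
    have hsq : ∀ b ∈ K, Commute b u → b * b = 1 := by
      intro b hb hbu
      obtain ⟨k, hk, hku⟩ := hK.conj_z u huK hu2 hu1
      have hu' : u * x = x * u := Subgroup.mem_centralizer_singleton_iff.1 (hK.le huK)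
      have hkE : k⁻¹ * b * k ∈ c.E := by
        refine c.mem_E.2 ⟨commute_conj_iff (g := k).1 ?_,
          Subgroup.mem_centralizer_singleton_iff.1 (hK.le (mul_mem (mul_mem (inv_mem hk) hb) hk))⟩
        rw [show k * (k⁻¹ * b * k) * k⁻¹ = b by group, hku]
        exact hbu
      calc b * b = k * (k⁻¹ * b * k * (k⁻¹ * b * k)) * k⁻¹ := by group
        _ = 1 := by rw [c.E_sq hkE]; group
    rw [Nat.card_eq_fintype_card, Fintype.card_subtype]
    have hsub : ({1, u} : Finset G) ⊆ Finset.univ.filter fun b : G => b ∈ K ∧ Commute b u := by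
      simp [Finset.insert_subset_iff, one_mem, huK]
    have hdis : (Finset.univ.filter fun b : G => (b ∈ K ∧ b * b = 1 ∧ b ≠ 1) ∧ (b = u ∨ ¬ Commute u b)) =
        (Finset.univ.filter fun b : G => b ∈ K ∧ b * b = 1 ∧ b ≠ 1) \
          ((Finset.univ.filter fun b : G => b ∈ K ∧ Commute b u) \ {1, u}) := by
      ext b
      simp only [Finset.mem_filter, Finset.mem_univ, true_and, Finset.mem_sdiff, Finset.mem_insert,
        Finset.mem_singleton, not_or]
      constructor
      · rintro ⟨h1, h2⟩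
        exact ⟨h1, fun h3 => h2.elim h3.2.2 fun h => h h3.1.2.symm⟩
      · rintro ⟨h1, h2⟩
        refine ⟨h1, or_iff_not_imp_left.2 fun hbu hc => h2 ⟨⟨h1.1, hc.symm⟩, h1.2.2, hbu⟩⟩
    rw [hdis, Finset.card_sdiff_of_subset, hA, Finset.card_sdiff_of_subset hsub, hB,
      Finset.card_pair (Ne.symm hu1)]
    intro b
    simp only [Finset.mem_filter, Finset.mem_univ, true_and, Finset.mem_sdiff, Finset.mem_insert,
      Finset.mem_singleton, not_or]
    exact fun h => ⟨h.1.1, hsq b h.1.1 h.1.2, h.2.1⟩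
  haveI : Fintype I := Fintype.ofFinite I
  rw [e, Nat.card_sigma, Finset.sum_congr rfl (fun u _ => hfib u), Finset.sum_const, Finset.card_univ,
    ← Nat.card_eq_fintype_card, h15]
  rfl

theorem card_G : Nat.card G = 604800 := by
  obtain ⟨K, hK⟩ := c.exists_comp
  rw [c.order_eq, c.card_H hK, c.card_pairs_x hK]

end Cfg

end Cfsg.Agent.J2Type
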