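import Cfsg.Agent.J2Type.Config
import Cfsg.Agent.S0213

/-!
The Thompson order formula: the count at `z`, and a lower bound for the class of `z`.
-/

set_option autoImplicit false

namespace Cfsg.Agent.J2Type

open Cfsg Cfsg.Agent.LargeExtra

variable {G : Type*} [Group G] [Finite G]

theorem commute_of_pair {u v w : G} (hu : u * u = 1) (hv : v * v = 1) (hw : w * w = 1)
    (hmem : w ∈ Subgroup.zpowers (u * v)) : u * w = w * u ∧ v * w = w * v := by
  have hi : w⁻¹ = w := inv_eq_of_mul_eq_one_right hw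
  obtain ⟨n, rfl⟩ := hmem
  have hui : u⁻¹ = u := inv_eq_of_mul_eq_one_right hu
  have hvi : v⁻¹ = v := inv_eq_of_mul_eq_one_right hv
  have e1 : u * (u * v) * u⁻¹ = (u * v)⁻¹ := by
    rw [mul_inv_rev, hui, hvi, ← mul_assoc, hu, one_mul]
  have e2 : v * (u * v) * v⁻¹ = (u * v)⁻¹ := by
    rw [mul_inv_rev, hui, hvi, mul_assoc, mul_assoc, hv, mul_one]
  constructor
  · refine mul_inv_eq_iff_eq_mul.1 ?_
    rw [← conj_zpow, e1, inv_zpow, hi]
  · refine mul_inv_eq_iff_eq_mul.1 ?_
    rw [← conj_zpow, e2, inv_zpow, hi]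

namespace Cfg

variable {z : G} {Q : Subgroup G} {p : Fin 5 → G} {x : G} (c : Cfg z Q p x)
include c

theorem card_outer : Nat.card {v : G // Outer z Q v} = 120 := by
  set C := Subgroup.centralizer ({z} : Set G) with hC
  have h := Invol.card_isConj_mul (G := C) ⟨x, c.outer.mem⟩
  have e1 : Nat.card {u : C // IsConj (⟨x, c.outer.mem⟩ : C) u} = Nat.card {v : G // Outer z Q v} := by
    refine Nat.card_congr (Equiv.ofBijective (fun u => ⟨(u.1 : G), ?_⟩) ⟨?_, ?_⟩)
    · obtain ⟨a, ha⟩ := isConj_iff.1 u.2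
      rw [← ha]
      exact c.d.outer_conj_outer c.outer a.2
    · intro a b hab
      exact Subtype.ext (Subtype.ext (congrArg Subtype.val hab :))
    · rintro ⟨v, hv⟩
      obtain ⟨a, ha, hav⟩ := c.d.outer_conj c.outer hv
      exact ⟨⟨⟨v, hv.mem⟩, isConj_iff.2 ⟨⟨a, ha⟩, Subtype.ext hav⟩⟩, rfl⟩
  have e2 : Nat.card (Subgroup.centralizer ({(⟨x, c.outer.mem⟩ : C)} : Set C)) = 16 := by
    rw [← c.card_E]
    refine Nat.card_congr
      { toFun := fun w => ⟨((w : C) : G), c.mem_E.2 ⟨Hyp.mem_C.1 (w : C).2,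
          congrArg Subtype.val (Subgroup.mem_centralizer_singleton_iff.1 w.2)⟩⟩
        invFun := fun w => ⟨⟨w, Hyp.mem_C.2 (c.mem_E.1 w.2).1⟩,
          Subgroup.mem_centralizer_singleton_iff.2 (Subtype.ext (c.mem_E.1 w.2).2)⟩
        left_inv := fun _ => rfl
        right_inv := fun _ => rfl }
  rw [e1, e2, c.d.hyp.cardC] at h
  omega

theorem pair_z_iff (u v : G) :
    (IsConj z u ∧ IsConj x v ∧ z ∈ Subgroup.zpowers (u * v)) ↔
      Outer z Q v ∧ u ∈ Q ∧ u * u = 1 ∧ u ≠ 1 ∧ u ≠ z ∧ ¬ Commute u v := by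
  constructor
  · rintro ⟨hu, hv, hmem⟩
    have hu2 := sq_of_orderOf ((Invol.orderOf_eq_of_isConj hu).symm.trans c.d.hyp.ci.order_two)
    have hv2 := sq_of_orderOf ((Invol.orderOf_eq_of_isConj hv).symm.trans c.order_x)
    obtain ⟨huz, hvz⟩ := commute_of_pair hu2 hv2 c.d.hyp.ci.sq hmem
    have huQ := c.mem_Q_of_isConj hu huz
    have hvQ : v ∉ Q := fun h => c.not_conj ((c.d.isConj_z_of_mem h hv2 fun e =>
      c.x_ne_one (isConj_one_left.1 (e ▸ hv))).trans hv.symm)
    have hu1 : u ≠ 1 := fun e => c.d.hyp.ci.ne_one (isConj_one_left.1 (e ▸ hu))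
    have key : Commute u v → False := fun hc => by
      have hsq : u * v * (u * v) = 1 := by
        rw [mul_assoc u v, ← mul_assoc v u v, ← hc.eq, mul_assoc u v v, hv2, mul_one, hu2]
      obtain ⟨n, hn⟩ := hmem
      rcases Int.even_or_odd' n with ⟨m, rfl | rfl⟩
      · apply c.d.hyp.ci.ne_one
        rw [← hn]
        show (u * v) ^ (2 * m) = 1
        rw [zpow_mul, zpow_two, hsq, one_zpow]
      · apply hvQ
        have e : u * v = z := by
          rw [← hn]
          show u * v = (u * v) ^ (2 * m + 1)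
          rw [zpow_add_one, zpow_mul, zpow_two, hsq, one_zpow, one_mul]
        have : v = u * z := by rw [← e, ← mul_assoc, hu2, one_mul]
        exact this ▸ mul_mem huQ c.d.hyp.ci.mem
    refine ⟨⟨hv2, hvz, hvQ⟩, huQ, hu2, hu1, fun e => key ?_, key⟩
    subst e
    exact hvz.symm
  · rintro ⟨hv, hu, hu2, hu1, huz, hnc⟩
    refine ⟨c.d.isConj_z_of_mem hu hu2 hu1, c.isConj_x_of_outer hv, ?_⟩
    refine ⟨(2 : ℕ) * 2, ?_⟩
    show (u * v) ^ (((2 : ℕ) : ℤ) * 2) = z
    rw [zpow_mul, zpow_natCast, pow_two, zpow_two]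
    have hw : v * u * v ∈ Q := by
      have := c.d.hyp.conj_mem hv.mem hu
      rwa [hv.inv] at this
    have e : u * v * (u * v) = u * (v * u * v) := by simp only [mul_assoc]
    rw [e]
    refine (c.d.hyp.ci.sq_mem (mul_mem hu hw)).resolve_left fun h1 => hnc ?_
    obtain ⟨i, hi⟩ := c.d.involution_cases hu hu2 hu1 huz
    have hs := c.d.supp_eq_supp_of_cases hi
    have hne : supp p (u * (v * u * v)) = ∅ ∨ (supp p (u * (v * u * v))).card = 2 := by
      rw [c.d.supp_mul hu hw, c.d.supp_outer hv hu, hs, Finset.map_erase, Finset.map_univ_equiv]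
      have key : ∀ i j : Fin 5, symmDiff (Finset.univ.erase i) (Finset.univ.erase j) = ∅ ∨
          (symmDiff (Finset.univ.erase i) (Finset.univ.erase j)).card = 2 := by decide
      exact key _ _
    have hfix : supp p (u * (v * u * v)) = ∅ := hne.resolve_right ((c.d.sq_eq_one_iff (mul_mem hu hw)).1 h1)
    rw [c.d.supp_mul hu hw, c.d.supp_outer hv hu, ← Finset.bot_eq_empty, symmDiff_eq_bot] at hfix
    have hinv := c.d.inverts hv hu hfix.symm
    rw [inv_eq_of_mul_eq_one_right hu2] at hinv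
    show u * v = v * u
    calc u * v = (v * u * v) * v := by rw [hinv]
      _ = v * u := by rw [mul_assoc, hv.1, mul_one]

theorem card_pairs_z :
    Nat.card {q : G × G // IsConj z q.1 ∧ IsConj x q.2 ∧ z ∈ Subgroup.zpowers (q.1 * q.2)} = 960 := by
  classical
  haveI : Fintype G := Fintype.ofFinite G
  have e : Nat.card {q : G × G // IsConj z q.1 ∧ IsConj x q.2 ∧ z ∈ Subgroup.zpowers (q.1 * q.2)} =
      Nat.card (Σ v : {v : G // Outer z Q v},
        {u : G // u ∈ Q ∧ u * u = 1 ∧ u ≠ 1 ∧ u ≠ z ∧ ¬ Commute u v.1}) :=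
    Nat.card_congr
      { toFun := fun q => ⟨⟨q.1.2, ((c.pair_z_iff _ _).1 q.2).1⟩, q.1.1, ((c.pair_z_iff _ _).1 q.2).2⟩
        invFun := fun s => ⟨(s.2.1, s.1.1), (c.pair_z_iff _ _).2 ⟨s.1.2, s.2.2⟩⟩
        left_inv := fun _ => rfl
        right_inv := fun _ => rfl }
  have hfib : ∀ v : {v : G // Outer z Q v},
      Nat.card {u : G // u ∈ Q ∧ u * u = 1 ∧ u ≠ 1 ∧ u ≠ z ∧ ¬ Commute u v.1} = 8 := by
    rintro ⟨v, hv⟩
    obtain ⟨k, hk, hfix, hkv⟩ := c.d.fixed_in_Q hv
    let f : {i : Fin 5 // i ≠ k} × Bool →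
        {u : G // u ∈ Q ∧ u * u = 1 ∧ u ≠ 1 ∧ u ≠ z ∧ ¬ Commute u v} := fun q =>
      if q.2 then ⟨p q.1.1 * z, mul_mem (c.d.mem _) c.d.hyp.ci.mem, ?_, ?_, ?_, ?_⟩
      else ⟨p q.1.1, c.d.mem _, c.d.sq _, c.d.ne_one _, c.d.ne_z _, ?_⟩
    rotate_left
    · rw [← mul_assoc, mul_assoc (p q.1.1), ← c.d.hyp.ci.comm _ (c.d.mem _), ← mul_assoc, c.d.sq, one_mul,
        c.d.hyp.ci.sq]
    · intro h
      apply c.d.ne_z q.1.1
      rw [eq_inv_of_mul_eq_one_left h, c.d.hyp.ci.inv_eq]
    · intro h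
      exact c.d.ne_one q.1.1 (mul_eq_right.1 h)
    · intro h
      have hq : p q.1.1 * v = v * p q.1.1 := by
        have := h.mul_left (show Commute z v from hv.2.1.symm)
        rwa [mul_assoc, c.d.hyp.ci.sq, mul_one] at this
      rcases (hfix _ (c.d.mem _) hq).2 with r | r | r | r
      · exact c.d.ne_one _ r
      · exact c.d.ne_z _ r
      · exact q.1.2 (c.d.cases_unique (Or.inl rfl) (Or.inl r))
      · exact q.1.2 (c.d.cases_unique (Or.inl rfl) (Or.inr r))
    · intro h
      rcases (hfix _ (c.d.mem _) h.eq).2 with r | r | r | r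
      · exact c.d.ne_one _ r
      · exact c.d.ne_z _ r
      · exact q.1.2 (c.d.cases_unique (Or.inl rfl) (Or.inl r))
      · exact q.1.2 (c.d.cases_unique (Or.inl rfl) (Or.inr r))
    have hf : Function.Bijective f := by
      constructor
      · rintro ⟨⟨i, hi⟩, b⟩ ⟨⟨j, hj⟩, b'⟩ h
        have h' := congrArg Subtype.val h
        have hij : i = j := by
          cases b <;> cases b' <;> simp [f] at h'
          · exact c.d.cases_unique (Or.inl rfl) (Or.inl h')
          · exact c.d.cases_unique (Or.inl rfl) (Or.inr h')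
          · exact c.d.cases_unique (Or.inr h'.symm) (Or.inl rfl) |> fun e => e
          · exact c.d.cases_unique (Or.inl rfl) (Or.inl h')
        subst hij
        cases b <;> cases b' <;> simp [f, c.d.hyp.ci.ne_one] at h' <;> rfl
      · rintro ⟨u, hu, hu2, hu1, huz, hnc⟩
        obtain ⟨i, hi⟩ := c.d.involution_cases hu hu2 hu1 huz
        have hik : i ≠ k := by
          rintro rfl
          apply hnc
          rcases hi with rfl | rfl
          · exact hkv
          · exact (show Commute (p i) v from hkv).mul_left (show Commute z v from hv.2.1.symm)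
        rcases hi with rfl | rfl
        · exact ⟨(⟨i, hik⟩, false), by simp [f]⟩
        · exact ⟨(⟨i, hik⟩, true), by simp [f]⟩
    rw [← Nat.card_congr (Equiv.ofBijective f hf), Nat.card_prod, Nat.card_eq_fintype_card,
      Nat.card_eq_fintype_card, Fintype.card_bool, Fintype.card_subtype_compl, Fintype.card_fin,
      Fintype.card_subtype_eq]
  rw [e, Nat.card_sigma, Finset.sum_congr rfl (fun v _ => hfib v), Finset.sum_const, Finset.card_univ,
    ← Nat.card_eq_fintype_card, c.card_outer]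
  rfl

/-- The order formula. -/
theorem order_eq :
    Nat.card G = Nat.card (Subgroup.centralizer ({x} : Set G)) * 960 +
      1920 * Nat.card {q : G × G // IsConj z q.1 ∧ IsConj x q.2 ∧ x ∈ Subgroup.zpowers (q.1 * q.2)} := by
  rw [S0213.result z x c.d.hyp.ci.order_two c.order_x c.not_conj c.classes, c.card_pairs_z, c.d.hyp.cardC]

theorem exists_outside : ∃ y, IsConj z y ∧ y * z ≠ z * y := by
  by_contra hcon
  push Not at hcon
  obtain ⟨g, hg⟩ := isConj_iff.1 (c.d.p_conj_z 0).1
  have h01 : ¬ Commute (p 0) (p 1) := c.d.nc 0 1 (by decide)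
  apply h01
  have hy : IsConj z (g⁻¹ * p 1 * g) :=
    (c.d.p_conj_z 1).1.trans (isConj_iff.2 ⟨g⁻¹, by group⟩)
  have e := congrArg (fun w => g * w * g⁻¹) (hcon _ hy)
  show p 0 * p 1 = p 1 * p 0
  rw [← hg]
  calc g * z * g⁻¹ * p 1 = g * (z * (g⁻¹ * p 1 * g)) * g⁻¹ := by group
    _ = g * (g⁻¹ * p 1 * g * z) * g⁻¹ := e.symm
    _ = p 1 * (g * z * g⁻¹) := by group

/-- The class of `z` has at least 32 members. -/
theorem index_ge : 32 * 1920 ≤ Nat.card G := by
  classical
  obtain ⟨y, hy, hyz⟩ := c.exists_outside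
  set C := Subgroup.centralizer ({z} : Set G) with hC
  let X := {u : G // IsConj z u}
  have hX := Invol.card_isConj_mul z
  rw [c.d.hyp.cardC] at hX
  suffices h : 32 ≤ Nat.card X by
    rw [← hX]
    exact Nat.mul_le_mul_right _ h
  set D := C ⊓ Subgroup.centralizer ({y} : Set G) with hD
  -- the orbit of `y` under `C`
  have horb : Nat.card (C ⧸ D.subgroupOf C) ≤ Nat.card X := by
    refine Nat.card_le_card_of_injective
      (Quotient.lift (fun a : C => (⟨(a : G) * y * (a : G)⁻¹, hy.trans (Invol.isConj_conj _ _)⟩ : X)) ?_) ?_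
    · intro a b hab
      have hm : a⁻¹ * b ∈ D.subgroupOf C := QuotientGroup.leftRel_apply.1 hab
      have h2 : (a : G)⁻¹ * b * y = y * ((a : G)⁻¹ * b) := Subgroup.mem_centralizer_singleton_iff.1 hm.2
      apply Subtype.ext
      show (a : G) * y * (a : G)⁻¹ = (b : G) * y * (b : G)⁻¹
      calc (a : G) * y * (a : G)⁻¹ = (a : G) * (y * ((a : G)⁻¹ * b)) * (b : G)⁻¹ := by group
        _ = (a : G) * ((a : G)⁻¹ * b * y) * (b : G)⁻¹ := by rw [h2]
        _ = _ := by group
    · intro a b hab
      induction a using QuotientGroup.induction_on with | _ a => ?_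
      induction b using QuotientGroup.induction_on with | _ b => ?_
      have h2 : (a : G) * y * (a : G)⁻¹ = (b : G) * y * (b : G)⁻¹ := congrArg Subtype.val hab
      refine QuotientGroup.eq.2 ?_
      rw [Subgroup.mem_subgroupOf]
      refine ⟨(a⁻¹ * b).2, Subgroup.mem_centralizer_singleton_iff.2 ?_⟩
      show (a : G)⁻¹ * b * y = y * ((a : G)⁻¹ * b)
      calc (a : G)⁻¹ * b * y = (a : G)⁻¹ * ((b : G) * y * (b : G)⁻¹) * b := by group
        _ = y * ((a : G)⁻¹ * b) := by rw [← h2]; group
  have hcard : Nat.card D ≤ 60 := by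
    let f : D →* Equiv.Perm (Fin 5) := c.d.act.comp (Subgroup.inclusion inf_le_left)
    have hK : ∀ w : D, f w = 1 ↔ (w : G) ∈ Q := fun w => c.d.mem_ker_iff _
    have hmk := Subgroup.card_mul_index f.ker
    rw [Subgroup.index_ker] at hmk
    have hzD : z ∉ D := fun h => hyz (Subgroup.mem_centralizer_singleton_iff.1 h.2).symm
    have hK2 : ∀ w ∈ D, w ∈ Q → w ≠ 1 → w * w = 1 ∧ w ≠ z := fun w hw hwQ hw1 =>
      ⟨(c.d.hyp.ci.sq_mem hwQ).resolve_right fun e => hzD (e ▸ mul_mem hw hw), fun e => hzD (e ▸ hw)⟩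
    have hr60 : Nat.card f.range ≤ 60 := by
      rw [← c.d.card_range]
      exact Subgroup.card_le_of_le (by rintro _ ⟨w, rfl⟩; exact ⟨_, rfl⟩)
    by_cases hKb : f.ker = ⊥
    · rw [hKb, Subgroup.card_bot, one_mul] at hmk
      omega
    · obtain ⟨⟨a, haD⟩, hak, ha1⟩ := (Subgroup.ne_bot_iff_exists_ne_one.1 hKb) |> fun ⟨w, hw⟩ =>
        (⟨w.1, w.2, fun e => hw (Subtype.ext e)⟩ : ∃ w : D, w ∈ f.ker ∧ w ≠ 1)
      have haQ : a ∈ Q := (hK ⟨a, haD⟩).1 hak
      have ha1' : a ≠ 1 := fun e => ha1 (Subtype.ext e)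
      obtain ⟨i, hi⟩ := c.d.involution_cases haQ (hK2 a haD haQ ha1').1 ha1' (hK2 a haD haQ ha1').2
      have huniq : ∀ w ∈ D, w ∈ Q → w ≠ 1 → w = a := by
        intro w hw hwQ hw1
        obtain ⟨j, hj⟩ := c.d.involution_cases hwQ (hK2 w hw hwQ hw1).1 hw1 (hK2 w hw hwQ hw1).2
        by_cases hji : j = i
        · subst hji
          rcases c.d.eq_of_supp_eq haQ hwQ ((c.d.supp_eq_supp_of_cases hi).trans
            (c.d.supp_eq_supp_of_cases hj).symm) with e | e
          · exact e
          · exfalso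
            apply hzD
            have : z = a⁻¹ * w := by rw [e, inv_mul_cancel_left]
            exact this ▸ mul_mem (inv_mem haD) hw
        · exfalso
          apply hzD
          have hnc : ¬ Commute a w := by
            intro hcm
            apply c.d.nc i j (Ne.symm hji)
            have hz : ∀ q ∈ Q, Commute z q := fun q hq => (c.d.hyp.ci.comm q hq).symm
            have hb : ∀ b, (a = b ∨ a = b * z) → b ∈ Q → Commute b w := by
              intro b hb hbQ
              rcases hb with rfl | rfl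
              · exact hcm
              · have := hcm.mul_left (hz _ hwQ)
                rwa [mul_assoc, c.d.hyp.ci.sq, mul_one] at this
            have h1 := (hb _ hi (c.d.mem i)).symm
            rcases hj with rfl | rfl
            · exact h1.symm
            · have := h1.mul_left (hz _ (c.d.mem i))
              rw [mul_assoc, c.d.hyp.ci.sq, mul_one] at this
              exact this.symm
          rcases c.d.hyp.ci.comm_mem haQ hwQ with e | e
          · exact absurd (mul_inv_eq_iff_eq_mul.1 (mul_inv_eq_one.1 e)) hnc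
          · exact e ▸ mul_mem (mul_mem (mul_mem haD hw) (inv_mem haD)) (inv_mem hw)
      have hker : Nat.card f.ker ≤ 2 := by
        rw [← Nat.card_fin 2]
        refine Nat.card_le_card_of_surjective
          ![(1 : f.ker), (⟨⟨a, haD⟩, hak⟩ : f.ker)] ?_
        rintro ⟨⟨w, hw⟩, hwk⟩
        by_cases hw1 : w = 1
        · exact ⟨0, Subtype.ext (Subtype.ext hw1.symm)⟩
        · exact ⟨1, Subtype.ext (Subtype.ext (huniq w hw ((hK ⟨w, hw⟩).1 hwk) hw1).symm)⟩
      have hr12 : Nat.card f.range ≤ 12 := by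
        rw [← Fin5.stabilizer_card i, ← Nat.card_eq_finsetCard]
        refine Nat.card_le_card_of_injective (fun s => ⟨s.1, ?_⟩) (fun s t h => Subtype.ext (congrArg Subtype.val h :))
        obtain ⟨w, hw⟩ := s.2
        rw [Finset.mem_filter, ← hw]
        refine ⟨Finset.mem_univ _, c.d.sign_act _, ?_⟩
        have hwa : (w : G) * a * (w : G)⁻¹ = a := by
          refine huniq _ (mul_mem (mul_mem w.2 haD) (inv_mem w.2)) (c.d.hyp.conj_mem w.2.1 haQ) ?_
          exact fun e => ha1' (conj_eq_one_iff.1 e)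
        refine c.d.cases_unique (x := a) ?_ hi
        have hs := c.d.act_spec ⟨(w : G), w.2.1⟩ i
        have hwz : (w : G) * z * (w : G)⁻¹ = z := mul_inv_eq_iff_eq_mul.2 (Hyp.mem_C.1 w.2.1)
        rcases hi with e | e
        · rw [e] at hwa
          show a = p (f w i) ∨ a = p (f w i) * z
          rw [e]
          conv_lhs => lhs; rw [← hwa]
          conv_rhs => lhs; rw [← hwa]
          exact hs
        · have hwp : (w : G) * p i * (w : G)⁻¹ = p i := by
            rw [e] at hwa
            have : (w : G) * p i * (w : G)⁻¹ * z = p i * z := by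
              calc (w : G) * p i * (w : G)⁻¹ * z = (w : G) * p i * (w : G)⁻¹ * ((w : G) * z * (w : G)⁻¹) := by
                    rw [hwz]
                _ = (w : G) * (p i * z) * (w : G)⁻¹ := by group
                _ = p i * z := hwa
            exact mul_right_cancel this
          have hs' : p i = p (f w i) ∨ p i = p (f w i) * z := by
            conv_lhs => lhs; rw [← hwp]
            conv_rhs => lhs; rw [← hwp]
            exact hs
          rw [e]
          rcases hs' with h' | h'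
          · exact Or.inr (congrArg (· * z) h')
          · exact Or.inl (by rw [h', mul_assoc, c.d.hyp.ci.sq, mul_one])
      calc Nat.card D = Nat.card f.ker * Nat.card f.range := hmk.symm
        _ ≤ 2 * 12 := Nat.mul_le_mul hker hr12
        _ ≤ 60 := by norm_num
  have hidx := Subgroup.card_mul_index (D.subgroupOf C)
  rw [Nat.card_congr (Subgroup.subgroupOfEquivOfLe (inf_le_left : D ≤ C)).toEquiv, c.d.hyp.cardC,
    Subgroup.index_eq_card] at hidx
  nlinarith

end Cfg

end Cfsg.Agent.J2Type
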