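import Cfsg.Agent.J2Type.Order
import Cfsg.Agent.Primitive.Basic
import Mathlib.GroupTheory.FixedPointFree
import Mathlib.GroupTheory.NoncommCoprod
import Mathlib.GroupTheory.SpecificGroups.KleinFour
import Mathlib.GroupTheory.Subgroup.Simple
import Mathlib.GroupTheory.SpecificGroups.Alternating.Simple

/-!
The centraliser of the second class as a product of a four group and the alternating group of degree 5,
and the normaliser of that four group.
-/

set_option autoImplicit false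

namespace Cfsg.Agent.J2Type

open Cfsg Cfsg.Agent.LargeExtra

set_option synthInstance.maxSize 4000 in
set_option synthInstance.maxHeartbeats 400000 in
theorem four_centralizer : ∀ a : Equiv.Perm (Fin 5), a * a = 1 → a ≠ 1 → Equiv.Perm.sign a = 1 →
    ∀ b : Equiv.Perm (Fin 5), b * b = 1 → b ≠ 1 → Equiv.Perm.sign b = 1 → a * b = b * a → a ≠ b →
    ∀ g : Equiv.Perm (Fin 5), g * a = a * g → g * b = b * g → g = 1 ∨ g = a ∨ g = b ∨ g = a * b := by
  decide +kernel

theorem exists_fin_hom {A : Type*} [Group A] [Finite A] (M : Subgroup A) {n : ℕ} (h : M.index = n) :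
    ∃ f : A →* Equiv.Perm (Fin n), f.ker = M.normalCore := by
  let e : (A ⧸ M) ≃ Fin n := Finite.equivFinOfCardEq (by rw [← Subgroup.index_eq_card, h])
  refine ⟨e.permCongrHom.toMonoidHom.comp (MulAction.toPermHom A (A ⧸ M)), ?_⟩
  rw [Subgroup.normalCore_eq_ker]
  ext a
  simp [MonoidHom.mem_ker]

theorem range_alternating {A : Type*} [Group A] [Finite A] {n : ℕ} (f : A →* Equiv.Perm (Fin n))
    (hf : Function.Injective f) (hcard : 2 * Nat.card A = n.factorial) :
    f.range = alternatingGroup (Fin n) ∧ Nonempty (A ≃* alternatingGroup (Fin n)) := by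
  have hr : Nat.card f.range = Nat.card A := Nat.card_congr (MonoidHom.ofInjective hf).symm.toEquiv
  have h := Subgroup.card_mul_index f.range
  rw [hr, Nat.card_perm, Nat.card_fin, ← hcard, mul_comm 2 (Nat.card A)] at h
  have h2 : f.range.index = 2 := Nat.eq_of_mul_eq_mul_left Nat.card_pos h
  have he := Equiv.Perm.eq_alternatingGroup_of_index_eq_two h2
  exact ⟨he, ⟨(MonoidHom.ofInjective hf).trans (MulEquiv.subgroupCongr he)⟩⟩

variable {G : Type*} [Group G]

theorem prod_equiv [Finite G] {A B H : Subgroup G} (hA : A ≤ H) (hB : B ≤ H)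
    (hc : ∀ a ∈ A, ∀ b ∈ B, a * b = b * a) (hd : ∀ g ∈ A, g ∈ B → g = 1)
    (hcard : Nat.card H ≤ Nat.card A * Nat.card B) :
    Nonempty (H ≃* A × B) ∧ ∀ h ∈ H, ∃ a ∈ A, ∃ b ∈ B, h = a * b := by
  let f : A × B →* H := (Subgroup.inclusion hA).noncommCoprod (Subgroup.inclusion hB)
    fun a b => Subtype.ext (hc a a.2 b b.2)
  have hf : ∀ p : A × B, ((f p : H) : G) = p.1 * p.2 := fun p => rfl
  have hinj : Function.Injective f := by
    rw [injective_iff_map_eq_one]
    rintro ⟨a, b⟩ h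
    have h' : (a : G) * b = 1 := (hf (a, b)).symm.trans (congrArg Subtype.val h)
    have ha : (a : G) = 1 := hd a a.2 (by rw [eq_inv_of_mul_eq_one_left h']; exact inv_mem b.2)
    refine Prod.ext (Subtype.ext ha) (Subtype.ext ?_)
    rw [ha, one_mul] at h'
    exact h'
  have hbij : Function.Bijective f := hinj.bijective_of_nat_card_le (by rw [Nat.card_prod]; exact hcard)
  refine ⟨⟨(MulEquiv.ofBijective f hbij).symm⟩, fun h hh => ?_⟩
  obtain ⟨⟨a, b⟩, hab⟩ := hbij.2 ⟨h, hh⟩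
  exact ⟨a, a.2, b, b.2, (congrArg Subtype.val hab).symm.trans (hf _)⟩

theorem commute_of_disjoint {A B : Subgroup G} (hA : ∀ b ∈ B, ∀ a ∈ A, b * a * b⁻¹ ∈ A)
    (hB : ∀ a ∈ A, ∀ b ∈ B, a * b * a⁻¹ ∈ B) (hd : ∀ g ∈ A, g ∈ B → g = 1) :
    ∀ a ∈ A, ∀ b ∈ B, a * b = b * a := by
  intro a ha b hb
  have h1 : a * b * a⁻¹ * b⁻¹ ∈ B := mul_mem (hB a ha b hb) (inv_mem hb)
  have h2 : a * b * a⁻¹ * b⁻¹ ∈ A := by
    rw [show a * b * a⁻¹ * b⁻¹ = a * (b * a⁻¹ * b⁻¹) by group]
    exact mul_mem ha (hA b hb _ (inv_mem ha))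
  exact mul_inv_eq_iff_eq_mul.1 (mul_inv_eq_one.1 (hd _ h2 h1))

variable [Finite G]

theorem mem_normalizer_of_conj {V : Subgroup G} {g : G} (h : ∀ v ∈ V, g * v * g⁻¹ ∈ V) :
    g ∈ Subgroup.normalizer (V : Set G) :=
  Subgroup.mem_normalizer_fintype h

namespace Cfg

variable {z : G} {Q : Subgroup G} {p : Fin 5 → G} {x : G} (c : Cfg z Q p x)

/-- The four group `E ∩ Q`. -/
noncomputable def V : Subgroup G := c.E ⊓ Q

theorem card_V : Nat.card c.V = 4 := by
  rw [← c.card_E_inf_Q]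
  exact Nat.card_congr (Equiv.subtypeEquivRight fun w => Subgroup.mem_inf)

theorem z_mem_V : z ∈ c.V := ⟨c.z_mem_E, c.d.hyp.ci.mem⟩

variable {K : Subgroup G}

theorem V_le (hK : Comp c K) : c.V ≤ K := fun w hw => (hK.inf_E w hw.1).2 hw.2

theorem V_sq {v : G} (hv : v ∈ c.V) : v * v = 1 := c.E_sq hv.1

theorem z_eq_inf (hK : Comp c K) : K ⊓ Subgroup.centralizer ({z} : Set G) = c.V := by
  refine le_antisymm (fun w hw => ?_) fun w hw => ⟨c.V_le hK hw, Subgroup.mem_centralizer_singleton_iff.2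
    (c.mem_E.1 hw.1).1⟩
  have hE : w ∈ c.E := c.mem_E.2 ⟨Subgroup.mem_centralizer_singleton_iff.1 hw.2,
    Subgroup.mem_centralizer_singleton_iff.1 (hK.le hw.1)⟩
  exact ⟨hE, (hK.inf_E w hE).1 hw.1⟩

theorem V_eq_inf (hK : Comp c K) {u : G} (hu : u ∈ c.V) (hu1 : u ≠ 1) :
    K ⊓ Subgroup.centralizer ({u} : Set G) = c.V := by
  refine (Subgroup.eq_of_le_of_card_ge (H := c.V) (K := K ⊓ Subgroup.centralizer ({u} : Set G)) (fun w hw => ⟨c.V_le hK hw, Subgroup.mem_centralizer_singleton_iff.2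
    (c.E_comm hw.1 hu.1)⟩) ?_).symm
  rw [((c.card_inv hK).2 u (c.V_le hK hu) (c.V_sq hu) hu1).1, c.card_V]

theorem mapsV (hK : Comp c K) {g : G} (hg : ∀ k ∈ K, g * k * g⁻¹ ∈ K) (hu : g * z * g⁻¹ ∈ c.V) :
    g ∈ Subgroup.normalizer (c.V : Set G) := by
  refine mem_normalizer_of_conj fun v hv => ?_
  rw [← c.V_eq_inf hK hu fun e => c.d.hyp.ci.ne_one (conj_eq_one_iff.1 e)]
  exact ⟨hg v (c.V_le hK hv), Subgroup.mem_centralizer_singleton_iff.2
    (commute_conj_iff.2 (show Commute v z from c.E_comm hv.1 c.z_mem_E))⟩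

theorem card_K_inf_normalizer (hK : Comp c K) :
    Nat.card (K ⊓ Subgroup.normalizer (c.V : Set G) : Subgroup G) = 12 := by
  set N := K ⊓ Subgroup.normalizer (c.V : Set G) with hN
  have hzN : z ∈ N := ⟨c.V_le hK c.z_mem_V, Subgroup.le_normalizer c.z_mem_V⟩
  have h := Invol.card_isConj_mul (G := N) ⟨z, hzN⟩
  have e1 : Nat.card {w : N // IsConj (⟨z, hzN⟩ : N) w} = Nat.card {u : c.V // u ≠ 1} := by
    refine Nat.card_congr (Equiv.ofBijective
      (fun w => (⟨⟨((w.1 : N) : G), ?_⟩, fun e => ?_⟩ : {u : c.V // u ≠ 1})) ⟨?_, ?_⟩)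
    · obtain ⟨a, ha⟩ := isConj_iff.1 w.2
      rw [← ha]
      exact (Subgroup.mem_normalizer_iff.1 a.2.2 z).1 c.z_mem_V
    · have : (w.1 : N) = 1 := Subtype.ext (congrArg (fun q : c.V => (q : G)) e :)
      obtain ⟨a, ha⟩ := isConj_iff.1 w.2
      have h1 : (a : G) * z * (a : G)⁻¹ = 1 := congrArg (fun q : N => (q : G)) (ha.trans this)
      exact c.d.hyp.ci.ne_one (conj_eq_one_iff.1 h1)
    · intro a b hab
      exact Subtype.ext (Subtype.ext (congrArg (fun u : {u : c.V // u ≠ 1} => ((u.1 : c.V) : G)) hab :))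
    · rintro ⟨⟨u, hu⟩, hu1⟩
      have hu1' : u ≠ 1 := fun e => hu1 (Subtype.ext e)
      obtain ⟨k, hk, hku⟩ := hK.conj_z u (c.V_le hK hu) (c.V_sq hu) hu1'
      have hkN : k ∈ N := ⟨hk, c.mapsV hK (fun q hq => mul_mem (mul_mem hk hq) (inv_mem hk)) (hku ▸ hu)⟩
      refine ⟨⟨⟨u, c.V_le hK hu, Subgroup.le_normalizer hu⟩,
        isConj_iff.2 ⟨⟨k, hkN⟩, Subtype.ext hku⟩⟩, rfl⟩
  have h3 : Nat.card {u : c.V // u ≠ 1} = 3 := by
    classical
    haveI : Fintype c.V := Fintype.ofFinite _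
    rw [Nat.card_eq_fintype_card, Fintype.card_subtype_compl, Fintype.card_subtype_eq,
      ← Nat.card_eq_fintype_card, c.card_V]
  have e2 : Nat.card (Subgroup.centralizer ({(⟨z, hzN⟩ : N)} : Set N)) = 4 := by
    rw [← c.card_V]
    refine Nat.card_congr
      { toFun := fun w => ⟨((w : N) : G), ?_⟩
        invFun := fun v => ⟨⟨v, c.V_le hK v.2, Subgroup.le_normalizer v.2⟩,
          Subgroup.mem_centralizer_singleton_iff.2 (Subtype.ext (c.E_comm v.2.1 c.z_mem_E))⟩
        left_inv := fun _ => rfl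
        right_inv := fun _ => rfl }
    rw [← c.z_eq_inf hK]
    exact ⟨(w : N).2.1, Subgroup.mem_centralizer_singleton_iff.2
      (congrArg Subtype.val (Subgroup.mem_centralizer_singleton_iff.1 w.2))⟩
  rw [e1, e2, h3] at h
  omega

theorem normal_small (hK : Comp c K) {N : Subgroup G} (hNK : N ≤ K)
    (hn : ∀ k ∈ K, ∀ n ∈ N, k * n * k⁻¹ ∈ N) (hN : Nat.card N ≤ 12) : N = ⊥ := by
  classical
  have hno : ∀ n ∈ N, n * n = 1 → n = 1 := by
    intro n hn2 hsq
    by_contra hn1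
    obtain ⟨k, hk, hku⟩ := hK.conj_z n (hNK hn2) hsq hn1
    have hz : z ∈ N := by
      have := hn k⁻¹ (inv_mem hk) n hn2
      rwa [← hku, show k⁻¹ * (k * z * k⁻¹) * k⁻¹⁻¹ = z by group] at this
    have hle : Nat.card {u : G // u ∈ K ∧ u * u = 1 ∧ u ≠ 1} ≤ Nat.card N := by
      refine Nat.card_le_card_of_injective (fun u => ⟨u.1, ?_⟩) fun a b h => Subtype.ext (congrArg Subtype.val h :)
      obtain ⟨l, hl, hlu⟩ := hK.conj_z u.1 u.2.1 u.2.2.1 u.2.2.2
      rw [← hlu]
      exact hn l hl z hz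
    rw [(c.card_inv hK).1] at hle
    omega
  have hinv : ∀ v ∈ c.V, v ≠ 1 → ∀ n ∈ N, v * n * v = n⁻¹ := by
    intro v hv hv1
    have hvv := c.V_sq hv
    have hm : ∀ n ∈ N, v * n * v ∈ N := fun n h => by
      have := hn v (c.V_le hK hv) n h
      rwa [inv_eq_of_mul_eq_one_right hvv] at this
    let φ : N →* N := MonoidHom.mk' (fun n => ⟨v * n * v, hm n n.2⟩) fun a b => Subtype.ext <| by
      show v * ((a : G) * b) * v = v * a * v * (v * b * v)
      calc v * ((a : G) * b) * v = v * a * (v * v) * b * v := by rw [hvv]; group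
        _ = _ := by group
    have hfix : MonoidHom.FixedPointFree φ := by
      intro n hn'
      have e : v * (n : G) * v = n := congrArg Subtype.val hn'
      have hV : (n : G) ∈ c.V := by
        rw [← c.V_eq_inf hK hv hv1]
        refine ⟨hNK n.2, Subgroup.mem_centralizer_singleton_iff.2 ?_⟩
        calc (n : G) * v = v * n * v * v := by rw [e]
          _ = v * n := by rw [mul_assoc, hvv, mul_one]
      exact Subtype.ext (hno n n.2 (c.V_sq hV))
    have hinv2 : Function.Involutive φ := fun n => Subtype.ext <| by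
      show v * (v * (n : G) * v) * v = n
      calc v * (v * (n : G) * v) * v = (v * v) * n * (v * v) := by group
        _ = n := by rw [hvv, one_mul, mul_one]
    intro n h
    exact congrArg Subtype.val (congrFun (hfix.coe_eq_inv_of_involutive hinv2) ⟨n, h⟩)
  obtain ⟨k, hk, hkz, -⟩ := c.exists_four
  have hV1 : p k ∈ c.V := ⟨hk, c.d.mem k⟩
  have hw1 : z * p k ≠ 1 := fun e => c.d.ne_z k (by rw [eq_inv_of_mul_eq_one_right e, c.d.hyp.ci.inv_eq])
  refine (Subgroup.eq_bot_iff_forall _).2 fun n hn' => hno n hn' ?_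
  have h1 := hinv z c.z_mem_V c.d.hyp.ci.ne_one n hn'
  have h2 := hinv (p k) hV1 (c.d.ne_one k) n hn'
  have hcomm : Commute n (z * p k) := by
    have e : z * n * z = p k * n * p k := h1.trans h2.symm
    calc n * (z * p k) = z * (z * n * z) * p k := by
          rw [show z * (z * n * z) * p k = (z * z) * (n * (z * p k)) by group, c.d.hyp.ci.sq, one_mul]
      _ = z * (p k * n * p k) * p k := by rw [e]
      _ = z * p k * n * (p k * p k) := by group
      _ = z * p k * n := by rw [c.d.sq, mul_one]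
  have : n ∈ c.V := by
    rw [← c.V_eq_inf hK (mul_mem c.z_mem_V hV1) hw1]
    exact ⟨hNK hn', Subgroup.mem_centralizer_singleton_iff.2 hcomm⟩
  exact c.V_sq this

/-- Action on the five four groups of `K`. -/
theorem exists_act (hK : Comp c K) {A : Subgroup G} (hKA : K ≤ A)
    (hnorm : ∀ a ∈ A, ∀ k ∈ K, a * k * a⁻¹ ∈ K) :
    ∃ f : A →* Equiv.Perm (Fin 5),
      f.ker = ((A ⊓ Subgroup.normalizer (c.V : Set G)).subgroupOf A).normalCore ∧
      Function.Injective (f.comp (Subgroup.inclusion hKA)) ∧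
      (f.comp (Subgroup.inclusion hKA)).range = alternatingGroup (Fin 5) ∧
      Nonempty (K ≃* alternatingGroup (Fin 5)) := by
  set N := Subgroup.normalizer (c.V : Set G) with hN
  set M := (A ⊓ N).subgroupOf A with hM
  have hcov : ∀ a ∈ A, ∃ k ∈ K, k⁻¹ * a ∈ N := by
    intro a ha
    have hzK := c.V_le hK c.z_mem_V
    have h2 : a * z * a⁻¹ * (a * z * a⁻¹) = 1 := by
      calc a * z * a⁻¹ * (a * z * a⁻¹) = a * (z * z) * a⁻¹ := by group
        _ = 1 := by rw [c.d.hyp.ci.sq]; group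
    obtain ⟨k, hk, hku⟩ := hK.conj_z _ (hnorm a ha z hzK) h2
      fun e => c.d.hyp.ci.ne_one (conj_eq_one_iff.1 e)
    refine ⟨k, hk, c.mapsV hK (fun q hq => ?_) ?_⟩
    · have := mul_mem (mul_mem (inv_mem hk) (hnorm a ha q hq)) hk
      rwa [show k⁻¹ * a * q * (k⁻¹ * a)⁻¹ = k⁻¹ * (a * q * a⁻¹) * k by group]
    · rw [show k⁻¹ * a * z * (k⁻¹ * a)⁻¹ = k⁻¹ * (a * z * a⁻¹) * k by group, ← hku,
        show k⁻¹ * (k * z * k⁻¹) * k = z by group]
      exact c.z_mem_V
  have hidx : M.index = 5 := by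
    have h1 : ((K ⊓ N).subgroupOf K).index = 5 := by
      have h := Subgroup.card_mul_index ((K ⊓ N).subgroupOf K)
      rw [Nat.card_congr (Subgroup.subgroupOfEquivOfLe (inf_le_left : K ⊓ N ≤ K)).toEquiv,
        c.card_K_inf_normalizer hK, hK.card] at h
      omega
    rw [← h1, Subgroup.index_eq_card, Subgroup.index_eq_card]
    refine (Nat.card_congr (Equiv.ofBijective (Quotient.map' (Subgroup.inclusion hKA) ?_) ⟨?_, ?_⟩)).symm
    · intro a b hab
      rw [QuotientGroup.leftRel_apply] at hab ⊢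
      exact ⟨(Subgroup.inclusion hKA (a⁻¹ * b)).2, hab.2⟩
    · intro a b
      induction a using Quotient.inductionOn' with | _ a => ?_
      induction b using Quotient.inductionOn' with | _ b => ?_
      intro h
      have h' : ((Subgroup.inclusion hKA a)⁻¹ * Subgroup.inclusion hKA b : A) ∈ M := QuotientGroup.eq.1 h
      exact QuotientGroup.eq.2 ⟨(a⁻¹ * b).2, h'.2⟩
    · intro q
      induction q using Quotient.inductionOn' with | _ a => ?_
      obtain ⟨k, hk, hkN⟩ := hcov a a.2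
      exact ⟨QuotientGroup.mk ⟨k, hk⟩, QuotientGroup.eq.2 ⟨((⟨k, hKA hk⟩ : A)⁻¹ * a).2, hkN⟩⟩
  obtain ⟨f, hf⟩ := exists_fin_hom M hidx
  have hinj : Function.Injective (f.comp (Subgroup.inclusion hKA)) := by
    rw [← MonoidHom.ker_eq_bot_iff, ← Subgroup.map_eq_bot_iff_of_injective _ K.subtype_injective]
    refine c.normal_small hK (Subgroup.map_subtype_le _) ?_ ?_
    · rintro k hk _ ⟨n, hn, rfl⟩
      exact ⟨⟨k, hk⟩ * n * ⟨k, hk⟩⁻¹, (MonoidHom.normal_ker _).conj_mem n hn _, rfl⟩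
    · rw [← c.card_K_inf_normalizer hK]
      refine Subgroup.card_le_of_le ?_
      rintro _ ⟨n, hn, rfl⟩
      have h : Subgroup.inclusion hKA n ∈ M := Subgroup.normalCore_le M (hf ▸ hn)
      exact ⟨n.2, h.2⟩
  exact ⟨f, hf, hinj, range_alternating _ hinj (by rw [hK.card]; rfl)⟩

theorem equiv_alt (hK : Comp c K) : Nonempty (K ≃* alternatingGroup (Fin 5)) :=
  let ⟨_, _, _, _, e⟩ := c.exists_act hK le_rfl fun a ha _ hk => mul_mem (mul_mem ha hk) (inv_mem ha)
  e

theorem isSimple (hK : Comp c K) : IsSimpleGroup K := by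
  obtain ⟨e⟩ := c.equiv_alt hK
  haveI : IsSimpleGroup (alternatingGroup (Fin 5)) := alternatingGroup.isSimpleGroup (by simp)
  exact e.isSimpleGroup

theorem eq_one_of_central (hK : Comp c K) {k : G} (hk : k ∈ K) (h : ∀ a ∈ K, a * k = k * a) : k = 1 := by
  have hb := c.normal_small hK (N := K ⊓ Subgroup.centralizer (K : Set G)) inf_le_left ?_ ?_
  · exact (Subgroup.eq_bot_iff_forall _).1 hb k ⟨hk, fun a ha => h a ha⟩
  · intro a ha n hn
    have e : a * n * a⁻¹ = n := by rw [hn.2 a ha, mul_inv_cancel_right]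
    rw [e]; exact hn
  · refine le_trans (Subgroup.card_le_of_le (K := c.V) ?_) (by rw [c.card_V]; norm_num)
    intro n hn
    rw [← c.z_eq_inf hK]
    exact ⟨hn.1, Subgroup.mem_centralizer_singleton_iff.2 (hn.2 z (c.V_le hK c.z_mem_V)).symm⟩

/-- The four group centralising `K`. -/
structure Four (K W : Subgroup G) : Prop where
  le : W ≤ c.E
  card : Nat.card W = 4
  disj : ∀ g ∈ W, g ∈ K → g = 1
  comm : ∀ a ∈ W, ∀ b ∈ K, a * b = b * a
  normal : ∀ h ∈ Subgroup.centralizer ({x} : Set G), ∀ w ∈ W, h * w * h⁻¹ ∈ W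

theorem exists_W (hK : Comp c K) : ∃ W : Subgroup G, Four c K W := by
  set H := Subgroup.centralizer ({x} : Set G) with hH
  obtain ⟨f, -, hinj, hrange, -⟩ := c.exists_act hK hK.le hK.normal
  let W : Subgroup G := f.ker.map H.subtype
  have hWH : W ≤ H := Subgroup.map_subtype_le _
  have hnorm : ∀ h ∈ H, ∀ w ∈ W, h * w * h⁻¹ ∈ W := by
    rintro h hh _ ⟨w, hw, rfl⟩
    exact ⟨⟨h, hh⟩ * w * ⟨h, hh⟩⁻¹, (MonoidHom.normal_ker f).conj_mem w hw _, rfl⟩
  have hdisj : ∀ g ∈ W, g ∈ K → g = 1 := by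
    rintro _ ⟨w, hw, rfl⟩ hwK
    have e : (⟨(w : G), hwK⟩ : K) = 1 := hinj (by rw [map_one]; exact hw)
    exact congrArg Subtype.val e
  have hcomm := commute_of_disjoint (fun b hb => hnorm b (hK.le hb))
    (fun a ha => hK.normal a (hWH ha)) hdisj
  -- every element of `E` is in `V W`
  let F : K →* Equiv.Perm (Fin 5) := f.comp (Subgroup.inclusion hK.le)
  have hcov : ∀ e ∈ c.E, ∃ v ∈ c.V, v * e ∈ W := by
    intro e he
    obtain ⟨k, hk, hkz, -⟩ := c.exists_four
    let a : K := ⟨z, c.V_le hK c.z_mem_V⟩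
    let b : K := ⟨p k, c.V_le hK ⟨hk, c.d.mem k⟩⟩
    have hsign : ∀ g : K, Equiv.Perm.sign (F g) = 1 := fun g =>
      Equiv.Perm.mem_alternatingGroup.1 (hrange ▸ ⟨g, rfl⟩)
    have ha : a * a = 1 := Subtype.ext c.d.hyp.ci.sq
    have hb : b * b = 1 := Subtype.ext (c.d.sq k)
    have ha1 : F a ≠ 1 := fun h => c.d.hyp.ci.ne_one (congrArg Subtype.val (hinj (h.trans (map_one F).symm)) :)
    have hb1 : F b ≠ 1 := fun h => c.d.ne_one k (congrArg Subtype.val (hinj (h.trans (map_one F).symm)) :)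
    have hab : F a ≠ F b := fun h => c.d.ne_z k (congrArg Subtype.val (hinj h) :).symm
    have hcE : ∀ v : K, (v : G) ∈ c.E → f ⟨e, c.E_le he⟩ * F v = F v * f ⟨e, c.E_le he⟩ := by
      intro v hv
      show f ⟨e, c.E_le he⟩ * f (Subgroup.inclusion hK.le v) = f (Subgroup.inclusion hK.le v) * f ⟨e, c.E_le he⟩
      rw [← map_mul, ← map_mul]
      exact congrArg f (Subtype.ext (c.E_comm he hv))
    have key : ∀ v : K, v * v = 1 → (v : G) ∈ c.V → f ⟨e, c.E_le he⟩ = F v → ∃ v ∈ c.V, v * e ∈ W := by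
      intro v hv2 hvV hfe
      refine ⟨v, hvV, ⟨Subgroup.inclusion hK.le v * ⟨e, c.E_le he⟩, ?_, rfl⟩⟩
      show f (Subgroup.inclusion hK.le v * ⟨e, c.E_le he⟩) = 1
      rw [map_mul, hfe]
      show F v * F v = 1
      rw [← map_mul, hv2, map_one]
    rcases four_centralizer (F a) (by rw [← map_mul, ha, map_one]) ha1 (hsign a) (F b)
      (by rw [← map_mul, hb, map_one]) hb1 (hsign b)
      (by rw [← map_mul, ← map_mul]; exact congrArg F (Subtype.ext (c.E_comm c.z_mem_E hk)))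
      hab (f ⟨e, c.E_le he⟩) (hcE a c.z_mem_E) (hcE b hk) with h | h | h | h
    · exact key 1 (one_mul 1) (one_mem c.V) (h.trans (map_one F).symm)
    · exact key a ha c.z_mem_V h
    · exact key b hb ⟨hk, c.d.mem k⟩ h
    · exact key (a * b) (Subtype.ext (c.V_sq (mul_mem c.z_mem_V ⟨hk, c.d.mem k⟩)))
        (mul_mem c.z_mem_V ⟨hk, c.d.mem k⟩) (h.trans (map_mul F a b).symm)
  have hub : Nat.card W * Nat.card K ≤ Nat.card H := by
    rw [← Nat.card_prod]
    refine Nat.card_le_card_of_injective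
      (fun q : W × K => (⟨(q.1 : G) * q.2, mul_mem (hWH q.1.2) (hK.le q.2.2)⟩ : H)) ?_
    rintro ⟨a, b⟩ ⟨a', b'⟩ h
    have h' : (a : G) * b = a' * b' := congrArg Subtype.val h
    have e1 : ((a' : G))⁻¹ * a = b' * (b : G)⁻¹ := by
      calc ((a' : G))⁻¹ * a = (a' : G)⁻¹ * (a * b) * (b : G)⁻¹ := by group
        _ = _ := by rw [h']; group
    have e2 := hdisj _ (mul_mem (inv_mem a'.2) a.2) (e1 ▸ mul_mem b'.2 (inv_mem b.2))
    have ea : (a : G) = a' := (inv_mul_eq_one.1 e2).symm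
    refine Prod.ext (Subtype.ext ea) (Subtype.ext ?_)
    rw [ea] at h'
    exact mul_left_cancel h'
  rw [hK.card, c.card_H hK] at hub
  have hlb : 4 ≤ Nat.card (c.E ⊓ W : Subgroup G) := by
    choose v hv hvW using hcov
    have : Nat.card c.E ≤ Nat.card (c.V × (c.E ⊓ W : Subgroup G)) := Nat.card_le_card_of_injective
      (fun e : c.E => ((⟨v e e.2, hv e e.2⟩ : c.V),
        (⟨v e e.2 * e, mul_mem (hv e e.2).1 e.2, hvW e e.2⟩ : (c.E ⊓ W : Subgroup G)))) fun a b h => by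
          obtain ⟨h1, h2⟩ := Prod.mk.inj h
          have h1' : v a a.2 = v b b.2 := congrArg Subtype.val h1
          have h2' : v a a.2 * (a : G) = v b b.2 * b := congrArg Subtype.val h2
          rw [h1'] at h2'
          exact Subtype.ext (mul_left_cancel h2')
    rw [Nat.card_prod, c.card_E, c.card_V] at this
    omega
  have hWE : c.E ⊓ W = W := Subgroup.eq_of_le_of_card_ge inf_le_right (by omega)
  exact ⟨W, inf_eq_right.1 hWE, by rw [hWE] at hlb; omega,
    hdisj, hcomm, hnorm⟩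

end Cfg

end Cfsg.Agent.J2Type
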