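import Cfsg.Agent.J2Type.Second

/-!
The normaliser of the four group in the centraliser of the second class, and transport along conjugation.
-/

set_option autoImplicit false

namespace Cfsg.Agent.J2Type

open Cfsg Cfsg.Agent.LargeExtra
open scoped commutatorElement

variable {G : Type*} [Group G] [Finite G]

theorem nonempty_four_equiv {W : Subgroup G} (h4 : Nat.card W = 4) (h2 : ∀ w ∈ W, w * w = 1) :
    Nonempty (W ≃* Multiplicative (ZMod 2) × Multiplicative (ZMod 2)) := by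
  haveI : Nontrivial W := Finite.one_lt_card_iff_nontrivial.1 (by rw [h4]; norm_num)
  haveI : IsKleinFour W := ⟨h4, Monoid.exponent_eq_prime_iff (by norm_num : (2 : ℕ).Prime) |>.2
    fun g hg => orderOf_eq_prime (Subtype.ext (by rw [pow_two]; exact h2 g g.2)) hg⟩
  haveI : IsKleinFour (Multiplicative (ZMod 2) × Multiplicative (ZMod 2)) := ⟨by simp,
    Monoid.exponent_eq_prime_iff (by norm_num : (2 : ℕ).Prime) |>.2
      fun g hg => orderOf_eq_prime (by revert g; decide) hg⟩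
  exact IsKleinFour.nonempty_mulEquiv

namespace Cfg

variable {z : G} {Q : Subgroup G} {p : Fin 5 → G} {x : G} (c : Cfg z Q p x) {K W : Subgroup G}

theorem split (hK : Comp c K) (hW : Four c K W) :
    Nonempty (Subgroup.centralizer ({x} : Set G) ≃* W × K) ∧
      ∀ h ∈ Subgroup.centralizer ({x} : Set G), ∃ a ∈ W, ∃ b ∈ K, h = a * b :=
  prod_equiv (hW.le.trans c.E_le) hK.le hW.comm hW.disj
    (by rw [c.card_H hK, hW.card, hK.card])

theorem second_iso (hK : Comp c K) (hW : Four c K W) :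
    Nonempty (Subgroup.centralizer ({x} : Set G) ≃*
      (Multiplicative (ZMod 2) × Multiplicative (ZMod 2)) × alternatingGroup (Fin 5)) := by
  obtain ⟨e⟩ := (c.split hK hW).1
  obtain ⟨eK⟩ := c.equiv_alt hK
  obtain ⟨eW⟩ := nonempty_four_equiv hW.card fun w hw => c.E_sq (hW.le hw)
  exact ⟨e.trans (MulEquiv.prodCongr eW eK)⟩

theorem x_mem_W (hK : Comp c K) (hW : Four c K W) : x ∈ W := by
  obtain ⟨w, hw, k, hk, e⟩ := (c.split hK hW).2 x (c.E_le c.x_mem_E)
  have hk1 : k = 1 := c.eq_one_of_central hK hk fun a ha => by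
    have h1 : a * x = x * a := Subgroup.mem_centralizer_singleton_iff.1 (hK.le ha)
    rw [e] at h1
    have h2 : w * (a * k) = w * (k * a) := by
      rw [← mul_assoc, hW.comm w hw a ha, mul_assoc, h1, mul_assoc]
    exact mul_left_cancel h2
  rw [e, hk1, mul_one]; exact hw

theorem centralizer_of_mem_W (hK : Comp c K) (hW : Four c K W) {u : G} (hu : u ∈ W) (hu1 : u ≠ 1) :
    IsConj x u ∧ Subgroup.centralizer ({u} : Set G) = Subgroup.centralizer ({x} : Set G) := by
  have hE := hW.le hu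
  have hconj : IsConj x u := by
    refine (c.isConj_x_iff (orderOf_two (c.E_sq hE) hu1)).2 fun h => hu1 (hW.disj u hu ?_)
    exact (hK.inf_E u hE).2 ((c.conj_z_iff hE).1 h).1
  refine ⟨hconj, (Subgroup.eq_of_le_of_card_ge (fun h hh => ?_) (le_of_eq ?_)).symm⟩
  · obtain ⟨a, ha, b, hb, rfl⟩ := (c.split hK hW).2 h hh
    refine Subgroup.mem_centralizer_singleton_iff.2 ?_
    show Commute (a * b) u
    exact (show Commute a u from c.E_comm (hW.le ha) hE).mul_left (hW.comm u hu b hb).symm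
  · obtain ⟨g, hg⟩ := isConj_iff.1 hconj
    exact Nat.card_congr
      { toFun := fun w => ⟨g⁻¹ * w * g, Subgroup.mem_centralizer_singleton_iff.2 (by
          have h : (w : G) * (g * x * g⁻¹) = g * x * g⁻¹ * w := by
            rw [hg]; exact Subgroup.mem_centralizer_singleton_iff.1 w.2
          calc g⁻¹ * (w : G) * g * x = g⁻¹ * ((w : G) * (g * x * g⁻¹)) * g := by group
            _ = x * (g⁻¹ * w * g) := by rw [h]; group)⟩
        invFun := fun w => ⟨g * w * g⁻¹, Subgroup.mem_centralizer_singleton_iff.2 (by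
          rw [← hg]
          exact commute_conj_iff.2 (show Commute (w : G) x from Subgroup.mem_centralizer_singleton_iff.1 w.2))⟩
        left_inv := fun w => Subtype.ext (show g * (g⁻¹ * (w : G) * g) * g⁻¹ = w by group)
        right_inv := fun w => Subtype.ext (show g⁻¹ * (g * (w : G) * g⁻¹) * g = w by group) }

theorem two_normal_le (hK : Comp c K) (hW : Four c K W) {P : Subgroup G}
    (hPH : P ≤ Subgroup.centralizer ({x} : Set G)) (hP : IsPGroup 2 P)
    (hn : ∀ h ∈ Subgroup.centralizer ({x} : Set G), ∀ q ∈ P, h * q * h⁻¹ ∈ P) : P ≤ W := by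
  haveI : Fact (Nat.Prime 2) := ⟨Nat.prime_two⟩
  have hbot : P ⊓ K = ⊥ := by
    refine c.normal_small hK inf_le_right (fun k hk q hq =>
      ⟨hn k (hK.le hk) q hq.1, K.mul_mem (K.mul_mem hk hq.2) (K.inv_mem hk)⟩) ?_
    obtain ⟨n, hn'⟩ := IsPGroup.iff_card.1 (hP.to_le (inf_le_left : P ⊓ K ≤ P))
    have hd : 2 ^ n ∣ 60 := by
      rw [← hn', ← hK.card]; exact Subgroup.card_dvd_of_le inf_le_right
    rw [hn']
    rcases n with _ | _ | _ | n
    · norm_num
    · norm_num
    · norm_num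
    · exfalso
      have : 2 ^ 3 ∣ 60 := (pow_dvd_pow 2 (by omega)).trans hd
      norm_num at this
  have hdisj : ∀ g ∈ P, g ∈ K → g = 1 := fun g h1 h2 => (Subgroup.eq_bot_iff_forall _).1 hbot g ⟨h1, h2⟩
  have hc := commute_of_disjoint (fun b hb => hn b (hK.le hb)) (fun a ha => hK.normal a (hPH ha)) hdisj
  intro q hq
  obtain ⟨a, ha, b, hb, e⟩ := (c.split hK hW).2 q (hPH hq)
  have hb1 : b = 1 := c.eq_one_of_central hK hb fun k hk => by
    have h := hc q hq k hk
    rw [e] at h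
    have h2 : a * (b * k) = a * (k * b) := by
      rw [← mul_assoc, h, ← mul_assoc, ← mul_assoc, hW.comm a ha k hk]
    exact (mul_left_cancel h2).symm
  rw [e, hb1, mul_one]; exact ha

theorem pCore_eq (hK : Comp c K) (hW : Four c K W) :
    (Cfsg.pCore 2 ↥(Subgroup.centralizer ({x} : Set G))).map
      (Subgroup.centralizer ({x} : Set G)).subtype = W := by
  haveI : Fact (Nat.Prime 2) := ⟨Nat.prime_two⟩
  set H := Subgroup.centralizer ({x} : Set G)
  refine le_antisymm (c.two_normal_le hK hW (Subgroup.map_subtype_le _) (Primitive.map_pCore_isPGroup H) ?_) ?_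
  · intro h hh q hq
    exact (Subgroup.mem_normalizer_iff.1 (normalizes_pCore_map 2 hh) q).1 hq
  · intro w hw
    refine ⟨⟨w, c.E_le (hW.le hw)⟩, le_sSup (s := {N : Subgroup H | N.Normal ∧ IsPGroup 2 N})
      (a := W.subgroupOf H) ⟨⟨fun n hn a => hW.normal a a.2 n hn⟩, ?_⟩ hw, rfl⟩
    exact (IsPGroup.of_card (n := 2) (by rw [hW.card]; rfl) : IsPGroup 2 W).of_equiv
      (Subgroup.subgroupOfEquivOfLe (hW.le.trans c.E_le)).symm

theorem four_normalizer (hK : Comp c K) (hW : Four c K W) {g : G} (hg : g * x * g⁻¹ ∈ W) :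
    g ∈ Subgroup.normalizer (W : Set G) := by
  have hu1 : g * x * g⁻¹ ≠ 1 := fun e => c.x_ne_one (conj_eq_one_iff.1 e)
  obtain ⟨-, hC⟩ := c.centralizer_of_mem_W hK hW hg hu1
  have hH : ∀ h, h ∈ Subgroup.centralizer ({x} : Set G) ↔ g * h * g⁻¹ ∈ Subgroup.centralizer ({x} : Set G) := by
    intro h
    conv_rhs => rw [← hC]
    rw [Subgroup.mem_centralizer_singleton_iff, Subgroup.mem_centralizer_singleton_iff]
    exact (commute_conj_iff (g := g) (a := h) (b := x)).symm
  refine mem_normalizer_of_conj fun w hw => ?_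
  refine c.two_normal_le hK hW (P := W.map (MulAut.conj g).toMonoidHom) ?_
    ((IsPGroup.of_card (n := 2) (by rw [hW.card]; rfl) : IsPGroup 2 W).map _) ?_ ⟨w, hw, rfl⟩
  · rintro _ ⟨v, hv, rfl⟩
    exact (hH v).1 (c.E_le (hW.le hv))
  · rintro h hh _ ⟨v, hv, rfl⟩
    have h' : g⁻¹ * h * g ∈ Subgroup.centralizer ({x} : Set G) :=
      (hH _).2 (by rwa [show g * (g⁻¹ * h * g) * g⁻¹ = h by group])
    refine ⟨_, hW.normal _ h' v hv, ?_⟩
    show g * (g⁻¹ * h * g * v * (g⁻¹ * h * g)⁻¹) * g⁻¹ = h * (g * v * g⁻¹) * h⁻¹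
    group

theorem H_le_normalizer (hW : Four c K W) :
    Subgroup.centralizer ({x} : Set G) ≤ Subgroup.normalizer (W : Set G) := fun h hh =>
  mem_normalizer_of_conj fun w hw => hW.normal h hh w hw

theorem card_normalizer (hK : Comp c K) (hW : Four c K W) :
    Nat.card (Subgroup.normalizer (W : Set G)) = 720 := by
  set N := Subgroup.normalizer (W : Set G) with hN
  have hxW := c.x_mem_W hK hW
  have hxN : x ∈ N := Subgroup.le_normalizer hxW
  have h := Invol.card_isConj_mul (G := N) ⟨x, hxN⟩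
  have e1 : Nat.card {w : N // IsConj (⟨x, hxN⟩ : N) w} = Nat.card {u : W // u ≠ 1} := by
    refine Nat.card_congr (Equiv.ofBijective
      (fun w => (⟨⟨((w.1 : N) : G), ?_⟩, fun e => ?_⟩ : {u : W // u ≠ 1})) ⟨?_, ?_⟩)
    · obtain ⟨a, ha⟩ := isConj_iff.1 w.2
      rw [← ha]
      exact (Subgroup.mem_normalizer_iff.1 a.2 x).1 hxW
    · have : (w.1 : N) = 1 := Subtype.ext (congrArg (fun q : W => (q : G)) e :)
      obtain ⟨a, ha⟩ := isConj_iff.1 w.2
      have h1 : (a : G) * x * (a : G)⁻¹ = 1 := congrArg (fun q : N => (q : G)) (ha.trans this)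
      exact c.x_ne_one (conj_eq_one_iff.1 h1)
    · intro a b hab
      exact Subtype.ext (Subtype.ext (congrArg (fun u : {u : W // u ≠ 1} => ((u.1 : W) : G)) hab :))
    · rintro ⟨⟨u, hu⟩, hu1⟩
      have hu1' : u ≠ 1 := fun e => hu1 (Subtype.ext e)
      obtain ⟨g, hg⟩ := isConj_iff.1 (c.centralizer_of_mem_W hK hW hu hu1').1
      have hgN : g ∈ N := c.four_normalizer hK hW (hg ▸ hu)
      exact ⟨⟨⟨u, Subgroup.le_normalizer hu⟩, isConj_iff.2 ⟨⟨g, hgN⟩, Subtype.ext hg⟩⟩, rfl⟩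
  have h3 : Nat.card {u : W // u ≠ 1} = 3 := by
    classical
    haveI : Fintype W := Fintype.ofFinite _
    rw [Nat.card_eq_fintype_card, Fintype.card_subtype_compl, Fintype.card_subtype_eq,
      ← Nat.card_eq_fintype_card, hW.card]
  have e2 : Nat.card (Subgroup.centralizer ({(⟨x, hxN⟩ : N)} : Set N)) = 240 := by
    rw [← c.card_H hK]
    exact Nat.card_congr
      { toFun := fun w => ⟨((w : N) : G), Subgroup.mem_centralizer_singleton_iff.2
          (congrArg (fun q : N => (q : G)) (Subgroup.mem_centralizer_singleton_iff.1 w.2))⟩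
        invFun := fun v => ⟨⟨v, c.H_le_normalizer hW v.2⟩, Subgroup.mem_centralizer_singleton_iff.2
          (Subtype.ext (Subgroup.mem_centralizer_singleton_iff.1 v.2))⟩
        left_inv := fun _ => rfl
        right_inv := fun _ => rfl }
  rw [e1, e2, h3] at h
  omega

theorem normalizer_K (hK : Comp c K) (hW : Four c K W) :
    ∀ g ∈ Subgroup.normalizer (W : Set G), ∀ k ∈ K, g * k * g⁻¹ ∈ K := by
  intro g hg
  have hu : g * x * g⁻¹ ∈ W := (Subgroup.mem_normalizer_iff.1 hg x).1 (c.x_mem_W hK hW)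
  obtain ⟨-, hC⟩ := c.centralizer_of_mem_W hK hW hu fun e => c.x_ne_one (conj_eq_one_iff.1 e)
  have hdec : ∀ k ∈ K, ∃ a ∈ W, ∃ b ∈ K, g * k * g⁻¹ = a * b := by
    intro k hk
    refine (c.split hK hW).2 _ (hC ▸ Subgroup.mem_centralizer_singleton_iff.2 ?_)
    exact commute_conj_iff.2 (show Commute k x from Subgroup.mem_centralizer_singleton_iff.1 (hK.le hk))
  let S : Subgroup G := K ⊓ K.comap (MulAut.conj g).toMonoidHom
  have hcom : ∀ a b : K, ((⁅a, b⁆ : K) : G) ∈ S := by
    intro a b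
    refine ⟨(⁅a, b⁆ : K).2, ?_⟩
    obtain ⟨w₁, hw₁, k₁, hk₁, e₁⟩ := hdec a a.2
    obtain ⟨w₂, hw₂, k₂, hk₂, e₂⟩ := hdec b b.2
    show g * ((a : G) * b * (a : G)⁻¹ * (b : G)⁻¹) * g⁻¹ ∈ K
    have e : g * ((a : G) * b * (a : G)⁻¹ * (b : G)⁻¹) * g⁻¹ = k₁ * k₂ * k₁⁻¹ * k₂⁻¹ := by
      calc g * ((a : G) * b * (a : G)⁻¹ * (b : G)⁻¹) * g⁻¹
          = (g * a * g⁻¹) * (g * b * g⁻¹) * (g * a * g⁻¹)⁻¹ * (g * b * g⁻¹)⁻¹ := by group
        _ = w₁ * (k₁ * w₂) * k₂ * k₁⁻¹ * (w₁⁻¹ * k₂⁻¹) * w₂⁻¹ := by rw [e₁, e₂]; group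
        _ = w₁ * (w₂ * k₁) * k₂ * k₁⁻¹ * (k₂⁻¹ * w₁⁻¹) * w₂⁻¹ := by
          rw [← hW.comm w₂ hw₂ k₁ hk₁, hW.comm w₁⁻¹ (inv_mem hw₁) k₂⁻¹ (inv_mem hk₂)]
        _ = (w₁ * w₂ * (k₁ * k₂ * k₁⁻¹ * k₂⁻¹)) * (w₁⁻¹ * w₂⁻¹) := by group
        _ = k₁ * k₂ * k₁⁻¹ * k₂⁻¹ := by
          rw [hW.comm (w₁ * w₂) (mul_mem hw₁ hw₂) _
              (mul_mem (mul_mem (mul_mem hk₁ hk₂) (inv_mem hk₁)) (inv_mem hk₂)),
            c.E_comm (inv_mem (hW.le hw₁)) (inv_mem (hW.le hw₂))]
          group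
    rw [e]
    exact mul_mem (mul_mem (mul_mem hk₁ hk₂) (inv_mem hk₁)) (inv_mem hk₂)
  have htop : commutator K = ⊤ := by
    haveI := c.isSimple hK
    refine ((inferInstance : (commutator K).Normal).eq_bot_or_eq_top).resolve_left fun hb => ?_
    have hab : ∀ a b : K, a * b = b * a := fun a b => by
      have hm : ⁅a, b⁆ ∈ commutator K :=
        Subgroup.commutator_mem_commutator (Subgroup.mem_top a) (Subgroup.mem_top b)
      rw [hb, Subgroup.mem_bot] at hm
      exact commutatorElement_eq_one_iff_mul_comm.1 hm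
    exact c.d.hyp.ci.ne_one (c.eq_one_of_central hK (c.V_le hK c.z_mem_V) fun a ha =>
      congrArg Subtype.val (hab ⟨a, ha⟩ ⟨z, c.V_le hK c.z_mem_V⟩))
  intro k hk
  have : commutator K ≤ S.comap K.subtype := by
    rw [commutator_def, Subgroup.commutator_le]
    exact fun a _ b _ => hcom a b
  exact (this (htop ▸ Subgroup.mem_top (⟨k, hk⟩ : K))).2

theorem normalizer_iso (hK : Comp c K) (hW : Four c K W) :
    Nonempty (Subgroup.normalizer (W : Set G) ≃* alternatingGroup (Fin 4) × alternatingGroup (Fin 5)) := by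
  set N := Subgroup.normalizer (W : Set G) with hN
  have hKN : K ≤ N := hK.le.trans (c.H_le_normalizer hW)
  have hnK := c.normalizer_K hK hW
  obtain ⟨f, hker, hinj, hrange, ⟨eK⟩⟩ := c.exists_act hK hKN hnK
  let D : Subgroup G := f.ker.map N.subtype
  have hDN : D ≤ N := Subgroup.map_subtype_le _
  have hnD : ∀ g ∈ N, ∀ d ∈ D, g * d * g⁻¹ ∈ D := by
    rintro g hg _ ⟨d, hd, rfl⟩
    exact ⟨⟨g, hg⟩ * d * ⟨g, hg⟩⁻¹, (MonoidHom.normal_ker f).conj_mem d hd _, rfl⟩
  have hdisj : ∀ g ∈ D, g ∈ K → g = 1 := by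
    rintro _ ⟨w, hw, rfl⟩ hwK
    have e : (⟨(w : G), hwK⟩ : K) = 1 := hinj (by rw [map_one]; exact hw)
    exact congrArg Subtype.val e
  have hcomm := commute_of_disjoint (fun b hb => hnD b (hKN hb)) (fun a ha => hnK a (hDN ha)) hdisj
  have hWD : W ≤ D := by
    haveI : (W.subgroupOf N).Normal :=
      ⟨fun w hw a => (Subgroup.mem_normalizer_iff.1 a.2 (w : G)).1 hw⟩
    have hle : W.subgroupOf N ≤ f.ker := by
      rw [hker]
      refine Subgroup.normal_le_normalCore.2 fun w hw => ⟨w.2, mem_normalizer_of_conj fun v hv => ?_⟩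
      show (w : G) * v * (w : G)⁻¹ ∈ c.V
      rw [hW.comm (w : G) hw v (c.V_le hK hv), mul_inv_cancel_right]
      exact hv
    exact fun w hw => ⟨⟨w, Subgroup.le_normalizer hw⟩, hle hw, rfl⟩
  have hD12 : Nat.card D = 12 := by
    have h1 := Subgroup.card_mul_index f.ker
    rw [Subgroup.index_ker, c.card_normalizer hK hW,
      show Nat.card f.ker = Nat.card D from (Subgroup.card_map_of_injective N.subtype_injective).symm] at h1
    have h2 : alternatingGroup (Fin 5) ≤ f.range := by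
      rw [← hrange]; rintro _ ⟨k, rfl⟩; exact ⟨_, rfl⟩
    have h3 : 60 ∣ Nat.card f.range := by
      have := Subgroup.card_dvd_of_le h2
      rwa [show Nat.card (alternatingGroup (Fin 5)) = 60 by
        rw [nat_card_alternatingGroup, Nat.card_fin]; rfl] at this
    have h4 : Nat.card f.range ∣ 120 := by
      have := Subgroup.card_subgroup_dvd_card f.range
      rwa [Nat.card_perm, Nat.card_fin] at this
    have h5 : 4 ∣ Nat.card D := hW.card ▸ Subgroup.card_dvd_of_le hWD
    obtain ⟨m, hm⟩ := h3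
    have hle : Nat.card f.range ≤ 120 := Nat.le_of_dvd (by norm_num) h4
    have : m ≤ 2 := by omega
    rcases m with _ | _ | _ | m
    · rw [hm, mul_zero, mul_zero] at h1; omega
    · rw [hm] at h1; omega
    · rw [hm] at h1; omega
    · omega
  obtain ⟨⟨eP⟩, -⟩ := prod_equiv hDN hKN hcomm hdisj (by rw [c.card_normalizer hK hW, hD12, hK.card])
  -- `D` is alternating of degree 4
  haveI : Fact (Nat.Prime 3) := ⟨Nat.prime_three⟩
  obtain ⟨t, ht⟩ := exists_prime_orderOf_dvd_card' (G := D) 3 (by rw [hD12]; norm_num)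
  have hP3 : Nat.card (Subgroup.zpowers t) = 3 := by rw [Nat.card_zpowers, ht]
  have hidx : (Subgroup.zpowers t).index = 4 := by
    have := Subgroup.card_mul_index (Subgroup.zpowers t)
    rw [hP3, hD12] at this
    omega
  obtain ⟨g, hg⟩ := exists_fin_hom _ hidx
  have hginj : Function.Injective g := by
    rw [← MonoidHom.ker_eq_bot_iff, hg]
    by_contra hne
    have hle := Subgroup.normalCore_le (Subgroup.zpowers t)
    rcases (Nat.dvd_prime Nat.prime_three).1 (hP3 ▸ Subgroup.card_dvd_of_le hle) with h1 | h1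
    · exact hne (Subgroup.card_eq_one.1 h1)
    have heq := Subgroup.eq_of_le_of_card_ge hle (by rw [h1, hP3])
    have hn : (Subgroup.zpowers t).Normal := heq ▸ Subgroup.normalCore_normal _
    haveI hWn : (W.subgroupOf D).Normal :=
      ⟨fun w hw a => (Subgroup.mem_normalizer_iff.1 (hDN a.2) (w : G)).1 hw⟩
    have hd : Disjoint (Subgroup.zpowers t) (W.subgroupOf D) := by
      rw [disjoint_iff]
      apply Subgroup.card_eq_one.1
      have d1 : Nat.card (Subgroup.zpowers t ⊓ W.subgroupOf D : Subgroup D) ∣ 3 :=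
        hP3 ▸ Subgroup.card_dvd_of_le inf_le_left
      have d2 : Nat.card (Subgroup.zpowers t ⊓ W.subgroupOf D : Subgroup D) ∣ 4 := by
        have := Subgroup.card_dvd_of_le (inf_le_right : Subgroup.zpowers t ⊓ W.subgroupOf D ≤ _)
        rwa [Nat.card_congr (Subgroup.subgroupOfEquivOfLe hWD).toEquiv, hW.card] at this
      exact Nat.eq_one_of_dvd_one (by simpa using Nat.dvd_gcd d1 d2)
    have hxW := c.x_mem_W hK hW
    have hct : Commute t (⟨x, hWD hxW⟩ : D) :=
      Subgroup.commute_of_normal_of_disjoint _ _ hn hWn hd _ _ (Subgroup.mem_zpowers t) hxW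
    have htH : (t : G) ∈ Subgroup.centralizer ({x} : Set G) :=
      Subgroup.mem_centralizer_singleton_iff.2 (congrArg (fun q : D => (q : G)) hct.eq)
    obtain ⟨a, ha, b, hb, e⟩ := (c.split hK hW).2 _ htH
    have hb1 : b = 1 := hdisj b (by
      rw [show b = a⁻¹ * (t : G) by rw [e]; group]
      exact mul_mem (inv_mem (hWD ha)) t.2) hb
    rw [hb1, mul_one] at e
    have hsq : t * t = 1 := Subtype.ext (by show (t : G) * t = 1; rw [e]; exact c.E_sq (hW.le ha))
    have := orderOf_dvd_of_pow_eq_one (show t ^ 2 = 1 by rw [pow_two, hsq])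
    rw [ht] at this
    norm_num at this
  obtain ⟨-, ⟨eD⟩⟩ := range_alternating g hginj (by rw [hD12]; rfl)
  exact ⟨eP.trans (MulEquiv.prodCongr eD eK)⟩

include c

/-- Transport along conjugation. -/
theorem exists_conjugate (g : G) :
    ∃ q : Fin 5 → G, Cfg (g * z * g⁻¹) (Q.map (MulAut.conj g).toMonoidHom) q (g * x * g⁻¹) := by
  obtain ⟨q, d⟩ := exists_data (c.d.hyp.conj g)
  refine ⟨q, d, ⟨?_, commute_conj_iff.2 (show Commute x z from c.outer.2.1), ?_⟩, ?_, ?_⟩
  · calc g * x * g⁻¹ * (g * x * g⁻¹) = g * (x * x) * g⁻¹ := by group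
      _ = 1 := by rw [c.outer.1]; group
  · rintro ⟨w, hw, hwe⟩
    exact c.outer.2.2 ((MulAut.conj g).injective hwe ▸ hw)
  · intro h
    exact c.not_conj (((Invol.isConj_conj g z).trans h).trans (Invol.isConj_conj g x).symm)
  · intro u hu
    exact (c.classes u hu).imp (fun h => (Invol.isConj_conj g z).symm.trans h)
      fun h => (Invol.isConj_conj g x).symm.trans h

theorem second_class :
    Nonempty (Subgroup.centralizer ({x} : Set G) ≃*
      (Multiplicative (ZMod 2) × Multiplicative (ZMod 2)) × alternatingGroup (Fin 5)) ∧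
    Nonempty (Subgroup.normalizer (((Cfsg.pCore 2 ↥(Subgroup.centralizer ({x} : Set G))).map
      (Subgroup.centralizer ({x} : Set G)).subtype : Subgroup G) : Set G) ≃*
      alternatingGroup (Fin 4) × alternatingGroup (Fin 5)) := by
  obtain ⟨K, hK⟩ := c.exists_comp
  obtain ⟨W, hW⟩ := c.exists_W hK
  rw [c.pCore_eq hK hW]
  exact ⟨c.second_iso hK hW, c.normalizer_iso hK hW⟩

end Cfg

end Cfsg.Agent.J2Type
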