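import Cfsg.Agent.J2Type.Config
import Cfsg.Agent.Invol.RankOneQuot

/-!
In a simple group an involution with centraliser `2^{1+4}.A₅` of minus type is not weakly closed in the
extraspecial group, so the group is of Hall–Janko type once there are two classes of involutions.
-/

set_option autoImplicit false

namespace Cfsg.Agent.J2Type

open Cfsg Cfsg.Agent.LargeExtra

theorem even_perm_four : ∀ a : Equiv.Perm (Fin 5), Equiv.Perm.sign a = 1 → a * a * (a * a) = 1 → a * a = 1 := by
  decide +kernel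

variable {G : Type*} [Group G]

/-- The statement-level hypotheses. -/
structure Pre (t : G) (Q : Subgroup G) (φ : Subgroup.centralizer ({t} : Set G) →* Equiv.Perm (Fin 5)) : Prop where
  ci : CentralInvolution Q t
  cent : Subgroup.centralizer (Q : Set G) ≤ Subgroup.zpowers t
  norm : Subgroup.centralizer ({t} : Set G) ≤ Subgroup.normalizer (Q : Set G)
  cardQ : Nat.card Q = 32
  cardC : Nat.card (Subgroup.centralizer ({t} : Set G)) = 1920
  minus : ∀ E : Subgroup G, E ≤ Q → (∀ a ∈ E, ∀ b ∈ E, a * b = b * a) → (∀ a ∈ E, a * a = 1) →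
    Nat.card E ≤ 4
  ker : ∀ c, φ c = 1 ↔ (c : G) ∈ Q
  range : φ.range = alternatingGroup (Fin 5)

namespace Pre

variable {t : G} {Q : Subgroup G} {φ : Subgroup.centralizer ({t} : Set G) →* Equiv.Perm (Fin 5)}
  (h : Pre t Q φ)
include h

theorem sign_eq (c : Subgroup.centralizer ({t} : Set G)) : Equiv.Perm.sign (φ c) = 1 :=
  Equiv.Perm.mem_alternatingGroup.1 (by rw [← h.range]; exact ⟨c, rfl⟩)

/-- No square root of `t` centralises a conjugate of `t` lying outside `Q`. -/
theorem sq_ne (hweak : ∀ g : G, g * t * g⁻¹ ∈ Q → g * t * g⁻¹ = t) {x : G} (hx : IsConj t x) (hxQ : x ∉ Q)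
    {w : G} (hwx : w * x = x * w) : w * w ≠ t := by
  intro hw
  obtain ⟨g, hg⟩ := isConj_iff.1 hx
  have hu : g⁻¹ * w * g ∈ Subgroup.centralizer ({t} : Set G) := by
    refine Subgroup.mem_centralizer_singleton_iff.2 ?_
    calc g⁻¹ * w * g * t = g⁻¹ * (w * (g * t * g⁻¹)) * g := by group
      _ = t * (g⁻¹ * w * g) := by rw [hg, hwx, ← hg]; group
  set u : Subgroup.centralizer ({t} : Set G) := ⟨g⁻¹ * w * g, hu⟩
  have h2 : ((u * u : Subgroup.centralizer ({t} : Set G)) : G) = g⁻¹ * t * g := by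
    show g⁻¹ * w * g * (g⁻¹ * w * g) = _
    rw [← hw]; group
  have h4 : φ u * φ u * (φ u * φ u) = 1 := by
    rw [← map_mul, ← map_mul, show u * u * (u * u) = 1 from Subtype.ext (by
      rw [Subgroup.coe_mul, h2, Subgroup.coe_one]
      calc g⁻¹ * t * g * (g⁻¹ * t * g) = g⁻¹ * (t * t) * g := by group
        _ = 1 := by rw [h.ci.sq]; group), map_one]
  have h5 := (h.ker (u * u)).1 (by rw [map_mul]; exact even_perm_four _ (h.sign_eq u) h4)
  rw [h2] at h5
  have h6 := hweak g⁻¹ (by rwa [inv_inv])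
  rw [inv_inv] at h6
  apply hxQ
  have : x = t := by
    rw [← hg]
    calc g * t * g⁻¹ = g * (g⁻¹ * t * g) * g⁻¹ := by rw [h6]
      _ = t := by group
  exact this ▸ h.ci.mem

variable [Finite G]

/-- The fixed points and the coset of an outer conjugate of `t`. -/
theorem coset_conj (hweak : ∀ g : G, g * t * g⁻¹ ∈ Q → g * t * g⁻¹ = t) {x : G} (hx : IsConj t x)
    (hxt : x * t = t * x) (hxQ : x ∉ Q) :
    (∀ q ∈ Q, x * q * (x * q) = 1 → IsConj t (x * q)) ∧
    ∃ b ∈ Q, b * x = x * b ∧ b * b = 1 ∧ b ≠ 1 ∧ b ≠ t := by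
  classical
  have hxo : orderOf x = 2 := by
    rw [← Invol.orderOf_eq_of_isConj hx]; exact h.ci.order_two
  have hx2 : x * x = 1 := sq_of_orderOf hxo
  have hxi : x⁻¹ = x := inv_eq_of_mul_eq_one_right hx2
  have hxC : x ∈ Subgroup.centralizer ({t} : Set G) := Subgroup.mem_centralizer_singleton_iff.2 hxt
  have hconjQ : ∀ q ∈ Q, x * q * x ∈ Q := fun q hq => by
    have := (Subgroup.mem_normalizer_iff.1 (h.norm hxC) q).1 hq
    rwa [hxi] at this
  let δ : G → G := fun q => x * q * x * q⁻¹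
  have hδ : ∀ q ∈ Q, δ q ∈ Q := fun q hq => mul_mem (hconjQ q hq) (inv_mem hq)
  have hcen : ∀ {q : G}, q ∈ Q → Commute t q := fun hq => (h.ci.comm _ hq).symm
  haveI hZn : ((Subgroup.zpowers t).subgroupOf Q).Normal := ⟨fun v hv q => by
    obtain ⟨i, hi'⟩ := hv
    have hi : t ^ i = (v : G) := hi'
    refine ⟨i, ?_⟩
    show t ^ i = (q : G) * (v : G) * (q : G)⁻¹
    rw [← hi, ((hcen q.2).zpow_left i).symm.eq, mul_inv_cancel_right]⟩
  let π : Q →* Q ⧸ (Subgroup.zpowers t).subgroupOf Q := QuotientGroup.mk' _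
  have hπ : ∀ a : Q, π a = 1 ↔ (a : G) = 1 ∨ (a : G) = t := fun a =>
    (QuotientGroup.eq_one_iff a).trans (Subgroup.mem_subgroupOf.trans h.ci.mem_zpowers_iff)
  have hab : ∀ a b, π a * π b = π b * π a := by
    intro a b
    rw [← mul_inv_eq_one, ← map_mul, ← map_mul, ← map_inv, ← map_mul, hπ]
    simpa [mul_assoc] using h.ci.comm_mem a.2 b.2
  let ψ : Q →* Q ⧸ (Subgroup.zpowers t).subgroupOf Q :=
    MonoidHom.mk' (fun q => π ⟨δ q, hδ q q.2⟩) fun a b => by
      have key : ∀ q : Q, π ⟨δ q, hδ q q.2⟩ = π ⟨x * q * x, hconjQ q q.2⟩ * (π q)⁻¹ := fun q => by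
        rw [← map_inv, ← map_mul]; rfl
      have hm : (⟨x * ((a * b : Q) : G) * x, hconjQ _ (a * b).2⟩ : Q) =
          ⟨x * a * x, hconjQ a a.2⟩ * ⟨x * b * x, hconjQ b b.2⟩ := Subtype.ext <| by
        show x * ((a : G) * b) * x = x * a * x * (x * b * x)
        calc x * ((a : G) * b) * x = x * a * (x * x) * b * x := by rw [hx2]; group
          _ = _ := by group
      rw [key, key, key, hm, map_mul, map_mul, mul_inv_rev]
      have hc := (show Commute (π a) (π b) from hab a b)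
      have hc2 := (show Commute (π ⟨x * b * x, hconjQ b b.2⟩) (π a) from hab _ _)
      calc π ⟨x * a * x, hconjQ a a.2⟩ * π ⟨x * b * x, hconjQ b b.2⟩ * ((π b)⁻¹ * (π a)⁻¹)
          = π ⟨x * a * x, hconjQ a a.2⟩ * ((π ⟨x * b * x, hconjQ b b.2⟩ * (π b)⁻¹) * (π a)⁻¹) := by group
        _ = π ⟨x * a * x, hconjQ a a.2⟩ * ((π a)⁻¹ * (π ⟨x * b * x, hconjQ b b.2⟩ * (π b)⁻¹)) := by
          rw [(hc2.mul_left hc.symm.inv_left).inv_right.eq]
        _ = _ := by group
  set F := ψ.ker with hF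
  have hFmem : ∀ q : Q, q ∈ F ↔ δ q = 1 ∨ δ q = t := fun q => hπ ⟨δ q, hδ q q.2⟩
  -- the range of `ψ` lies in the image of `F`
  have hrange : ψ.range ≤ F.map π := by
    rintro _ ⟨q, rfl⟩
    refine ⟨⟨δ q, hδ q q.2⟩, (hFmem _).2 ?_, rfl⟩
    show δ (δ q) = 1 ∨ δ (δ q) = t
    have e : δ (δ q) = ((δ q) * (δ q))⁻¹ := by
      calc δ (δ q) = (x * x) * q * x * (q : G)⁻¹ * x * (x * q * x * (q : G)⁻¹)⁻¹ := by
            simp only [δ]; group
        _ = (q : G) * x⁻¹ * (q : G)⁻¹ * x⁻¹ * (x * q * x * (q : G)⁻¹)⁻¹ := by rw [hx2, hxi]; group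
        _ = _ := by simp only [δ]; group
    rw [e]
    rcases h.ci.sq_mem (hδ q q.2) with e' | e'
    · exact Or.inl (by rw [e', inv_one])
    · exact Or.inr (by rw [e', h.ci.inv_eq])
  have hF8 : 8 ≤ Nat.card F := by
    have h1 := Subgroup.card_mul_index F
    rw [hF, Subgroup.index_ker, h.cardQ] at h1
    have h2 := Subgroup.card_le_of_le hrange
    have h3 := Subgroup.card_mul_index (π.comp F.subtype).ker
    rw [Subgroup.index_ker, MonoidHom.range_comp, Subgroup.range_subtype] at h3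
    have h4 : 2 ≤ Nat.card (π.comp F.subtype).ker := by
      have htF : (⟨t, h.ci.mem⟩ : Q) ∈ F := (hFmem _).2 (Or.inl (by
        show x * t * x * t⁻¹ = 1
        rw [hxt, mul_assoc t, hx2, mul_one, mul_inv_cancel]))
      have hmem : (⟨⟨t, h.ci.mem⟩, htF⟩ : F) ∈ (π.comp F.subtype).ker := (hπ _).2 (Or.inr rfl)
      haveI : Nontrivial (π.comp F.subtype).ker := ⟨⟨⟨_, hmem⟩, 1, fun e =>
        h.ci.ne_one (congrArg (fun w : (π.comp F.subtype).ker => (((w : F) : Q) : G)) e)⟩⟩
      exact Finite.one_lt_card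
    rw [← hF] at h1
    nlinarith [Nat.zero_le (Nat.card ψ.range), Nat.zero_le (Nat.card (F.map π))]
  -- the centraliser of `x` in `Q`
  set C0 := Q ⊓ Subgroup.centralizer ({x} : Set G) with hC0
  have hC0sq : ∀ a ∈ C0, a * a = 1 := fun a ha =>
    (h.ci.sq_mem ha.1).resolve_right (h.sq_ne hweak hx hxQ (Subgroup.mem_centralizer_singleton_iff.1 ha.2))
  have hC0comm : ∀ a ∈ C0, ∀ b ∈ C0, a * b = b * a := fun a ha b hb => by
    calc a * b = (a * b)⁻¹ := (inv_eq_of_mul_eq_one_right (hC0sq _ (mul_mem ha hb))).symm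
      _ = b⁻¹ * a⁻¹ := mul_inv_rev a b
      _ = b * a := by rw [inv_eq_of_mul_eq_one_right (hC0sq a ha), inv_eq_of_mul_eq_one_right (hC0sq b hb)]
  have hC04 : Nat.card C0 ≤ 4 := h.minus C0 inf_le_left hC0comm hC0sq
  have hδ1 : ∀ q ∈ Q, δ q = 1 ↔ q ∈ C0 := fun q hq => by
    simp only [δ, mul_inv_eq_one, hC0, Subgroup.mem_inf, hq, true_and, Subgroup.mem_centralizer_singleton_iff]
    constructor
    · intro e; nth_rewrite 1 [← e]; rw [mul_assoc, hx2, mul_one]
    · intro e; rw [mul_assoc, e, ← mul_assoc, hx2, one_mul]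
  have hFle : Nat.card F ≤ 2 * Nat.card C0 := by
    by_cases hex : ∃ q : F, δ ((q : Q) : G) = t
    · obtain ⟨q₀, hq₀⟩ := hex
      have hmul : ∀ a b : G, a ∈ Q → δ a = t → δ b = t → δ (a⁻¹ * b) = 1 := by
        intro a b ha e1 e2
        have f1 : x * a * x = t * a := mul_inv_eq_iff_eq_mul.1 e1
        have f2 : x * b * x = t * b := mul_inv_eq_iff_eq_mul.1 e2
        show x * (a⁻¹ * b) * x * (a⁻¹ * b)⁻¹ = 1
        have f3 : x * (a⁻¹ * b) * x = a⁻¹ * b := by
          calc x * (a⁻¹ * b) * x = (x * a * x⁻¹)⁻¹ * (x⁻¹⁻¹ * b * x) := by group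
            _ = (x * a * x)⁻¹ * (x * b * x) := by rw [inv_inv, hxi]
            _ = a⁻¹ * b := by rw [f1, f2]; group
        rw [f3, mul_inv_cancel]
      have hinj : Nat.card F ≤ Nat.card (C0 ⊕ C0) := Nat.card_le_card_of_injective
        (fun q : F => if hq : δ ((q : Q) : G) = 1 then
            (Sum.inl ⟨((q : Q) : G), (hδ1 _ (q : Q).2).1 hq⟩ : C0 ⊕ C0)
          else Sum.inr ⟨((q₀ : Q) : G)⁻¹ * ((q : Q) : G), (hδ1 _ (mul_mem (inv_mem (q₀ : Q).2) (q : Q).2)).1
            (hmul _ _ (q₀ : Q).2 hq₀ (((hFmem (q : Q)).1 q.2).resolve_left hq))⟩) (by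
          intro a b hab
          by_cases h1 : δ ((a : Q) : G) = 1 <;> by_cases h2 : δ ((b : Q) : G) = 1 <;>
            simp [h1, h2] at hab
          · exact hab
          · exact hab)
      rw [Nat.card_sum] at hinj
      omega
    · push Not at hex
      refine le_trans (Nat.card_le_card_of_injective
        (fun q : F => (⟨((q : Q) : G), (hδ1 _ (q : Q).2).1 (((hFmem (q : Q)).1 q.2).resolve_right (hex q))⟩ : C0))
        fun a b e => Subtype.ext (Subtype.ext (congrArg Subtype.val e :))) (by omega)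
  have hC0eq : Nat.card C0 = 4 := by omega
  refine ⟨fun q hq hinv => ?_, ?_⟩
  · -- the orbit fills the inverted elements
    have hxq : ∀ q : Q, x * q * (x * q) = 1 → (q : Q) ∈ F := by
      intro q hq'
      refine (hFmem q).2 ?_
      have e : δ q = ((q : G) * q)⁻¹ := by
        calc δ q = (x * q * (x * q)) * ((q : G) * q)⁻¹ := by simp only [δ]; group
          _ = _ := by rw [hq', one_mul]
      rw [e]
      rcases h.ci.sq_mem q.2 with e' | e'
      · exact Or.inl (by rw [e', inv_one])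
      · exact Or.inr (by rw [e', h.ci.inv_eq])
    have hrot : ∀ r : G, r * x * r⁻¹ = x * δ r := fun r => by
      calc r * x * r⁻¹ = (x * x) * r * x * r⁻¹ := by rw [hx2, one_mul]
        _ = _ := by simp only [δ]; group
    have hinvol : ∀ r : G, x * δ r * (x * δ r) = 1 := fun r => by
      rw [← hrot]
      calc r * x * r⁻¹ * (r * x * r⁻¹) = r * (x * x) * r⁻¹ := by group
        _ = 1 := by rw [hx2]; group
    let Φ : Q ⧸ C0.subgroupOf Q → F := Quotient.lift
      (fun r => ⟨⟨δ r, hδ r r.2⟩, hxq _ (hinvol r)⟩) (by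
        intro a b hab
        have hm : a⁻¹ * b ∈ C0.subgroupOf Q := QuotientGroup.leftRel_apply.1 hab
        have hc : Commute ((a : G)⁻¹ * b) x := Subgroup.mem_centralizer_singleton_iff.1 hm.2
        refine Subtype.ext (Subtype.ext (mul_left_cancel (a := x) ?_))
        rw [← hrot, ← hrot]
        calc (a : G) * x * (a : G)⁻¹ = (a : G) * (x * ((a : G)⁻¹ * b)) * (b : G)⁻¹ := by group
          _ = (a : G) * (((a : G)⁻¹ * b) * x) * (b : G)⁻¹ := by rw [hc.eq]
          _ = _ := by group)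
    have hΦ : Function.Bijective Φ := by
      refine Function.Injective.bijective_of_nat_card_le ?_ ?_
      · intro a b hab
        induction a using QuotientGroup.induction_on with | _ a => ?_
        induction b using QuotientGroup.induction_on with | _ b => ?_
        have e : δ a = δ b := congrArg (fun w : F => ((w : Q) : G)) hab
        have e2 : (a : G) * x * (a : G)⁻¹ = (b : G) * x * (b : G)⁻¹ := by rw [hrot, hrot, e]
        refine QuotientGroup.eq.2 ⟨(a⁻¹ * b).2, Subgroup.mem_centralizer_singleton_iff.2 ?_⟩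
        show (a : G)⁻¹ * b * x = x * ((a : G)⁻¹ * b)
        calc (a : G)⁻¹ * b * x = (a : G)⁻¹ * ((b : G) * x * (b : G)⁻¹) * b := by group
          _ = x * ((a : G)⁻¹ * b) := by rw [← e2]; group
      · have h1 := Subgroup.card_mul_index (C0.subgroupOf Q)
        rw [Nat.card_congr (Subgroup.subgroupOfEquivOfLe (inf_le_left : C0 ≤ Q)).toEquiv, hC0eq, h.cardQ,
          Subgroup.index_eq_card] at h1
        omega
    obtain ⟨r, hr⟩ := hΦ.2 ⟨⟨q, hq⟩, hxq ⟨q, hq⟩ hinv⟩
    induction r using QuotientGroup.induction_on with | _ r => ?_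
    have e : δ r = q := congrArg (fun w : F => ((w : Q) : G)) hr
    rw [← e, ← hrot]
    exact hx.trans (Invol.isConj_conj _ _)
  · by_contra hcon
    push Not at hcon
    have : Nat.card C0 ≤ ({1, t} : Finset G).card := by
      rw [← Nat.card_eq_finsetCard]
      refine Nat.card_le_card_of_injective (fun u => ⟨u.1, ?_⟩)
        fun a b e => Subtype.ext (congrArg Subtype.val e :)
      simp only [Finset.mem_insert, Finset.mem_singleton]
      exact or_iff_not_imp_left.2 fun h1 =>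
        hcon u.1 u.2.1 (Subgroup.mem_centralizer_singleton_iff.1 u.2.2) (hC0sq u.1 u.2) h1
    rw [hC0eq] at this
    have := (Finset.card_le_two (a := (1 : G)) (b := t))
    omega

/-- **`t` is not weakly closed.** -/
theorem exists_conj_mem [IsSimpleGroup G] : ∃ g : G, g * t * g⁻¹ ∈ Q ∧ g * t * g⁻¹ ≠ t := by
  by_contra hcon
  push Not at hcon
  have ht1 := h.ci.ne_one
  -- a commuting conjugate
  obtain ⟨g, hgc, hgne⟩ : ∃ g : G, Commute (g * t * g⁻¹) t ∧ g * t * g⁻¹ ≠ t := by
    by_contra hno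
    push Not at hno
    haveI : Fact (Nat.Prime 2) := ⟨Nat.prime_two⟩
    haveI hpn : (pPrimeCore 2 G).Normal := inferInstance
    have hbot : pPrimeCore 2 G = ⊥ := hpn.eq_bot_or_eq_top.resolve_right fun htop => by
      refine Cores.not_dvd_card_pPrimeCore (G := G) (p := 2) ?_
      rw [htop, Subgroup.card_top, ← h.ci.order_two]
      exact orderOf_dvd_natCard t
    have hcentral : t ∈ Subgroup.center G := Subgroup.mem_center_iff.2 fun g => by
      have := Invol.zStar_theorem G t ⟨h.ci.order_two, hno⟩ g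
      rw [hbot, Subgroup.mem_bot] at this
      exact (commutatorElement_eq_one_iff_mul_comm.1 this).symm
    rcases (inferInstance : (Subgroup.center G).Normal).eq_bot_or_eq_top with e | e
    · exact ht1 ((Subgroup.eq_bot_iff_forall _).1 e t hcentral)
    · have hcomm : ∀ a b : G, a * b = b * a := fun a b =>
        Subgroup.mem_center_iff.1 (e ▸ Subgroup.mem_top b : b ∈ Subgroup.center G) a
      letI : CommGroup G := { (inferInstance : Group G) with mul_comm := hcomm }
      have hp := IsSimpleGroup.prime_card (α := G)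
      have hC := Subgroup.card_subgroup_dvd_card (Subgroup.centralizer ({t} : Set G))
      rw [h.cardC] at hC
      rcases (Nat.dvd_prime hp).1 hC with e' | e'
      · norm_num at e'
      · rw [← e'] at hp; norm_num at hp
  set x := g * t * g⁻¹ with hxdef
  have hxQ : x ∉ Q := fun hq => hgne (hcon g hq)
  have htx : IsConj t x := Invol.isConj_conj g t
  obtain ⟨hall, b, hbQ, hbx, hb2, hb1, hbt⟩ := h.coset_conj hcon htx hgc hxQ
  -- all outer involutions are conjugate to `t`
  have hout : ∀ y : G, y * y = 1 → y * t = t * y → y ∉ Q → IsConj t y := by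
    intro y hy hyt hyQ
    have hxC : x ∈ Subgroup.centralizer ({t} : Set G) := Subgroup.mem_centralizer_singleton_iff.2 hgc
    have hyC : y ∈ Subgroup.centralizer ({t} : Set G) := Subgroup.mem_centralizer_singleton_iff.2 hyt
    have hx2 : x * x = 1 := sq_of_orderOf ((Invol.orderOf_eq_of_isConj htx).symm.trans h.ci.order_two)
    obtain ⟨σ, hσ, hσe⟩ := Fin5.exists_conj (φ ⟨x, hxC⟩) (φ ⟨y, hyC⟩)
      (by rw [← map_mul, show (⟨x, hxC⟩ : Subgroup.centralizer ({t} : Set G)) * ⟨x, hxC⟩ = 1 from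
        Subtype.ext hx2, map_one]) (fun e => hxQ ((h.ker _).1 e)) (h.sign_eq _)
      (by rw [← map_mul, show (⟨y, hyC⟩ : Subgroup.centralizer ({t} : Set G)) * ⟨y, hyC⟩ = 1 from
        Subtype.ext hy, map_one]) (fun e => hyQ ((h.ker _).1 e)) (h.sign_eq _)
    obtain ⟨c, hc⟩ : σ ∈ φ.range := by rw [h.range]; exact Equiv.Perm.mem_alternatingGroup.2 hσ
    set x' := (c : G) * x * (c : G)⁻¹ with hx'
    have hx'C : x' ∈ Subgroup.centralizer ({t} : Set G) := mul_mem (mul_mem c.2 hxC) (inv_mem c.2)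
    have hx'2 : x' * x' = 1 := by
      calc x' * x' = (c : G) * (x * x) * (c : G)⁻¹ := by rw [hx']; group
        _ = 1 := by rw [hx2]; group
    have hact : φ ⟨x', hx'C⟩ = φ ⟨y, hyC⟩ := by
      rw [show (⟨x', hx'C⟩ : Subgroup.centralizer ({t} : Set G)) = c * ⟨x, hxC⟩ * c⁻¹ from rfl, map_mul,
        map_mul, map_inv, hc, hσe, mul_inv_cancel_right]
    have hqQ : x' * y ∈ Q := (h.ker (⟨x', hx'C⟩ * ⟨y, hyC⟩)).1 (by
      rw [map_mul, hact, ← map_mul,
        show (⟨y, hyC⟩ : Subgroup.centralizer ({t} : Set G)) * ⟨y, hyC⟩ = 1 from Subtype.ext hy, map_one])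
    have hx'Q : x' ∉ Q := fun hm => hyQ (by
      have := mul_mem hm hqQ
      rwa [← mul_assoc, hx'2, one_mul] at this)
    have htx' : IsConj t x' := htx.trans (Invol.isConj_conj _ _)
    have hr := (h.coset_conj hcon htx' (Subgroup.mem_centralizer_singleton_iff.1 hx'C) hx'Q).1 (x' * y) hqQ
    rw [show x' * (x' * y) = y by rw [← mul_assoc, hx'2, one_mul]] at hr
    exact hr hy
  -- non-central involutions of `Q` centralising `x` lie in the other extraspecial group
  have hin : ∀ v ∈ Q, v * x = x * v → v * v = 1 → v ≠ 1 → v ≠ t → g⁻¹ * v * g ∈ Q := by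
    intro v hv hvx hv2 hv1 hvt
    by_contra hn
    have h2 : g⁻¹ * v * g * (g⁻¹ * v * g) = 1 := by
      calc g⁻¹ * v * g * (g⁻¹ * v * g) = g⁻¹ * (v * v) * g := by group
        _ = 1 := by rw [hv2]; group
    have hc : g⁻¹ * v * g * t = t * (g⁻¹ * v * g) := by
      calc g⁻¹ * v * g * t = g⁻¹ * (v * x) * g := by rw [hxdef]; group
        _ = t * (g⁻¹ * v * g) := by rw [hvx, hxdef]; group
    obtain ⟨k, hk⟩ := isConj_iff.1 ((hout _ h2 hc hn).trans (Invol.isConj_conj g _))
    rw [show g * (g⁻¹ * v * g) * g⁻¹ = v by group] at hk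
    exact hvt (hk ▸ hcon k (hk ▸ hv))
  have hbt' : b * t ≠ 1 := fun e => hbt (by
    rw [eq_inv_of_mul_eq_one_left e, h.ci.inv_eq])
  have hbt'' : b * t ≠ t := fun e => hb1 (mul_eq_right.1 e)
  have hm1 := hin b hbQ hbx hb2 hb1 hbt
  have hm2 := hin (b * t) (mul_mem hbQ h.ci.mem)
    ((show Commute b x from hbx).mul_left (show Commute t x from hgc.symm))
    (by rw [mul_assoc b, ← mul_assoc t, ← h.ci.comm b hbQ, mul_assoc b t, h.ci.sq, mul_one, hb2]) hbt' hbt''
  have hm3 := mul_mem (inv_mem hm1) hm2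
  rw [show (g⁻¹ * b * g)⁻¹ * (g⁻¹ * (b * t) * g) = g⁻¹ * t * g⁻¹⁻¹ by group] at hm3
  have h6 := hcon g⁻¹ hm3
  rw [inv_inv] at h6
  apply hgne
  rw [hxdef]
  calc g * t * g⁻¹ = g * (g⁻¹ * t * g) * g⁻¹ := by rw [h6]
    _ = t := by group

theorem hyp [IsSimpleGroup G] : Hyp t Q :=
  ⟨h.ci, h.cent, h.norm, h.cardQ, h.cardC, h.exists_conj_mem⟩

end Pre

theorem exists_cfg_of_simple [Finite G] [IsSimpleGroup G] (t : G) (ht : orderOf t = 2)
    (Q : Subgroup (Subgroup.centralizer ({t} : Set G))) [Q.Normal] (hQ : Cfsg.IsExtraspecial 2 Q)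
    (hcard : Nat.card Q = 32)
    (hminus : ∀ E : Subgroup Q, Cfsg.IsElementaryAbelian 2 E → Nat.card E ≤ 2 ^ 2)
    (h2c : Subgroup.centralizer (Q : Set (Subgroup.centralizer ({t} : Set G))) ≤ Q)
    (e : (Subgroup.centralizer ({t} : Set G)) ⧸ Q ≃* alternatingGroup (Fin 5))
    (hcl : ∃ x y : G, orderOf x = 2 ∧ orderOf y = 2 ∧ ¬ IsConj x y) :
    ∃ (p : Fin 5 → G) (x : G), Cfg t (Q.map (Subgroup.centralizer ({t} : Set G)).subtype) p x := by
  let C := Subgroup.centralizer ({t} : Set G)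
  set Q' : Subgroup G := Q.map C.subtype with hQ'
  have hinj := Subgroup.subtype_injective C
  have hQe : Cfsg.IsExtraspecial 2 ↥Q' := isExtraspecial_map_equiv hQ (Q.equivMapOfInjective C.subtype hinj)
  have hmem : ∀ c : C, (c : G) ∈ Q' ↔ c ∈ Q := fun c =>
    ⟨fun ⟨w, hw, e⟩ => hinj e ▸ hw, fun hc => ⟨c, hc, rfl⟩⟩
  have htC : t ∈ C := Subgroup.mem_centralizer_singleton_iff.2 rfl
  have htQ : t ∈ Q' := (hmem ⟨t, htC⟩).2 (h2c fun q _ => Subtype.ext
    (Subgroup.mem_centralizer_singleton_iff.1 q.2))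
  obtain ⟨y, hy⟩ := exists_centralInvolution hQe
  have hle : Q' ≤ C := Subgroup.map_subtype_le _
  have hty : t = y := (hy.of_central t htQ fun q hq =>
    Subgroup.mem_centralizer_singleton_iff.1 (hle hq)).resolve_left fun e1 => by simp [e1] at ht
  subst hty
  let φ : C →* Equiv.Perm (Fin 5) :=
    (alternatingGroup (Fin 5)).subtype.comp (e.toMonoidHom.comp (QuotientGroup.mk' Q))
  have hker : ∀ c, φ c = 1 ↔ (c : G) ∈ Q' := fun c => by
    rw [hmem]
    constructor
    · intro hc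
      have : e (QuotientGroup.mk' Q c) = e 1 := by rw [map_one]; exact Subtype.ext hc
      exact (QuotientGroup.eq_one_iff c).1 (e.injective this)
    · intro hc
      show ((e (QuotientGroup.mk' Q c) : alternatingGroup (Fin 5)) : Equiv.Perm (Fin 5)) = 1
      rw [show QuotientGroup.mk' Q c = 1 from (QuotientGroup.eq_one_iff c).2 hc, map_one]
      rfl
  have hrange : φ.range = alternatingGroup (Fin 5) := by
    rw [MonoidHom.range_comp, MonoidHom.range_eq_top.2 (e.surjective.comp (QuotientGroup.mk'_surjective Q)),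
      ← MonoidHom.range_eq_map, Subgroup.range_subtype]
  have hcardC : Nat.card C = 1920 := by
    rw [Subgroup.card_eq_card_quotient_mul_card_subgroup Q, Nat.card_congr e.toEquiv,
      nat_card_alternatingGroup, Nat.card_fin, hcard]
    rfl
  have hPre : Pre t Q' φ := by
    refine ⟨hy, fun w hw => ?_, fun w hw => ?_, by rw [Subgroup.card_map_of_injective hinj, hcard],
      hcardC, fun E hE hcomm hsq => ?_, hker, hrange⟩
    · have hwC : w ∈ C := Subgroup.mem_centralizer_singleton_iff.2 (hw t htQ).symm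
      have hwQ : w ∈ Q' := (hmem ⟨w, hwC⟩).2 (h2c fun q hq => Subtype.ext (hw q ((hmem q).2 hq)))
      exact hy.mem_zpowers_iff.2 (hy.of_central w hwQ fun q hq => hw q hq)
    · refine Subgroup.mem_normalizer_fintype fun v hv => ?_
      obtain ⟨v', hv', rfl⟩ := hv
      exact ⟨⟨w, hw⟩ * v' * ⟨w, hw⟩⁻¹, (inferInstance : Q.Normal).conj_mem v' hv' _, rfl⟩
    · let E' : Subgroup Q := E.comap (C.subtype.comp Q.subtype)
      have hE' : Cfsg.IsElementaryAbelian 2 E' := ⟨⟨⟨fun a b => Subtype.ext (Subtype.ext (Subtype.ext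
        (hcomm _ a.2 _ b.2)))⟩⟩, fun a ha => Subtype.ext (Subtype.ext (by
          rw [Subgroup.coe_pow, Subgroup.coe_pow, pow_two]; exact hsq _ ha))⟩
      refine le_trans (Nat.card_le_card_of_injective (fun a : E =>
        (⟨⟨⟨(a : G), hle (hE a.2)⟩, (hmem _).1 (hE a.2)⟩, a.2⟩ : E')) fun a b e => Subtype.ext
          (congrArg (fun w : E' => (((w : Q) : C) : G)) e)) (hminus E' hE')
  obtain ⟨p, d⟩ := exists_data hPre.hyp
  exact ⟨p, d.exists_cfg hcl⟩

end Cfsg.Agent.J2Type
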